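import Mathlib
import Cfsg.Agent.Lib.Helper96.AltStmt

/-!
# S5165, piece FN: `R ≤ S` with `N_S(R)` a maximal `p`-subgroup of `N_G(R)` is fully normalized
in the fusion system of `G` on the Sylow `p`-subgroup `S`.
-/

set_option autoImplicit false

namespace Cfsg.Agent.Lib.Helper1.AltFN

open Equiv Cfsg.Agent.Lib.Helper96.AltStmt

/-- A maximal `p`-subgroup `T` of a subgroup `N` has at least as many elements as any
`p`-subgroup of `N`. -/
theorem card_le_of_maximal {G : Type} [Group G] [Finite G] (p : ℕ) [Fact p.Prime]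
    (N T U : Subgroup G) (hTN : T ≤ N) (hT : IsPGroup p T)
    (hmax : ∀ P : Subgroup G, IsPGroup p P → P ≤ N → T ≤ P → P ≤ T)
    (hUN : U ≤ N) (hU : IsPGroup p U) : Nat.card U ≤ Nat.card T := by
  have hT₁ : IsPGroup p (T.subgroupOf N) := hT.comap_of_injective N.subtype N.subtype_injective
  have hU₁ : IsPGroup p (U.subgroupOf N) := hU.comap_of_injective N.subtype N.subtype_injective
  obtain ⟨P₁, hP₁⟩ := hT₁.exists_le_sylow
  obtain ⟨Q₁, hQ₁⟩ := hU₁.exists_le_sylow
  have hP₁T : (P₁ : Subgroup N) ≤ T.subgroupOf N := by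
    have h1 : ((P₁ : Subgroup N).map N.subtype) ≤ T := by
      apply hmax _ (P₁.2.map N.subtype)
      · rintro _ ⟨x, -, rfl⟩
        exact x.2
      · intro t ht
        exact ⟨⟨t, hTN ht⟩, hP₁ (Subgroup.mem_subgroupOf.mpr ht), rfl⟩
    intro x hx
    rw [Subgroup.mem_subgroupOf]
    exact h1 ⟨x, hx, rfl⟩
  calc Nat.card U = Nat.card (U.subgroupOf N) :=
        (Nat.card_congr (Subgroup.subgroupOfEquivOfLe hUN).toEquiv).symm
    _ ≤ Nat.card (Q₁ : Subgroup N) := Subgroup.card_le_of_le hQ₁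
    _ = Nat.card (P₁ : Subgroup N) := by
        rw [Sylow.card_eq_multiplicity, Sylow.card_eq_multiplicity]
    _ ≤ Nat.card (T.subgroupOf N) := Subgroup.card_le_of_le hP₁T
    _ = Nat.card T := Nat.card_congr (Subgroup.subgroupOfEquivOfLe hTN).toEquiv

/-- [FN] -/
theorem main : Cfsg.Agent.Lib.Helper96.AltStmt.FullyNormalizedOfMax := by
  intro G _ _ p _ S R hRS hmax
  refine ⟨hRS, ?_⟩
  rintro Q ⟨φ, ⟨-, -, g, hg⟩, hφQ⟩
  -- `Q = g R g⁻¹`
  have hQ : Q = R.map (MulAut.conj g).toMonoidHom := by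
    rw [← hφQ]
    ext y
    constructor
    · rintro ⟨x, rfl⟩
      exact ⟨x, x.2, (hg x).symm⟩
    · rintro ⟨x, hx, rfl⟩
      exact ⟨⟨x, hx⟩, hg ⟨x, hx⟩⟩
  show Nat.card ↥((S : Subgroup G) ⊓ Subgroup.normalizer (Q : Set G)) ≤
    Nat.card ↥((S : Subgroup G) ⊓ Subgroup.normalizer (R : Set G))
  set U : Subgroup G := (S : Subgroup G) ⊓ Subgroup.normalizer (Q : Set G) with hUdef
  set T : Subgroup G := (S : Subgroup G) ⊓ Subgroup.normalizer (R : Set G) with hTdef
  have hUp : IsPGroup p U := S.2.to_le inf_le_left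
  have hTp : IsPGroup p T := S.2.to_le inf_le_left
  -- transport `U` into `N_G(R)`
  let U' : Subgroup G := U.map (MulAut.conj g⁻¹).toMonoidHom
  have hU'card : Nat.card U' = Nat.card U :=
    Subgroup.card_map_of_injective (MulAut.conj g⁻¹).injective
  have hU'p : IsPGroup p U' := hUp.map _
  have hU'N : U' ≤ Subgroup.normalizer (R : Set G) := by
    rintro _ ⟨u, hu, rfl⟩
    have h1 : u ∈ Subgroup.normalizer (Q : Set G) := hu.2
    rw [hQ, ← Subgroup.map_equiv_normalizer_eq] at h1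
    obtain ⟨n, hn, rfl⟩ := h1
    have h2 : (MulAut.conj g⁻¹).toMonoidHom ((MulAut.conj g).toMonoidHom n) = n := by
      show g⁻¹ * (g * n * g⁻¹) * g⁻¹⁻¹ = n
      group
    rw [h2]
    exact hn
  rw [← hU'card]
  apply card_le_of_maximal p (Subgroup.normalizer (R : Set G)) T U' inf_le_right hTp ?_ hU'N hU'p
  intro P hP hPN hTP
  exact le_inf (hmax P hP hPN hTP) hPN

end Cfsg.Agent.Lib.Helper1.AltFN
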