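import Mathlib
import Cfsg.Agent.Lib.Helper96.AltStmt
import Cfsg.Agent.Lib.Helper87.FSBasic
import Cfsg.Agent.Lib.Helper96.PslF3

/-!
# S5165, piece RD: `R ≤ S` with `C_G(R) ≤ R` and `O_p(N_G(R)) ≤ R` is radical in the fusion
system of `G` on the Sylow `p`-subgroup `S`.
-/

set_option autoImplicit false

namespace Cfsg.Agent.Lib.Helper1.AltRD

open Equiv Cfsg Cfsg.FusionSystem Cfsg.Agent.Lib.Helper96.AltStmt

/-- the conjugation homomorphism `N_G(R) → Aut(R)` takes values in `Aut_F(R)` -/
theorem normHom_mem {G : Type} [Group G] (S R : Subgroup G) (hRS : R ≤ S)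
    (g : Subgroup.normalizer (R : Set G)) :
    Subgroup.normalizerMonoidHom R g ∈ (groupFusionSystem S).autGroup R := by
  refine Subgroup.subset_closure ?_
  exact ⟨hRS, fun x => hRS (Subgroup.normalizerMonoidHom R g x).2, (g : G), fun x => rfl⟩

/-- every element of `Aut_F(R)` is conjugation by an element of `N_G(R)` -/
theorem exists_normHom_eq {G : Type} [Group G] (S R : Subgroup G) (hRS : R ≤ S)
    (α : MulAut R) (hα : α ∈ (groupFusionSystem S).autGroup R) :
    ∃ g : Subgroup.normalizer (R : Set G), Subgroup.normalizerMonoidHom R g = α := by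
  obtain ⟨-, -, g, hg⟩ :=
    (Cfsg.Agent.Lib.Helper87.FSBasic.mem_autGroup_iff (groupFusionSystem S) hRS α).mp hα
  have hg' : ∀ x : R, ((α x : R) : G) = g * (x : G) * g⁻¹ := hg
  have hgN : g ∈ Subgroup.normalizer (R : Set G) := by
    rw [Subgroup.mem_normalizer_iff]
    intro h
    constructor
    · intro hh
      rw [← hg' ⟨h, hh⟩]
      exact (α ⟨h, hh⟩).2
    · intro hh
      have h1 := hg' (α.symm ⟨g * h * g⁻¹, hh⟩)
      rw [MulEquiv.apply_symm_apply] at h1
      have h2 : h = ((α.symm ⟨g * h * g⁻¹, hh⟩ : R) : G) :=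
        mul_left_cancel (mul_right_cancel h1)
      rw [h2]
      exact (α.symm ⟨g * h * g⁻¹, hh⟩).2
  refine ⟨⟨g, hgN⟩, ?_⟩
  ext x
  exact (hg' x).symm

/-- [RD] -/
theorem main : Cfsg.Agent.Lib.Helper96.AltStmt.RadicalOfCore := by
  intro G _ _ p _ S R hRS hcent hcore
  refine ⟨hRS, ?_⟩
  set A := (groupFusionSystem (S : Subgroup G)).autGroup R with hA
  have hRp : IsPGroup p R := S.2.to_le hRS
  -- `Inn R ≤ A`
  have hInnA : Inn R ≤ A := by
    rintro _ ⟨r, rfl⟩
    have h1 := normHom_mem (S : Subgroup G) R hRS ⟨(r : G), Subgroup.le_normalizer r.2⟩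
    have h2 : Subgroup.normalizerMonoidHom R ⟨(r : G), Subgroup.le_normalizer r.2⟩ =
        MulAut.conj r := by
      ext x
      rfl
    rw [h2] at h1
    exact h1
  apply le_antisymm
  · -- `O_p(Aut_F(R)) ≤ Inn R`
    rw [Subgroup.map_le_iff_le_comap]
    apply sSup_le
    rintro N ⟨hNn, hNp⟩ ν hν
    rw [Subgroup.mem_comap]
    show (ν : MulAut R) ∈ Inn R
    -- the conjugation homomorphism into `A`
    let c' : Subgroup.normalizer (R : Set G) →* A :=
      (Subgroup.normalizerMonoidHom R).codRestrict A (normHom_mem (S : Subgroup G) R hRS)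
    let P : Subgroup G := (N.comap c').map (Subgroup.normalizer (R : Set G)).subtype
    have hPN : P ≤ Subgroup.normalizer (R : Set G) := by
      rintro _ ⟨x, -, rfl⟩
      exact x.2
    have hPnorm : ∀ n ∈ Subgroup.normalizer (R : Set G), ∀ x ∈ P, n * x * n⁻¹ ∈ P := by
      rintro n hn _ ⟨x, hx, rfl⟩
      refine ⟨⟨n, hn⟩ * x * ⟨n, hn⟩⁻¹, ?_, rfl⟩
      have hx' : c' x ∈ N := hx
      show c' (⟨n, hn⟩ * x * ⟨n, hn⟩⁻¹) ∈ N
      rw [map_mul, map_mul, map_inv]
      exact hNn.conj_mem _ hx' _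
    have hPp : IsPGroup p P := by
      rintro ⟨_, x, hx, rfl⟩
      have hx' : c' x ∈ N := hx
      obtain ⟨a, ha⟩ := hNp ⟨c' x, hx'⟩
      have ha1 : (c' x) ^ p ^ a = 1 := by
        have := congrArg Subtype.val ha
        simpa using this
      have ha2 : Subgroup.normalizerMonoidHom R (x ^ p ^ a) = 1 := by
        have := congrArg Subtype.val ha1
        rw [← map_pow] at this
        exact this
      have hxR : ((x ^ p ^ a : Subgroup.normalizer (R : Set G)) : G) ∈ R := by
        apply hcent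
        intro r hr
        have h1 : Subgroup.normalizerMonoidHom R (x ^ p ^ a) ⟨r, hr⟩ = ⟨r, hr⟩ := by
          rw [ha2]; rfl
        have h2 : ((x ^ p ^ a : Subgroup.normalizer (R : Set G)) : G) * r *
            ((x ^ p ^ a : Subgroup.normalizer (R : Set G)) : G)⁻¹ = r :=
          congrArg Subtype.val h1
        calc ((x ^ p ^ a : Subgroup.normalizer (R : Set G)) : G) * r
            = ((x ^ p ^ a : Subgroup.normalizer (R : Set G)) : G) * r *
              ((x ^ p ^ a : Subgroup.normalizer (R : Set G)) : G)⁻¹ *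
              ((x ^ p ^ a : Subgroup.normalizer (R : Set G)) : G) := by group
          _ = r * ((x ^ p ^ a : Subgroup.normalizer (R : Set G)) : G) := by rw [h2]
      obtain ⟨b, hb⟩ := hRp ⟨_, hxR⟩
      have hb1 : (((x ^ p ^ a : Subgroup.normalizer (R : Set G)) : G)) ^ p ^ b = 1 := by
        have := congrArg Subtype.val hb
        simpa using this
      refine ⟨a + b, Subtype.ext ?_⟩
      show ((x : G)) ^ p ^ (a + b) = 1
      rw [pow_add, pow_mul]
      simpa using hb1
    have hPR : P ≤ R := hcore P hPp hPN hPnorm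
    obtain ⟨g, hg⟩ := exists_normHom_eq (S : Subgroup G) R hRS (ν : MulAut R) ν.2
    have hgP : (g : G) ∈ P := by
      refine ⟨g, ?_, rfl⟩
      have : c' g = ν := Subtype.ext hg
      show c' g ∈ N
      rw [this]
      exact hν
    have hgR : (g : G) ∈ R := hPR hgP
    refine ⟨⟨(g : G), hgR⟩, ?_⟩
    rw [← hg]
    ext x
    rfl
  · -- `Inn R ≤ O_p(Aut_F(R))`
    have hnormal : ((Inn R).subgroupOf A).Normal := by
      constructor
      intro n hn g
      rw [Subgroup.mem_subgroupOf] at hn ⊢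
      obtain ⟨r, hr⟩ := hn
      refine ⟨(g : MulAut R) r, ?_⟩
      show MulAut.conj ((g : MulAut R) r) = (g : MulAut R) * (n : MulAut R) * (g : MulAut R)⁻¹
      rw [← hr]
      ext x
      simp
    have hpg : IsPGroup p ((Inn R).subgroupOf A) := by
      have h1 : IsPGroup p (Inn R) :=
        hRp.of_surjective (MulAut.conj : R →* MulAut R).rangeRestrict
          (MulAut.conj : R →* MulAut R).rangeRestrict_surjective
      exact h1.comap_of_injective A.subtype A.subtype_injective
    have hle : (Inn R).subgroupOf A ≤ pCore p A := le_sSup ⟨hnormal, hpg⟩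
    intro ν hν
    exact ⟨⟨ν, hInnA hν⟩, hle (Subgroup.mem_subgroupOf.mpr hν), rfl⟩

end Cfsg.Agent.Lib.Helper1.AltRD
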