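import Mathlib
import Cfsg.Agent.Lib.Helper96.AltStmt

/-!
# S5165, piece TP: a `PClosed 2` set of `A_n` (`n ≥ 6`) containing a double transposition contains
every involution.
-/

set_option autoImplicit false

namespace Cfsg.Agent.Lib.Helper1.AltTP

open Equiv Cfsg.Agent.Lib.Helper96.AltStmt

section PermLemmas

variable {α : Type*} [Fintype α] [DecidableEq α]

omit [Fintype α] [DecidableEq α] in
theorem invol_apply_apply (y : Perm α) (hy2 : y ^ 2 = 1) (x : α) : y (y x) = x := by
  have h := congrArg (fun f : Perm α => f x) hy2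
  simpa [pow_two] using h

/-- an even involution `≠ 1` moves two points in different orbits -/
theorem exists_four (y : Perm α) (hy2 : y ^ 2 = 1) (hy1 : y ≠ 1) (hsign : Perm.sign y = 1) :
    ∃ a c : α, y a ≠ a ∧ y c ≠ c ∧ c ≠ a ∧ c ≠ y a := by
  obtain ⟨a, ha⟩ : ∃ a, y a ≠ a := by
    by_contra hcon
    push Not at hcon
    exact hy1 (Perm.ext hcon)
  by_contra hcon
  push Not at hcon
  have hyswap : y = swap a (y a) := by
    ext x
    by_cases hxa : x = a
    · rw [hxa, swap_apply_left]
    · by_cases hxb : x = y a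
      · rw [hxb, swap_apply_right, invol_apply_apply y hy2]
      · rw [swap_apply_of_ne_of_ne hxa hxb]
        by_contra hx
        exact hxb (hcon a x ha hx hxa)
  have hs : Perm.sign (swap a (y a)) = -1 := Perm.sign_swap (Ne.symm ha)
  rw [← hyswap, hsign] at hs
  exact absurd hs (by decide)

omit [Fintype α] in
theorem commute_swap_of_invol (y : Perm α) (hy2 : y ^ 2 = 1) (a : α) :
    y * swap a (y a) = swap a (y a) * y := by
  have h := swap_apply_apply y a (y a)
  rw [invol_apply_apply y hy2, swap_comm] at h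
  calc y * swap a (y a) = y * swap a (y a) * y⁻¹ * y := by group
    _ = swap a (y a) * y := by rw [← h]

/-- the peeling step: an even involution `≠ 1` is `δ * y'` with `δ` a double transposition
commuting with it and `y' = δ * y` of smaller support -/
theorem peel (y : Perm α) (hy2 : y ^ 2 = 1) (hy1 : y ≠ 1) (hsign : Perm.sign y = 1) :
    ∃ δ : Perm α, δ.cycleType = {2, 2} ∧ Perm.sign δ = 1 ∧ δ * δ = 1 ∧ δ * y = y * δ ∧
      (δ * y).support.card < y.support.card := by
  obtain ⟨a, c, ha, hc, hca, hcb⟩ := exists_four y hy2 hy1 hsign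
  have hda : y c ≠ a := by
    intro h
    have h1 := invol_apply_apply y hy2 c
    rw [h] at h1
    exact hcb h1.symm
  have hdb : y c ≠ y a := fun h => hca (y.injective h)
  have hnodup : [a, y a, c, y c].Nodup := by
    simp only [List.nodup_cons, List.mem_cons, List.not_mem_nil, or_false, not_or,
      List.nodup_nil, and_true]
    exact ⟨⟨Ne.symm ha, Ne.symm hca, Ne.symm hda⟩, ⟨Ne.symm hcb, Ne.symm hdb⟩, Ne.symm hc,
      not_false⟩
  have hdisj : Perm.Disjoint (swap a (y a)) (swap c (y c)) := Perm.disjoint_swap_swap hnodup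
  have hcomm1 := commute_swap_of_invol y hy2 a
  have hcomm2 := commute_swap_of_invol y hy2 c
  refine ⟨swap a (y a) * swap c (y c), Perm.cycleType_swap_mul_swap_of_nodup hnodup, ?_, ?_, ?_,
    ?_⟩
  · rw [Perm.sign_mul, Perm.sign_swap (Ne.symm ha), Perm.sign_swap (Ne.symm hc)]
    rfl
  · calc swap a (y a) * swap c (y c) * (swap a (y a) * swap c (y c))
        = swap a (y a) * (swap c (y c) * swap a (y a)) * swap c (y c) := by group
      _ = swap a (y a) * (swap a (y a) * swap c (y c)) * swap c (y c) := by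
          rw [← hdisj.commute.eq]
      _ = (swap a (y a) * swap a (y a)) * (swap c (y c) * swap c (y c)) := by group
      _ = 1 := by rw [swap_mul_self, swap_mul_self, one_mul]
  · calc swap a (y a) * swap c (y c) * y = swap a (y a) * (swap c (y c) * y) := by group
      _ = swap a (y a) * (y * swap c (y c)) := by rw [hcomm2]
      _ = (swap a (y a) * y) * swap c (y c) := by group
      _ = (y * swap a (y a)) * swap c (y c) := by rw [hcomm1]
      _ = y * (swap a (y a) * swap c (y c)) := by group
  · apply Finset.card_lt_card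
    refine ⟨?_, ?_⟩
    · intro x hx
      rw [Perm.mem_support] at hx ⊢
      intro hyx
      apply hx
      have hxa : x ≠ a := fun h => ha (h ▸ hyx)
      have hxb : x ≠ y a := by
        intro h
        have h1 := invol_apply_apply y hy2 a
        rw [← h, hyx] at h1
        exact hxa h1
      have hxc : x ≠ c := fun h => hc (h ▸ hyx)
      have hxd : x ≠ y c := by
        intro h
        have h1 := invol_apply_apply y hy2 c
        rw [← h, hyx] at h1
        exact hxc h1
      show swap a (y a) (swap c (y c) (y x)) = x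
      rw [hyx, swap_apply_of_ne_of_ne hxc hxd, swap_apply_of_ne_of_ne hxa hxb]
    · intro hsub
      have ha1 : a ∈ y.support := Perm.mem_support.mpr ha
      have ha2 := hsub ha1
      rw [Perm.mem_support] at ha2
      apply ha2
      show swap a (y a) (swap c (y c) (y a)) = a
      rw [swap_apply_of_ne_of_ne (Ne.symm hcb) (Ne.symm hdb), swap_apply_right]

/-- double transpositions are conjugate under an even permutation (at least `6` points) -/
theorem conj_even (σ τ : Perm α) (hσ : σ.cycleType = {2, 2}) (hτ : τ.cycleType = {2, 2})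
    (hcard : 6 ≤ Fintype.card α) : ∃ ρ : Perm α, Perm.sign ρ = 1 ∧ ρ * σ * ρ⁻¹ = τ := by
  obtain ⟨ρ, hρ⟩ := isConj_iff.mp (Perm.isConj_iff_cycleType_eq.mpr (hσ.trans hτ.symm))
  by_cases hs : Perm.sign ρ = 1
  · exact ⟨ρ, hs, hρ⟩
  · have hsupp : σ.support.card = 4 := by rw [← Perm.sum_cycleType, hσ]; rfl
    have hcompl : 1 < (σ.supportᶜ).card := by rw [Finset.card_compl, hsupp]; omega
    obtain ⟨u, hu, v, hv, huv⟩ := Finset.one_lt_card.mp hcompl
    rw [Finset.mem_compl, Perm.notMem_support] at hu hv
    have hcomm : swap u v * σ = σ * swap u v := by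
      have h := swap_apply_apply σ u v
      rw [hu, hv] at h
      calc swap u v * σ = σ * swap u v * σ⁻¹ * σ := by rw [← h]
        _ = σ * swap u v := by group
    refine ⟨ρ * swap u v, ?_, ?_⟩
    · rw [Perm.sign_mul, Perm.sign_swap huv]
      rcases Int.units_eq_one_or (Perm.sign ρ) with h | h
      · exact absurd h hs
      · rw [h]; rfl
    · rw [mul_inv_rev, swap_inv]
      calc ρ * swap u v * σ * (swap u v * ρ⁻¹) = ρ * (swap u v * σ) * swap u v * ρ⁻¹ := by group
        _ = ρ * (σ * swap u v) * swap u v * ρ⁻¹ := by rw [hcomm]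
        _ = ρ * σ * (swap u v * swap u v) * ρ⁻¹ := by group
        _ = τ := by rw [swap_mul_self, mul_one, hρ]

end PermLemmas

/-- two commuting involutions lie in a common `2`-subgroup -/
theorem exists_two_group {G : Type*} [Group G] (x y : G) (hx : x ^ 2 = 1) (hy : y ^ 2 = 1)
    (hxy : x * y = y * x) : ∃ Q : Subgroup G, IsPGroup 2 Q ∧ x ∈ Q ∧ y ∈ Q := by
  have hz : ∀ z : G, z ^ 2 = 1 → IsPGroup 2 (Subgroup.zpowers z) := by
    intro z hz
    rintro ⟨g, hg⟩
    obtain ⟨k, rfl⟩ := Subgroup.mem_zpowers_iff.mp hg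
    refine ⟨1, Subtype.ext ?_⟩
    show (z ^ k) ^ 2 ^ 1 = 1
    rw [pow_one, ← zpow_natCast, ← zpow_mul, mul_comm, zpow_mul, zpow_natCast, hz, one_zpow]
  refine ⟨Subgroup.zpowers x ⊔ Subgroup.zpowers y, (hz x hx).to_sup_of_normal_right' (hz y hy) ?_,
    Subgroup.mem_sup_left (Subgroup.mem_zpowers x), Subgroup.mem_sup_right (Subgroup.mem_zpowers y)⟩
  rw [Subgroup.zpowers_le]
  apply Subgroup.centralizer_le_normalizer
  rw [Subgroup.mem_centralizer_iff]
  intro h hh
  obtain ⟨k, rfl⟩ := Subgroup.mem_zpowers_iff.mp hh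
  exact (Commute.zpow_right (show Commute x y from hxy) k).eq.symm

/-- [TP] -/
theorem main : Cfsg.Agent.Lib.Helper96.AltStmt.TwoOrderP := by
  rintro n hn X hX ⟨c₀, hc₀, hc₀t⟩
  have h1X : (1 : alternatingGroup (Fin n)) ∈ X := by
    have := hX.pow c₀ hc₀ 0
    rwa [pow_zero] at this
  -- every double transposition is in `X`
  have hdouble : ∀ δ : alternatingGroup (Fin n), (δ : Perm (Fin n)).cycleType = {2, 2} →
      δ ∈ X := by
    intro δ hδ
    obtain ⟨ρ, hρs, hρ⟩ := conj_even (c₀ : Perm (Fin n)) (δ : Perm (Fin n)) hc₀t hδ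
      (by rw [Fintype.card_fin]; exact hn)
    have h1 := hX.conj c₀ hc₀ ⟨ρ, Perm.mem_alternatingGroup.mpr hρs⟩
    have e : (⟨ρ, Perm.mem_alternatingGroup.mpr hρs⟩ : alternatingGroup (Fin n)) * c₀ *
        (⟨ρ, Perm.mem_alternatingGroup.mpr hρs⟩ : alternatingGroup (Fin n))⁻¹ = δ :=
      Subtype.ext hρ
    rw [e] at h1
    exact h1
  have key : ∀ (m : ℕ) (y : alternatingGroup (Fin n)), (y : Perm (Fin n)).support.card ≤ m →
      y ^ 2 = 1 → y ∈ X := by
    intro m
    induction m with
    | zero =>
      intro y hy _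
      have h1 : (y : Perm (Fin n)) = 1 := Perm.card_support_eq_zero.mp (Nat.le_zero.mp hy)
      have h2 : y = 1 := Subtype.ext h1
      rw [h2]; exact h1X
    | succ m ih =>
      intro y hy hy2
      by_cases hy1 : y = 1
      · rw [hy1]; exact h1X
      · have hy2' : (y : Perm (Fin n)) ^ 2 = 1 := by
          have := congrArg Subtype.val hy2
          simpa using this
        have hy1' : (y : Perm (Fin n)) ≠ 1 := fun h => hy1 (Subtype.ext h)
        obtain ⟨δ, hδt, hδs, hδδ, hδy, hlt⟩ :=
          peel (y : Perm (Fin n)) hy2' hy1' (Perm.mem_alternatingGroup.mp y.2)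
        let δ' : alternatingGroup (Fin n) := ⟨δ, Perm.mem_alternatingGroup.mpr hδs⟩
        have hδ'X : δ' ∈ X := hdouble δ' hδt
        have hδ'2 : δ' ^ 2 = 1 := Subtype.ext (by show δ ^ 2 = 1; rw [pow_two]; exact hδδ)
        have hcomm : δ' * y = y * δ' := Subtype.ext hδy
        have hy'2 : (δ' * y) ^ 2 = 1 := by
          rw [pow_two]
          calc δ' * y * (δ' * y) = δ' * (y * δ') * y := by group
            _ = δ' * (δ' * y) * y := by rw [hcomm]
            _ = (δ' * δ') * (y * y) := by group
            _ = 1 := by rw [← pow_two, ← pow_two, hδ'2, hy2, one_mul]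
        have hy'X : δ' * y ∈ X := by
          apply ih _ _ hy'2
          exact Nat.lt_succ_iff.mp (lt_of_lt_of_le hlt hy)
        have hyeq : y = δ' * (δ' * y) := by
          rw [← mul_assoc, ← pow_two, hδ'2, one_mul]
        rw [hyeq]
        apply hX.mul δ' hδ'X (δ' * y) hy'X
        apply exists_two_group δ' (δ' * y) hδ'2 hy'2
        rw [mul_assoc, hcomm]
  intro y hy2
  exact key _ y le_rfl hy2

end Cfsg.Agent.Lib.Helper1.AltTP
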