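import Mathlib
import Cfsg.Agent.Lib.Helper96.AltStmt

/-!
# S5165, piece TR: `Gen` is transported by group isomorphisms.
-/

set_option autoImplicit false

namespace Cfsg.Agent.Lib.Helper1.AltTR

open Equiv Cfsg.Agent.Lib.Helper96.AltStmt

variable {G₀ G : Type} [Group G₀] [Group G]

theorem mem_normalizer_map (θ : G₀ ≃* G) (R : Subgroup G₀) (x : G₀) :
    θ x ∈ Subgroup.normalizer ((R.map θ.toMonoidHom : Subgroup G) : Set G) ↔
      x ∈ Subgroup.normalizer (R : Set G₀) := by
  rw [← Subgroup.map_equiv_normalizer_eq, Subgroup.mem_map_equiv, MulEquiv.symm_apply_apply]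

theorem comap_le_normalizer (θ : G₀ ≃* G) (R : Subgroup G₀) (P : Subgroup G)
    (hPN : P ≤ Subgroup.normalizer ((R.map θ.toMonoidHom : Subgroup G) : Set G)) :
    P.comap θ.toMonoidHom ≤ Subgroup.normalizer (R : Set G₀) := by
  intro x hx
  rw [Subgroup.mem_comap] at hx
  exact (mem_normalizer_map θ R x).mp (hPN hx)

theorem le_map_of_comap_le (θ : G₀ ≃* G) (R : Subgroup G₀) (P : Subgroup G)
    (h : P.comap θ.toMonoidHom ≤ R) : P ≤ R.map θ.toMonoidHom := by
  intro x hx
  rw [Subgroup.mem_map_equiv]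
  apply h
  rw [Subgroup.mem_comap]
  show θ (θ.symm x) ∈ P
  rw [MulEquiv.apply_symm_apply]
  exact hx

/-- `RC` is transported by isomorphisms. -/
theorem rc_map (p : ℕ) (θ : G₀ ≃* G) (S₀ R : Subgroup G₀) (h : RC p S₀ R) :
    RC p (S₀.map θ.toMonoidHom) (R.map θ.toMonoidHom) := by
  obtain ⟨h1, h2, h3, h4⟩ := h
  refine ⟨Subgroup.map_mono h1, ?_, ?_, ?_⟩
  · intro g hg
    rw [Subgroup.mem_map_equiv]
    apply h2
    intro r hr
    have := hg (θ r) (Subgroup.mem_map_of_mem _ hr)
    apply θ.injective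
    rw [map_mul, map_mul, MulEquiv.apply_symm_apply]
    exact this
  · intro P hP hPN hnorm
    have hP₀ : IsPGroup p (P.comap θ.toMonoidHom) :=
      hP.comap_of_injective θ.toMonoidHom θ.injective
    apply le_map_of_comap_le
    apply h3 (P.comap θ.toMonoidHom) hP₀ (comap_le_normalizer θ R P hPN)
    intro n hn x hx
    rw [Subgroup.mem_comap] at hx ⊢
    have := hnorm (θ n) ((mem_normalizer_map θ R n).mpr hn) (θ x) hx
    show θ (n * x * n⁻¹) ∈ P
    rw [map_mul, map_mul, map_inv]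
    exact this
  · intro P hP hPN hle
    have hP₀ : IsPGroup p (P.comap θ.toMonoidHom) :=
      hP.comap_of_injective θ.toMonoidHom θ.injective
    apply le_map_of_comap_le
    apply h4 (P.comap θ.toMonoidHom) hP₀ (comap_le_normalizer θ R P hPN)
    intro x hx
    rw [Subgroup.mem_comap]
    apply hle
    exact ⟨Subgroup.mem_map_of_mem _ hx.1, (mem_normalizer_map θ R x).mpr hx.2⟩

/-- `Opp` is transported by isomorphisms. -/
theorem opp_map (p : ℕ) (θ : G₀ ≃* G) (R : Subgroup G₀) (h : G₀) (hh : h ∈ Opp p R) :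
    θ h ∈ Opp p (R.map θ.toMonoidHom) := by
  unfold Opp at hh ⊢
  induction hh using Subgroup.closure_induction with
  | mem k hk =>
    obtain ⟨hk1, e, he⟩ := hk
    exact Subgroup.subset_closure ⟨(mem_normalizer_map θ R k).mpr hk1, e, by
      rw [MulEquiv.orderOf_eq]; exact he⟩
  | one => rw [map_one]; exact Subgroup.one_mem _
  | mul a b _ _ ha hb => rw [map_mul]; exact Subgroup.mul_mem _ ha hb
  | inv a _ ha => rw [map_inv]; exact Subgroup.inv_mem _ ha

/-- [TR] -/
theorem main : Cfsg.Agent.Lib.Helper96.AltStmt.Transport := by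
  intro G₀ G _ _ p θ S₀ hgen g hg
  have hg0 : θ.symm g ∈ Subgroup.normalizer (S₀ : Set G₀) := by
    rw [← mem_normalizer_map θ S₀, MulEquiv.apply_symm_apply]; exact hg
  have h := hgen (θ.symm g) hg0
  have key : ∀ x : G₀, x ∈ Subgroup.closure {h : G₀ | h ∈ Subgroup.normalizer (S₀ : Set G₀) ∧
        ∃ R : Subgroup G₀, RC p S₀ R ∧ h ∈ Opp p R} →
      θ x ∈ Subgroup.closure {h : G |
        h ∈ Subgroup.normalizer ((S₀.map θ.toMonoidHom : Subgroup G) : Set G) ∧
        ∃ R : Subgroup G, RC p (S₀.map θ.toMonoidHom) R ∧ h ∈ Opp p R} := by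
    intro x hx
    induction hx using Subgroup.closure_induction with
    | mem k hk =>
      obtain ⟨hk1, R, hR, hkR⟩ := hk
      exact Subgroup.subset_closure ⟨(mem_normalizer_map θ S₀ k).mpr hk1, R.map θ.toMonoidHom,
        rc_map p θ S₀ R hR, opp_map p θ R k hkR⟩
    | one => rw [map_one]; exact Subgroup.one_mem _
    | mul a b _ _ ha hb => rw [map_mul]; exact Subgroup.mul_mem _ ha hb
    | inv a _ ha => rw [map_inv]; exact Subgroup.inv_mem _ ha
  have := key _ h
  rwa [MulEquiv.apply_symm_apply] at this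

end Cfsg.Agent.Lib.Helper1.AltTR
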