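import Mathlib
import Cfsg.Agent.Lib.Helper4.S53Z0
import Cfsg.Agent.Lib.Helper73.BG143Stmt

/-!
# S1432 piece SPLIT: `x'` of prime order `q ≠ p` normalizing `B ≅ E_{p²}`, centralizing `x ∈ B`
of order `p` but not `B`: `B = X₂ × ⟨x⟩` with `X₂` of order `p` normalized by `⟨x'⟩`, on which the
non-identity elements of `⟨x'⟩` act fixed-point-freely.
-/

set_option autoImplicit false

namespace Cfsg.Agent.Lib.Helper1.BG143SPLIT

universe u

theorem main : Cfsg.Agent.Lib.Helper73.BG143Stmt.Split.{u} := by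
  intro G _ _ B x x' p q hp hq hpq hBel hBc hxB hxo hx'o hx'N hcomm hnc
  have hcen : ∀ g : G, g ∈ Subgroup.centralizer ({x'} : Set G) ↔ x' * g = g * x' := by
    intro g
    simp [Subgroup.mem_centralizer_iff]
  have hx1 : x ≠ 1 := by
    intro h
    rw [h, orderOf_one] at hxo
    exact hp.one_lt.ne hxo
  -- the fixed points of `x'` on `B`
  set X : Subgroup G := B ⊓ Subgroup.centralizer ({x'} : Set G) with hX
  have hXB : X ≤ B := inf_le_left
  have hxX : x ∈ X := ⟨hxB, (hcen x).2 hcomm⟩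
  have hXne : X ≠ B := by
    intro h
    apply hnc
    intro b hb
    have : b ∈ X := by rw [h]; exact hb
    exact (hcen b).1 this.2
  have hXc : Nat.card X = p := by
    have hdvd : Nat.card X ∣ p ^ 2 := by
      rw [← hBc]; exact Subgroup.card_dvd_of_le hXB
    obtain ⟨m, hm, hXm⟩ := (Nat.dvd_prime_pow hp).1 hdvd
    have hpX : p ∣ Nat.card X := by
      have h1 : Nat.card (Subgroup.zpowers x) ∣ Nat.card X :=
        Subgroup.card_dvd_of_le (Subgroup.zpowers_le.2 hxX)
      rwa [Nat.card_zpowers, hxo] at h1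
    interval_cases m
    · rw [hXm, pow_zero] at hpX
      exact absurd (Nat.le_of_dvd Nat.one_pos hpX) (not_le.2 hp.one_lt)
    · rw [hXm, pow_one]
    · exfalso
      apply hXne
      exact Subgroup.eq_of_le_of_card_ge hXB (by rw [hBc, hXm])
  obtain ⟨Z, hZB, hZc, -, hZfix, hZnorm⟩ :=
    Cfsg.Agent.Lib.Helper4.S53Z0.main B X x' q p hq hp (Ne.symm hpq) hx'o hBel hBc hx'N hXc rfl
  have hx'Z : x' ∈ Subgroup.normalizer (Z : Set G) := hZnorm x' hx'N rfl
  refine ⟨Z, hZB, hZc, Subgroup.zpowers_le.2 hx'Z, ?_, ?_⟩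
  · intro c hc hc1 a ha hca
    -- `c` generates `zpowers x'`
    have hle : Subgroup.zpowers c ≤ Subgroup.zpowers x' := Subgroup.zpowers_le.2 hc
    have hoc : orderOf c = q := by
      have hdvd : orderOf c ∣ q := by
        have h1 : Nat.card (Subgroup.zpowers c) ∣ Nat.card (Subgroup.zpowers x') :=
          Subgroup.card_dvd_of_le hle
        rwa [Nat.card_zpowers, Nat.card_zpowers, hx'o] at h1
      rcases (Nat.dvd_prime hq).1 hdvd with h | h
      · exact absurd (orderOf_eq_one_iff.1 h) hc1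
      · exact h
    have heq : Subgroup.zpowers c = Subgroup.zpowers x' :=
      Subgroup.eq_of_le_of_card_ge hle (by rw [Nat.card_zpowers, Nat.card_zpowers, hoc, hx'o])
    have hx'c : x' ∈ Subgroup.zpowers c := by
      rw [heq]; exact Subgroup.mem_zpowers x'
    obtain ⟨j, hj⟩ := Subgroup.mem_zpowers_iff.1 hx'c
    have hcomm' : Commute c a := hca
    have h2 : Commute (c ^ j) a := hcomm'.zpow_left j
    rw [hj] at h2
    have ha' : a ∈ Z ⊓ Subgroup.centralizer ({x'} : Set G) := ⟨ha, (hcen a).2 h2.eq⟩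
    rw [hZfix] at ha'
    exact Subgroup.mem_bot.1 ha'
  · -- `Z ⊔ zpowers x = B`
    have hxZ : x ∉ Z := by
      intro h
      have : x ∈ Z ⊓ Subgroup.centralizer ({x'} : Set G) := ⟨h, (hcen x).2 hcomm⟩
      rw [hZfix] at this
      exact hx1 (Subgroup.mem_bot.1 this)
    set W : Subgroup G := Z ⊔ Subgroup.zpowers x with hW
    have hWB : W ≤ B := sup_le hZB (Subgroup.zpowers_le.2 hxB)
    have hZW : Z ≤ W := le_sup_left
    have hxW : x ∈ W := (le_sup_right : Subgroup.zpowers x ≤ W) (Subgroup.mem_zpowers x)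
    have hdvd : Nat.card W ∣ p ^ 2 := by
      rw [← hBc]; exact Subgroup.card_dvd_of_le hWB
    obtain ⟨m, hm, hWm⟩ := (Nat.dvd_prime_pow hp).1 hdvd
    have hgt : p < Nat.card W := by
      by_contra hle
      push Not at hle
      have : Z = W := Subgroup.eq_of_le_of_card_ge hZW (by rw [hZc]; exact hle)
      exact hxZ (by rw [this]; exact hxW)
    have hm2 : m = 2 := by
      interval_cases m
      · rw [hWm, pow_zero] at hgt
        exact absurd hgt (not_lt.2 hp.one_lt.le)
      · rw [hWm, pow_one] at hgt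
        exact absurd hgt (lt_irrefl p)
      · rfl
    have : W = B := Subgroup.eq_of_le_of_card_ge hWB (by rw [hBc, hWm, hm2])
    rw [this]

end Cfsg.Agent.Lib.Helper1.BG143SPLIT
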