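import Mathlib
import Cfsg.Prelude.Def_Blocks
import Cfsg.Agent.Lib.CT.Kernel

/-!
# S4503, piece K6: a character of degree one trivial on a subgroup with full normal closure
is trivial.
-/

set_option autoImplicit false

namespace Cfsg.Agent.Lib.Helper1.BrK6

open Cfsg
open scoped ComplexConjugate

universe u
variable {G : Type u} [Group G]

/-- [K6] -/
theorem eq_one_of_trivial_on [Finite G] (P : Subgroup G)
    (hgen : Subgroup.normalClosure (P : Set G) = ⊤)
    (ξ : G → ℂ) (hξ : IsCharacter G ξ) (h1 : ξ 1 = 1) (hP : ∀ x : G, x ∈ P → ξ x = 1) :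
    ∀ g : G, ξ g = 1 := by
  obtain ⟨N, hN, hmem⟩ := Cfsg.Agent.Lib.CT.Kernel.exists_normal_ker hξ
  have hPN : (P : Set G) ⊆ N := by
    intro x hx
    exact (hmem x).mpr (by rw [hP x hx, h1])
  have hle : Subgroup.normalClosure (P : Set G) ≤ N := Subgroup.normalClosure_le_normal hPN
  rw [hgen] at hle
  intro g
  have := (hmem g).mp (hle (Subgroup.mem_top g))
  rw [this, h1]

end Cfsg.Agent.Lib.Helper1.BrK6
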