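import Mathlib

/-!
# S4503, piece R1: inside its normal closure `L`, a Sylow subgroup `P` has normal closure `L`.
-/

set_option autoImplicit false

namespace Cfsg.Agent.Lib.Helper1.BrR1

universe u
variable {G : Type u} [Group G]

/-- [R1] -/
theorem normalClosure_subtype_eq_top [Finite G] (p : ℕ) [Fact p.Prime] (P : Sylow p G)
    (hle : (P : Subgroup G) ≤ Subgroup.normalClosure ((P : Subgroup G) : Set G)) :
    Subgroup.normalClosure
      ((((P.subtype hle : Sylow p ↥(Subgroup.normalClosure ((P : Subgroup G) : Set G))) :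
        Subgroup ↥(Subgroup.normalClosure ((P : Subgroup G) : Set G))) :
          Set ↥(Subgroup.normalClosure ((P : Subgroup G) : Set G)))) = ⊤ := by
  set L : Subgroup G := Subgroup.normalClosure ((P : Subgroup G) : Set G) with hL
  have hLn : L.Normal := Subgroup.normalClosure_normal
  set P' : Sylow p ↥L := P.subtype hle with hP'
  set M : Subgroup ↥L := Subgroup.normalClosure ((P' : Subgroup ↥L) : Set ↥L) with hM
  have hMn : M.Normal := Subgroup.normalClosure_normal
  have hP'M : (P' : Subgroup ↥L) ≤ M := Subgroup.le_normalClosure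
  -- every `G`-conjugate of an element of `P` lies in `M`
  have key : ∀ g u : G, u ∈ (P : Subgroup G) → ∀ h : g * u * g⁻¹ ∈ L,
      (⟨g * u * g⁻¹, h⟩ : ↥L) ∈ M := by
    intro g u hu h
    have hgP : ((g • P : Sylow p G) : Subgroup G) ≤ L := by
      intro x hx
      rw [Sylow.coe_subgroup_smul, Subgroup.mem_pointwise_smul_iff_inv_smul_mem] at hx
      have h1 : g⁻¹ * x * g ∈ L := by
        have := hle hx
        simpa [MulAut.smul_def] using this
      have h2 := hLn.conj_mem _ h1 g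
      have e : g * (g⁻¹ * x * g) * g⁻¹ = x := by group
      rwa [e] at h2
    obtain ⟨l, hl⟩ := MulAction.exists_smul_eq (↥L) P' ((g • P : Sylow p G).subtype hgP)
    have hmem : (⟨g * u * g⁻¹, h⟩ : ↥L) ∈ (((g • P : Sylow p G).subtype hgP : Sylow p ↥L) :
        Subgroup ↥L) := by
      rw [Sylow.coe_subtype, Subgroup.mem_subgroupOf, Sylow.coe_subgroup_smul,
        Subgroup.mem_pointwise_smul_iff_inv_smul_mem]
      have e : (MulAut.conj g)⁻¹ • (g * u * g⁻¹) = u := by
        rw [MulAut.smul_def, MulAut.conj_inv_apply]; group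
      show (MulAut.conj g)⁻¹ • (g * u * g⁻¹) ∈ (P : Subgroup G)
      rw [e]; exact hu
    rw [← hl, Sylow.coe_subgroup_smul, Subgroup.mem_pointwise_smul_iff_inv_smul_mem] at hmem
    have h3 := hMn.conj_mem _ (hP'M hmem) l
    have e : l * ((MulAut.conj l)⁻¹ • (⟨g * u * g⁻¹, h⟩ : ↥L)) * l⁻¹ = ⟨g * u * g⁻¹, h⟩ := by
      rw [MulAut.smul_def, MulAut.conj_inv_apply]; group
    rwa [e] at h3
  rw [eq_top_iff]
  intro x _
  have hx : (x : G) ∈ L := x.2
  have hgoal : ∀ y : G, y ∈ L → ∃ hy : y ∈ L, (⟨y, hy⟩ : ↥L) ∈ M := by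
    intro y hy
    rw [hL, Subgroup.normalClosure] at hy
    induction hy using Subgroup.closure_induction with
    | mem c hc =>
      obtain ⟨u, hu, hconj⟩ := Group.mem_conjugatesOfSet_iff.mp hc
      obtain ⟨g, rfl⟩ := isConj_iff.mp hconj
      have h : g * u * g⁻¹ ∈ L := hLn.conj_mem u (hle hu) g
      exact ⟨h, key g u hu h⟩
    | one => exact ⟨L.one_mem, M.one_mem⟩
    | mul a b _ _ ha hb =>
      obtain ⟨ha1, ha2⟩ := ha
      obtain ⟨hb1, hb2⟩ := hb
      exact ⟨L.mul_mem ha1 hb1, M.mul_mem ha2 hb2⟩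
    | inv a _ ha =>
      obtain ⟨ha1, ha2⟩ := ha
      exact ⟨L.inv_mem ha1, M.inv_mem ha2⟩
  obtain ⟨_, h⟩ := hgoal x hx
  exact h

end Cfsg.Agent.Lib.Helper1.BrR1
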