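import Mathlib
import Cfsg.Agent.Lib.Helper1.Fpf
import Cfsg.Agent.Lib.Helper78.Fitting
import Cfsg.Agent.S0552

/-!
# Fixed-point-free automorphisms of order 4: the module lemma

`mod_lemma`: `V` a finite abelian group, `s ∈ Aut V` with `s ^ 4 = 1` fixing only `1`, and
`K ≤ Aut V` a solvable subgroup of odd order prime to `|V|`, normalized by `s`, on which conjugation
by `s` is fixed-point-free.  Then `s ^ 2` centralizes `K`.
-/

set_option autoImplicit false

namespace Cfsg.Agent.Lib.Helper1.Fpf4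

open Cfsg.Agent.Lib.Helper1.Fpf Cfsg.Agent.Lib.Helper1.FrobTrace

theorem mod_lemma {V : Type*} [CommGroup V] [Finite V]
    (s : MulAut V) (hs4 : s ^ 4 = 1) (hsfpf : ∀ v : V, s v = v → v = 1) (n : ℕ) :
    ∀ K : Subgroup (MulAut V), Nat.card K = n → (∀ k ∈ K, s * k * s⁻¹ ∈ K) →
      (∀ k ∈ K, s * k * s⁻¹ = k → k = 1) → (Nat.card K).Coprime (Nat.card V) →
      Odd (Nat.card K) → Group.IsSolvable K → ∀ k ∈ K, s ^ 2 * k * (s ^ 2)⁻¹ = k := by
  induction n using Nat.strong_induction_on with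
  | _ n IH =>
  intro K hn h1 h2 h3 h4 h5
  have := h5
  set t : MulAut V := s ^ 2 with ht
  have htt : t * t = 1 := by rw [ht, ← pow_add]; exact hs4
  have htinv : t⁻¹ = t := inv_eq_of_mul_eq_one_right htt
  have hst : s * t = t * s := by rw [ht, ← pow_succ', ← pow_succ]
  have hts : ∀ v : V, t v = s (s v) := fun v => by rw [ht, pow_two]; rfl
  have htK : ∀ k ∈ K, t * k * t⁻¹ ∈ K := by
    intro k hk
    have e : t * k * t⁻¹ = s * (s * k * s⁻¹) * s⁻¹ := by rw [ht, pow_two]; group
    rw [e]; exact h1 _ (h1 k hk)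
  have hodd : ∀ k ∈ K, k * k = 1 → k = 1 := by
    intro k hk hkk
    have h6 : orderOf k ∣ 2 := orderOf_dvd_of_pow_eq_one (by rw [pow_two]; exact hkk)
    have h7 : orderOf k ∣ Nat.card K := Subgroup.orderOf_dvd_natCard K hk
    have h8 : Nat.Coprime 2 (Nat.card K) := Nat.coprime_two_left.mpr h4
    have h9 : orderOf k ∣ 1 := by
      have := Nat.dvd_gcd h6 h7
      rwa [Nat.Coprime.gcd_eq_one h8] at this
    exact orderOf_eq_one_iff.mp (Nat.dvd_one.mp h9)
  let U : Set (MulAut V) := {u | ∃ k ∈ K, u = k⁻¹ * (t * k * t⁻¹)}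
  have hUK : U ⊆ K := by
    rintro _ ⟨k, hk, rfl⟩
    exact K.mul_mem (K.inv_mem hk) (htK k hk)
  have hUinv : ∀ u ∈ U, t * u * t⁻¹ = u⁻¹ := by
    rintro _ ⟨k, hk, rfl⟩
    have e1 : t * (k⁻¹ * (t * k * t⁻¹)) * t⁻¹
        = (t * k * t⁻¹)⁻¹ * ((t * t) * k * (t * t)⁻¹) := by group
    rw [e1, htt]; group
  have hK1K : Subgroup.closure U ≤ K := (Subgroup.closure_le K).mpr hUK
  have hK1s : ∀ k ∈ Subgroup.closure U, s * k * s⁻¹ ∈ Subgroup.closure U := by
    intro k hk
    refine Subgroup.closure_induction (p := fun x _ => s * x * s⁻¹ ∈ Subgroup.closure U)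
      ?_ ?_ ?_ ?_ hk
    · rintro _ ⟨k', hk', rfl⟩
      apply Subgroup.subset_closure
      refine ⟨s * k' * s⁻¹, h1 k' hk', ?_⟩
      have e1 : t * (s * k' * s⁻¹) * t⁻¹ = s * (t * k' * t⁻¹) * s⁻¹ := by
        calc t * (s * k' * s⁻¹) * t⁻¹ = (t * s) * k' * (t * s)⁻¹ := by group
          _ = (s * t) * k' * (s * t)⁻¹ := by rw [hst]
          _ = s * (t * k' * t⁻¹) * s⁻¹ := by group
      rw [e1]; group
    · simp
    · intro x y _ _ hx hy
      have e : s * (x * y) * s⁻¹ = (s * x * s⁻¹) * (s * y * s⁻¹) := by group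
      rw [e]; exact Subgroup.mul_mem _ hx hy
    · intro x _ hx
      have e : s * x⁻¹ * s⁻¹ = (s * x * s⁻¹)⁻¹ := by group
      rw [e]; exact Subgroup.inv_mem _ hx
  by_cases hK1 : Subgroup.closure U = K
  swap
  · have hlt : Nat.card (Subgroup.closure U) < n := by
      have hlt' : Subgroup.closure U < K := lt_of_le_of_ne hK1K hK1
      rw [← hn]; exact Set.ncard_lt_ncard hlt' (Set.toFinite _)
    have hIH := IH _ hlt (Subgroup.closure U) rfl hK1s (fun k hk => h2 k (hK1K hk))
      (Nat.Coprime.coprime_dvd_left (Subgroup.card_dvd_of_le hK1K) h3)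
      (Odd.of_dvd_nat h4 (Subgroup.card_dvd_of_le hK1K))
      (Group.isSolvable_of_isSolvable_injective (Subgroup.inclusion_injective hK1K))
    intro k hk
    have hu : k⁻¹ * (t * k * t⁻¹) ∈ Subgroup.closure U := Subgroup.subset_closure ⟨k, hk, rfl⟩
    have e1 := hIH _ hu
    have e2 := hUinv _ ⟨k, hk, rfl⟩
    have e3 : (k⁻¹ * (t * k * t⁻¹)) * (k⁻¹ * (t * k * t⁻¹)) = 1 :=
      mul_eq_one_iff_eq_inv.mpr (e1.symm.trans e2)
    have e4 := hodd _ (hK1K hu) e3
    exact (inv_mul_eq_one.mp e4).symm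
  · by_cases hKbot : K = ⊥
    · intro k hk
      rw [hKbot, Subgroup.mem_bot] at hk
      rw [hk]; group
    have hclK : ∀ z : MulAut V, (∀ u ∈ U, u * z = z * u) → ∀ k ∈ K, k * z = z * k := by
      intro z hz k hk
      rw [← hK1] at hk
      refine Subgroup.closure_induction (p := fun x _ => x * z = z * x)
        (fun x hx => hz x hx) (by simp) ?_ ?_ hk
      · intro x y _ _ hx hy
        rw [mul_assoc, hy, ← mul_assoc, hx, mul_assoc]
      · intro x _ hx
        calc x⁻¹ * z = x⁻¹ * (z * x) * x⁻¹ := by group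
          _ = x⁻¹ * (x * z) * x⁻¹ := by rw [hx]
          _ = z * x⁻¹ := by group
    let D : Subgroup (MulAut V) := ⁅K, K⁆
    have hDK : D ≤ K := by
      apply Subgroup.commutator_le.mpr
      intro a ha b hb
      rw [commutatorElement_def]
      exact K.mul_mem (K.mul_mem (K.mul_mem ha hb) (K.inv_mem ha)) (K.inv_mem hb)
    have hDconj : ∀ g : MulAut V, (∀ k ∈ K, g * k * g⁻¹ ∈ K) → ∀ d ∈ D, g * d * g⁻¹ ∈ D := by
      intro g hg d hd
      have h6 : (MulAut.conj g) d ∈ D.map (MulAut.conj g).toMonoidHom := ⟨d, hd, rfl⟩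
      rw [Subgroup.map_commutator] at h6
      have h7 : K.map (MulAut.conj g).toMonoidHom ≤ K := by
        rintro _ ⟨k, hk, rfl⟩; exact hg k hk
      exact Subgroup.commutator_mono h7 h7 h6
    have hDne : D ≠ K := by
      intro hDK'
      have : Nontrivial K := (Subgroup.nontrivial_iff_ne_bot K).mpr hKbot
      have e1 : (commutator ↥K).map K.subtype = K := by
        rw [Subgroup.map_subtype_commutator]; exact hDK'
      have e2 : commutator ↥K = ⊤ := by
        rw [← Subgroup.card_eq_iff_eq_top]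
        have e3 := Subgroup.card_map_of_injective (K := commutator ↥K) K.subtype_injective
        rw [← e3]
        exact congrArg (fun X : Subgroup (MulAut V) => Nat.card X) e1
      exact (Group.IsSolvable.commutator_lt_top_of_nontrivial ↥K).ne e2
    have hDlt : Nat.card D < n := by
      have hlt' : D < K := lt_of_le_of_ne hDK hDne
      rw [← hn]; exact Set.ncard_lt_ncard hlt' (Set.toFinite _)
    have hDt := IH _ hDlt D rfl (hDconj s h1) (fun k hk => h2 k (hDK hk))
      (Nat.Coprime.coprime_dvd_left (Subgroup.card_dvd_of_le hDK) h3)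
      (Odd.of_dvd_nat h4 (Subgroup.card_dvd_of_le hDK))
      (Group.isSolvable_of_isSolvable_injective (Subgroup.inclusion_injective hDK))
    have hDcent : ∀ z ∈ D, ∀ k ∈ K, k * z = z * k := by
      intro z hz
      apply hclK
      rintro _ ⟨k, hk, rfl⟩
      have e1 := hDt _ (hDconj k (fun k' hk' => K.mul_mem (K.mul_mem hk hk') (K.inv_mem hk)) z hz)
      have e2 := hDt z hz
      have e3 : (t * k * t⁻¹) * z * (t * k * t⁻¹)⁻¹ = k * z * k⁻¹ := by
        calc (t * k * t⁻¹) * z * (t * k * t⁻¹)⁻¹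
            = (t * k * t⁻¹) * (t * z * t⁻¹) * (t * k * t⁻¹)⁻¹ := by rw [e2]
          _ = t * (k * z * k⁻¹) * t⁻¹ := by group
          _ = k * z * k⁻¹ := e1
      calc k⁻¹ * (t * k * t⁻¹) * z
          = k⁻¹ * ((t * k * t⁻¹) * z * (t * k * t⁻¹)⁻¹) * (t * k * t⁻¹) := by group
        _ = k⁻¹ * (k * z * k⁻¹) * (t * k * t⁻¹) := by rw [e3]
        _ = z * (k⁻¹ * (t * k * t⁻¹)) := by group
    have hDs : ∀ z ∈ D, s * z * s⁻¹ = z⁻¹ := by
      intro z hz
      have hz' : s * z * s⁻¹ ∈ D := hDconj s h1 z hz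
      have hcomm : (s * z * s⁻¹) * z = z * (s * z * s⁻¹) := hDcent z hz _ (hDK hz')
      have e1 : s * (z * (s * z * s⁻¹)) * s⁻¹ = z * (s * z * s⁻¹) := by
        have e2 : s * (z * (s * z * s⁻¹)) * s⁻¹ = (s * z * s⁻¹) * (t * z * t⁻¹) := by
          rw [ht, pow_two]; group
        rw [e2, hDt z hz, hcomm]
      have e3 := h2 _ (K.mul_mem (hDK hz) (hDK hz')) e1
      exact eq_inv_of_mul_eq_one_right e3
    have hVplus : ∀ v : V, t v = v → s v = v⁻¹ := by
      intro v hv
      have e1 : s (v * s v) = v * s v := by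
        rw [map_mul, ← hts, hv, mul_comm]
      exact eq_inv_of_mul_eq_one_right (hsfpf _ e1)
    have hDfix : ∀ z ∈ D, ∀ v : V, t v = v → z v = v := by
      intro z hz v hv
      have htz : t * z = z * t := mul_inv_eq_iff_eq_mul.mp (hDt z hz)
      have hsz : s * z = z⁻¹ * s := mul_inv_eq_iff_eq_mul.mp (hDs z hz)
      have e1 : t (z v) = z v := by
        have h6 : (t * z) v = (z * t) v := by rw [htz]
        rw [MulAut.mul_apply, MulAut.mul_apply, hv] at h6; exact h6
      have e2 : s (z v) = (z v)⁻¹ := hVplus _ e1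
      have e3 : s (z v) = z⁻¹ (v⁻¹) := by
        have h6 : (s * z) v = (z⁻¹ * s) v := by rw [hsz]
        rw [MulAut.mul_apply, MulAut.mul_apply, hVplus v hv] at h6; exact h6
      have e4 : z⁻¹ (v⁻¹) = z (v⁻¹) := by rw [← e3, e2, map_inv]
      have e5 : (z * z) v = v := by
        have h6 : z (z⁻¹ (v⁻¹)) = z (z (v⁻¹)) := congrArg z e4
        rw [MulAut.apply_inv_self, map_inv, map_inv, inv_inj] at h6
        rw [MulAut.mul_apply]; exact h6.symm
      have hzodd : Odd (orderOf z) :=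
        Odd.of_dvd_nat h4 (Subgroup.orderOf_dvd_natCard K (hDK hz))
      obtain ⟨m, hm⟩ := hzodd
      have e6 : (z * z) ^ (m + 1) = z := by
        rw [← pow_two, ← pow_mul]
        have h6 : 2 * (m + 1) = orderOf z + 1 := by omega
        rw [h6, pow_succ, pow_orderOf_eq_one, one_mul]
      have e7 : ∀ j : ℕ, ((z * z) ^ j) v = v := by
        intro j
        induction j with
        | zero => rfl
        | succ j ih => rw [pow_succ, MulAut.mul_apply, e5, ih]
      have e8 := e7 (m + 1)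
      rw [e6] at e8; exact e8
    have hW_K : ∀ k ∈ K, ∀ w : V, (∀ z ∈ D, z w = w) → ∀ z ∈ D, z (k w) = k w := by
      intro k hk w hw z hz
      have h6 : (z * k) w = (k * z) w := by rw [hDcent z hz k hk]
      rw [MulAut.mul_apply, MulAut.mul_apply, hw z hz] at h6; exact h6
    have hW_t : ∀ w : V, (∀ z ∈ D, z w = w) → ∀ z ∈ D, z (t w) = t w := by
      intro w hw z hz
      have htz : t * z = z * t := mul_inv_eq_iff_eq_mul.mp (hDt z hz)
      have h6 : (z * t) w = (t * z) w := by rw [htz]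
      rw [MulAut.mul_apply, MulAut.mul_apply, hw z hz] at h6; exact h6
    have hW_mul : ∀ a b : V, (∀ z ∈ D, z a = a) → (∀ z ∈ D, z b = b) →
        ∀ z ∈ D, z (a * b) = a * b := by
      intro a b ha hb z hz; rw [map_mul, ha z hz, hb z hz]
    have hW_inv : ∀ a : V, (∀ z ∈ D, z a = a) → ∀ z ∈ D, z a⁻¹ = a⁻¹ := by
      intro a ha z hz; rw [map_inv, ha z hz]
    have httv : ∀ v : V, t (t v) = v := by
      intro v
      have h6 : (t * t) v = (1 : MulAut V) v := by rw [htt]
      exact h6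
    have htfix : ∀ v : V, t (v * t v) = v * t v := by
      intro v; rw [map_mul, httv, mul_comm]
    have htfix' : ∀ v : V, t (t v * v) = t v * v := by
      intro v; rw [map_mul, httv, mul_comm]
    have hgen : ∀ u ∈ U, ∀ v : V, ∀ z ∈ D, z (v⁻¹ * u v) = v⁻¹ * u v := by
      rintro _ ⟨k, hk, rfl⟩ v
      have hu : (k⁻¹ * (t * k * t⁻¹)) v = k⁻¹ (t (k (t v))) := by
        rw [htinv]; rfl
      have hw1W : ∀ z ∈ D, z (v * t v) = v * t v := fun z hz => hDfix z hz _ (htfix v)
      have hw2W : ∀ z ∈ D, z (t (k v) * k v) = t (k v) * k v :=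
        fun z hz => hDfix z hz _ (htfix' (k v))
      have e1 : t v = v⁻¹ * (v * t v) := by group
      have e2 : t (k v) = (t (k v) * k v) * (k v)⁻¹ := by group
      have e3 : t (k (t v)) = k v * ((t (k v) * k v)⁻¹ * t (k (v * t v))) := by
        have h6 : t (k (t v)) = (t (k v))⁻¹ * t (k (v * t v)) := by
          conv_lhs => rw [e1]
          rw [map_mul, map_inv, map_mul, map_inv]
        rw [h6]
        have h7 : (t (k v))⁻¹ = k v * (t (k v) * k v)⁻¹ := by group
        rw [h7, mul_assoc]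
      have e4 : v⁻¹ * (k⁻¹ * (t * k * t⁻¹)) v
          = k⁻¹ ((t (k v) * k v)⁻¹ * t (k (v * t v))) := by
        rw [hu, e3, map_mul, MulAut.inv_apply_self]; group
      rw [e4]
      exact hW_K k⁻¹ (K.inv_mem hk) _ (hW_mul _ _ (hW_inv _ hw2W) (hW_t _ (hW_K k hk _ hw1W)))
    have hKW : ∀ k ∈ K, ∀ v : V, ∀ z ∈ D, z (v⁻¹ * k v) = v⁻¹ * k v := by
      intro k hk
      have hk' : k ∈ Subgroup.closure U := by rw [hK1]; exact hk
      refine Subgroup.closure_induction
        (p := fun x _ => ∀ v : V, ∀ z ∈ D, z (v⁻¹ * x v) = v⁻¹ * x v) hgen ?_ ?_ ?_ hk'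
      · intro v z hz; simp
      · intro x y _ _ ihx ihy v
        have e : v⁻¹ * (x * y) v = (v⁻¹ * y v) * ((y v)⁻¹ * x (y v)) := by
          rw [MulAut.mul_apply]; group
        rw [e]; exact hW_mul _ _ (ihy v) (ihx (y v))
      · intro x _ ihx v
        have e : v⁻¹ * x⁻¹ v = ((x⁻¹ v)⁻¹ * x (x⁻¹ v))⁻¹ := by
          rw [MulAut.apply_inv_self]; group
        rw [e]; exact hW_inv _ (ihx (x⁻¹ v))
    have hDbot : ∀ z ∈ D, z = 1 := by
      intro z hz
      ext v
      show z v = v
      have hzc : z (v⁻¹ * z v) = v⁻¹ * z v := hKW z (hDK hz) v z hz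
      have hzv : z v = v * (v⁻¹ * z v) := by group
      have hpow : ∀ j : ℕ, (z ^ j) v = v * (v⁻¹ * z v) ^ j := by
        intro j
        induction j with
        | zero => simp
        | succ j ih =>
          calc (z ^ (j + 1)) v = z ((z ^ j) v) := by rw [pow_succ']; rfl
            _ = z v * (z (v⁻¹ * z v)) ^ j := by rw [ih, map_mul, map_pow]
            _ = v * (v⁻¹ * z v) * (v⁻¹ * z v) ^ j := by rw [hzc, ← hzv]
            _ = v * (v⁻¹ * z v) ^ (j + 1) := by rw [pow_succ', mul_assoc]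
      have e1 := hpow (orderOf z)
      rw [pow_orderOf_eq_one] at e1
      have e1' : v * (v⁻¹ * z v) ^ orderOf z = v * 1 := by rw [mul_one]; exact e1.symm
      have e2 : (v⁻¹ * z v) ^ orderOf z = 1 := mul_left_cancel e1'
      have e3 : orderOf (v⁻¹ * z v) ∣ Nat.card K :=
        (orderOf_dvd_of_pow_eq_one e2).trans (Subgroup.orderOf_dvd_natCard K (hDK hz))
      have e4 : orderOf (v⁻¹ * z v) ∣ Nat.card V := orderOf_dvd_natCard _
      have e5 : orderOf (v⁻¹ * z v) ∣ 1 := by
        have := Nat.dvd_gcd e3 e4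
        rwa [Nat.Coprime.gcd_eq_one h3] at this
      have e6 : v⁻¹ * z v = 1 := orderOf_eq_one_iff.mp (Nat.dvd_one.mp e5)
      rw [hzv, e6, mul_one]
    have hKab : ∀ a ∈ K, ∀ b ∈ K, a * b = b * a := by
      intro a ha b hb
      have h7 := hDbot _ (Subgroup.commutator_mem_commutator ha hb)
      rw [commutatorElement_def] at h7
      calc a * b = (a * b * a⁻¹ * b⁻¹) * b * a := by group
        _ = b * a := by rw [h7, one_mul]
    have hKinv : ∀ k ∈ K, t * k * t⁻¹ = k⁻¹ := by
      intro k hk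
      have hk' : k ∈ Subgroup.closure U := by rw [hK1]; exact hk
      refine Subgroup.closure_induction (p := fun x _ => t * x * t⁻¹ = x⁻¹) hUinv (by simp)
        ?_ ?_ hk'
      · intro x y hx hy ihx ihy
        calc t * (x * y) * t⁻¹ = (t * x * t⁻¹) * (t * y * t⁻¹) := by group
          _ = x⁻¹ * y⁻¹ := by rw [ihx, ihy]
          _ = (y * x)⁻¹ := by group
          _ = (x * y)⁻¹ := by rw [hKab x (hK1K hx) y (hK1K hy)]
      · intro x _ ihx
        calc t * x⁻¹ * t⁻¹ = (t * x * t⁻¹)⁻¹ := by group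
          _ = x⁻¹⁻¹ := by rw [ihx]
    let ρ : MulAut V →* AddMonoid.End (Additive V) :=
      (monoidEndToAdditive V).toMonoidHom.comp (MulDistribMulAction.toMonoidEnd (MulAut V) V)
    have hρ : ∀ (f : MulAut V) (v : V), ρ f (Additive.ofMul v) = Additive.ofMul (f v) :=
      fun f v => rfl
    have hs3 : s * s * s = s⁻¹ := by
      have e : s ^ 4 = s * s * s * s := by rw [pow_succ, pow_succ, pow_succ, pow_one]
      rw [eq_inv_iff_mul_eq_one, ← e]; exact hs4
    have hsK : s ∈ Subgroup.normalizer (K : Set (MulAut V)) := by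
      apply Cfsg.Agent.S0026.mem_normalizer_of_conj_mem h1
      intro k hk
      have e : s⁻¹ * k * s = s * (s * (s * k * s⁻¹) * s⁻¹) * s⁻¹ := by
        calc s⁻¹ * k * s = (s * s * s) * k * (s * s * s)⁻¹ := by rw [hs3, inv_inv]
          _ = s * (s * (s * k * s⁻¹) * s⁻¹) * s⁻¹ := by group
      rw [e]; exact h1 _ (h1 _ (h1 k hk))
    have hfree : ∀ h ∈ Subgroup.zpowers s, h ≠ 1 → ∀ u ∈ K, u * h = h * u → u = 1 := by
      intro h hh hh1 u hu huh
      obtain ⟨j, hj'⟩ := (mem_powers_iff_mem_zpowers).mpr hh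
      have hj'' : s ^ j = h := hj'
      subst hj''
      have hj : s ^ j = s ^ (j % 4) := by
        conv_lhs => rw [← Nat.div_add_mod j 4, pow_add, pow_mul, hs4, one_pow, one_mul]
      rw [hj] at hh1 huh
      have hj4 : j % 4 < 4 := Nat.mod_lt _ (by norm_num)
      have hcases : j % 4 = 0 ∨ j % 4 = 1 ∨ j % 4 = 2 ∨ j % 4 = 3 := by omega
      rcases hcases with h0 | h0 | h0 | h0
      · rw [h0, pow_zero] at hh1; exact absurd rfl hh1
      · rw [h0, pow_one] at huh
        apply h2 u hu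
        rw [← huh]; group
      · rw [h0] at huh
        have e1 : t * u * t⁻¹ = u := by rw [ht, ← huh]; group
        exact hodd u hu (mul_eq_one_iff_eq_inv.mpr (e1.symm.trans (hKinv u hu)))
      · rw [h0] at huh
        have hs3' : s ^ 3 = s⁻¹ := by rw [pow_succ, pow_succ, pow_one]; exact hs3
        rw [hs3'] at huh
        apply h2 u hu
        calc s * u * s⁻¹ = s * (u * s⁻¹) := by group
          _ = s * (s⁻¹ * u) := by rw [huh]
          _ = u := by group
    have hH : ∀ m : Additive V, (∀ h ∈ Subgroup.zpowers s, ρ h m = m) → m = 0 := by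
      intro m hm
      have e1 := hm s (Subgroup.mem_zpowers s)
      have e2 : s (Additive.toMul m) = Additive.toMul m := congrArg Additive.toMul e1
      exact congrArg Additive.ofMul (hsfpf _ e2)
    have hKc : ∀ m : Additive V, Nat.card K • m = 0 → m = 0 := by
      intro m hm
      have e1 : (Additive.toMul m) ^ Nat.card K = 1 := congrArg Additive.toMul hm
      have e3 : orderOf (Additive.toMul m) ∣ Nat.card K := orderOf_dvd_of_pow_eq_one e1
      have e4 : orderOf (Additive.toMul m) ∣ Nat.card V := orderOf_dvd_natCard _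
      have e5 : orderOf (Additive.toMul m) ∣ 1 := by
        have := Nat.dvd_gcd e3 e4
        rwa [Nat.Coprime.gcd_eq_one h3] at this
      have e6 : Additive.toMul m = 1 := orderOf_eq_one_iff.mp (Nat.dvd_one.mp e5)
      exact congrArg Additive.ofMul e6
    have hmain := fix_of_frob ρ K (Subgroup.zpowers s) ((Subgroup.zpowers_le).mpr hsK)
      hfree hH hKc
    intro k hk
    have hk1 : k = 1 := by
      ext v
      have e1 := hmain k hk (Additive.ofMul v)
      rw [hρ] at e1
      exact congrArg Additive.toMul e1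
    rw [hk1]; group

universe u

variable {G : Type*} [Group G]

/-- a finite group with a fixed-point-free automorphism of order dividing `4` has odd order -/
theorem odd_card_of_fpf4 [Finite G] {σ : G ≃* G} (hσ : IsFpf σ) (hσ4 : (⇑σ)^[4] = id) :
    Odd (Nat.card G) := by
  classical
  have : Fintype G := Fintype.ofFinite G
  have : Fact (Nat.Prime 2) := ⟨Nat.prime_two⟩
  let f : Function.End G := (⇑σ : G → G)
  have e : ∀ n : ℕ, f ^ n = ((⇑σ)^[n] : G → G) := by
    intro n
    induction n with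
    | zero => rfl
    | succ n ih => rw [pow_succ', ih, Function.iterate_succ']; rfl
  have hf : f ^ 2 ^ 2 = 1 := by
    rw [e]
    show (⇑σ)^[4] = id
    exact hσ4
  have h1 := Equiv.Perm.card_fixedPoints_modEq (f := f) (p := 2) (n := 2) hf
  have h2 : Fintype.card (Function.fixedPoints f) = 1 := by
    rw [Fintype.card_eq_one_iff]
    refine ⟨⟨1, map_one σ⟩, ?_⟩
    rintro ⟨x, hx⟩
    exact Subtype.ext (hσ x hx)
  rw [h2, ← Nat.card_eq_fintype_card] at h1
  rw [Nat.odd_iff]
  exact h1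

theorem isInv_centralizer' [Finite G] {φ : G ≃* G} (H : Subgroup G) (hH : IsInv φ H) :
    IsInv φ (Subgroup.centralizer (H : Set G)) := by
  intro c hc
  rw [Subgroup.mem_centralizer_iff] at hc ⊢
  intro w hw
  obtain ⟨w', hw', rfl⟩ := exists_of_isInv hH hw
  rw [← map_mul, ← map_mul, hc w' hw']

/-- `[Q, σ²]` centralizes an invariant abelian normal subgroup of coprime order. -/
theorem tau_centralizes_abelian [Finite G] (hsolv : Group.IsSolvable G) {σ : G ≃* G}
    (hσ : IsFpf σ) (hσ4 : (⇑σ)^[4] = id) (A : Subgroup G) [A.Normal] (hAσ : IsInv σ A)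
    (hAab : ∀ x ∈ A, ∀ y ∈ A, x * y = y * x)
    (Q : Subgroup G) (hQσ : IsInv σ Q) (hcop : (Nat.card Q).Coprime (Nat.card A)) :
    ∀ x ∈ Q, ∀ a ∈ A, (x⁻¹ * σ (σ x)) * a = a * (x⁻¹ * σ (σ x)) := by
  have hodd := odd_card_of_fpf4 hσ hσ4
  let _ : CommGroup ↥A :=
    { (inferInstance : Group ↥A) with mul_comm := fun x y => Subtype.ext (hAab x x.2 y y.2) }
  let s : MulAut ↥A := restr σ A hAσ
  let cn : G →* MulAut ↥A := MulAut.conjNormal
  let K : Subgroup (MulAut ↥A) := Q.map cn
  have hspow : ∀ (n : ℕ) (v : ↥A), (((s ^ n : MulAut ↥A) v : ↥A) : G) = (⇑σ)^[n] (v : G) := by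
    intro n v
    rw [pow_apply]
    exact restr_iterate σ A hAσ n v
  have hs4 : s ^ 4 = 1 := by
    ext v
    show (((s ^ 4 : MulAut ↥A) v : ↥A) : G) = v
    rw [hspow, hσ4]; rfl
  have hsfpf : ∀ v : ↥A, s v = v → v = 1 := restr_isFpf hσ A hAσ
  have hcns : ∀ x : G, s * cn x * s⁻¹ = cn (σ x) := by
    intro x
    rw [mul_inv_eq_iff_eq_mul]
    ext v
    show σ (x * (v : G) * x⁻¹) = σ x * σ (v : G) * (σ x)⁻¹
    rw [map_mul, map_mul, map_inv]
  have hcn1 : ∀ x : G, x ∈ Subgroup.centralizer (A : Set G) → cn x = 1 := by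
    intro x hx
    rw [Subgroup.mem_centralizer_iff] at hx
    ext v
    show x * (v : G) * x⁻¹ = v
    rw [← hx v v.2]; group
  have hcneq : ∀ x y : G, cn y = cn x → x⁻¹ * y ∈ Subgroup.centralizer (A : Set G) := by
    intro x y hxy
    rw [Subgroup.mem_centralizer_iff]
    intro a ha
    have e1 := congrArg Subtype.val (DFunLike.congr_fun hxy ⟨a, ha⟩)
    have e2 : y * a * y⁻¹ = x * a * x⁻¹ := e1
    calc a * (x⁻¹ * y) = x⁻¹ * (x * a * x⁻¹) * y := by group
      _ = x⁻¹ * (y * a * y⁻¹) * y := by rw [e2]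
      _ = x⁻¹ * y * a := by group
  have h1 : ∀ k ∈ K, s * k * s⁻¹ ∈ K := by
    rintro _ ⟨x, hx, rfl⟩
    rw [hcns]; exact ⟨σ x, hQσ x hx, rfl⟩
  have h2 : ∀ k ∈ K, s * k * s⁻¹ = k → k = 1 := by
    rintro _ ⟨x, hx, rfl⟩ hk
    rw [hcns] at hk
    have e1 := hcneq x (σ x) hk
    exact hcn1 x (mem_of_comm_mem hσ _ (isInv_centralizer' A hAσ) x e1)
  have h3 : (Nat.card K).Coprime (Nat.card ↥A) :=
    Nat.Coprime.coprime_dvd_left (Subgroup.card_map_dvd Q cn) hcop
  have h4 : Odd (Nat.card K) :=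
    Odd.of_dvd_nat hodd ((Subgroup.card_map_dvd Q cn).trans (Subgroup.card_subgroup_dvd_card Q))
  have h5 : Group.IsSolvable K := by
    have := hsolv
    exact Group.isSolvable_of_surjective (f := cn.subgroupMap Q) (cn.subgroupMap_surjective Q)
  have hmain := mod_lemma s hs4 hsfpf _ K rfl h1 h2 h3 h4 h5
  intro x hx a ha
  have e1 := hmain (cn x) ⟨x, hx, rfl⟩
  have e2 : s ^ 2 * cn x * (s ^ 2)⁻¹ = cn (σ (σ x)) := by
    rw [← hcns, ← hcns, pow_two]; group
  rw [e2] at e1
  have e3 := hcneq x (σ (σ x)) e1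
  exact (Subgroup.mem_centralizer_iff.mp e3 a ha).symm


theorem nilpotent_of_inj {H K : Type*} [Group H] [Group K] [Group.IsNilpotent K] (f : H →* K)
    (hf : Function.Injective f) : Group.IsNilpotent H :=
  Group.nilpotent_of_mulEquiv (MonoidHom.ofInjective hf).symm

theorem normal_centralizer_of_normal (P : Subgroup G) [hP : P.Normal] :
    (Subgroup.centralizer (P : Set G)).Normal := by
  constructor
  intro g hg h
  rw [Subgroup.mem_centralizer_iff] at hg ⊢
  intro y hy
  have h1 := hg (h⁻¹ * y * h) (by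
    have := hP.conj_mem y hy h⁻¹
    rwa [inv_inv] at this)
  calc y * (h * g * h⁻¹) = h * ((h⁻¹ * y * h) * g) * h⁻¹ := by group
    _ = h * (g * (h⁻¹ * y * h)) * h⁻¹ := by rw [h1]
    _ = h * g * h⁻¹ * y := by group

/-- `[Q, σ²]` centralizes an invariant normal `p`-subgroup of coprime order. -/
theorem tau_centralizes_pgroup (n : ℕ) : ∀ (G : Type u) [Group G] [Finite G], Nat.card G = n →
    Group.IsSolvable G → ∀ (σ : G ≃* G), IsFpf σ → (⇑σ)^[4] = id →
    ∀ (p : ℕ) [Fact p.Prime] (P : Subgroup G) [P.Normal], IsInv σ P → IsPGroup p P →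
    ∀ (Q : Subgroup G), IsInv σ Q → (Nat.card Q).Coprime (Nat.card P) →
    ∀ x ∈ Q, ∀ y ∈ P, (x⁻¹ * σ (σ x)) * y = y * (x⁻¹ * σ (σ x)) := by
  induction n using Nat.strong_induction_on with
  | _ n IH =>
  intro G _ _ hn hsolv σ hσ hσ4 p _ P hPn hPσ hPp Q hQσ hcop x hx y hy
  have := hsolv
  by_cases hP0 : P = ⊥
  · rw [hP0, Subgroup.mem_bot] at hy
    rw [hy, mul_one, one_mul]
  let A : Subgroup G := P ⊓ Subgroup.centralizer (P : Set G)
  have hCn : (Subgroup.centralizer (P : Set G)).Normal := normal_centralizer_of_normal P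
  have hAn : A.Normal := Subgroup.normal_inf_normal _ _
  have hAσ : IsInv σ A := fun a ha => Subgroup.mem_inf.mpr
    ⟨hPσ a (Subgroup.mem_inf.mp ha).1, isInv_centralizer' P hPσ a (Subgroup.mem_inf.mp ha).2⟩
  have hAab : ∀ a ∈ A, ∀ b ∈ A, a * b = b * a := by
    intro a ha b hb
    exact Subgroup.mem_centralizer_iff.mp (Subgroup.mem_inf.mp hb).2 a (Subgroup.mem_inf.mp ha).1
  have hA0 : A ≠ ⊥ := by
    have : Nontrivial ↥P := (Subgroup.nontrivial_iff_ne_bot _).mpr hP0
    have hc := IsPGroup.center_nontrivial hPp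
    obtain ⟨z, hz⟩ := exists_ne (1 : Subgroup.center ↥P)
    intro hbot
    have hmem : ((z : ↥P) : G) ∈ A := by
      refine Subgroup.mem_inf.mpr ⟨(z : ↥P).2, ?_⟩
      rw [Subgroup.mem_centralizer_iff]
      intro w hw
      have h4 := Subgroup.mem_center_iff.mp z.2 ⟨w, hw⟩
      exact congrArg Subtype.val h4
    rw [hbot, Subgroup.mem_bot] at hmem
    apply hz
    apply Subtype.ext; apply Subtype.ext; exact hmem
  have hAP : A ≤ P := inf_le_left
  have hcopA : (Nat.card Q).Coprime (Nat.card A) :=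
    Nat.Coprime.coprime_dvd_right (Subgroup.card_dvd_of_le hAP) hcop
  have huQ : x⁻¹ * σ (σ x) ∈ Q := Q.mul_mem (Q.inv_mem hx) (hQσ _ (hQσ x hx))
  have huA : ∀ a ∈ A, (x⁻¹ * σ (σ x)) * a = a * (x⁻¹ * σ (σ x)) :=
    tau_centralizes_abelian hsolv hσ hσ4 A hAσ hAab Q hQσ hcopA x hx
  have hlt : Nat.card (G ⧸ A) < n := by
    rw [← hn, ← Subgroup.index_eq_card, ← A.card_mul_index]
    have h1 : 1 < Nat.card A := (Subgroup.one_lt_card_iff_ne_bot A).mpr hA0
    have hpos : 0 < A.index := Nat.pos_of_ne_zero Subgroup.index_ne_zero_of_finite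
    nlinarith
  have hmapinv : ∀ H : Subgroup G, IsInv σ H →
      IsInv (quot σ A hAσ) (H.map (QuotientGroup.mk' A)) := by
    rintro H hH _ ⟨h, hh, rfl⟩
    exact ⟨σ h, hH h hh, rfl⟩
  have hPbn : (P.map (QuotientGroup.mk' A)).Normal :=
    Subgroup.Normal.map hPn (QuotientGroup.mk' A) (QuotientGroup.mk'_surjective A)
  have hcopb : (Nat.card (Q.map (QuotientGroup.mk' A))).Coprime
      (Nat.card (P.map (QuotientGroup.mk' A))) :=
    Nat.Coprime.coprime_dvd_left (Subgroup.card_map_dvd Q _)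
      (Nat.Coprime.coprime_dvd_right (Subgroup.card_map_dvd P _) hcop)
  have hIH := IH _ hlt (G ⧸ A) rfl inferInstance (quot σ A hAσ) (quot_isFpf hσ A hAσ)
    (quot_iterate_id σ A hAσ hσ4) p (P.map (QuotientGroup.mk' A)) (hmapinv P hPσ) (hPp.map _)
    (Q.map (QuotientGroup.mk' A)) (hmapinv Q hQσ) hcopb
    (QuotientGroup.mk' A x) ⟨x, hx, rfl⟩ (QuotientGroup.mk' A y) ⟨y, hy, rfl⟩
  have e1 : QuotientGroup.mk' A ((x⁻¹ * σ (σ x)) * y) = QuotientGroup.mk' A (y * (x⁻¹ * σ (σ x))) := by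
    rw [map_mul, map_mul, map_mul, map_mul, map_inv]
    exact hIH
  have e1' : ((x⁻¹ * σ (σ x)) * y)⁻¹ * (y * (x⁻¹ * σ (σ x))) ∈ A := QuotientGroup.eq.mp e1
  have hc : y⁻¹ * ((x⁻¹ * σ (σ x)) * y * (x⁻¹ * σ (σ x))⁻¹) ∈ A := by
    have h6 := hAn.conj_mem _ (A.inv_mem e1') (x⁻¹ * σ (σ x))
    have e : (x⁻¹ * σ (σ x)) * (((x⁻¹ * σ (σ x)) * y)⁻¹ * (y * (x⁻¹ * σ (σ x))))⁻¹
        * (x⁻¹ * σ (σ x))⁻¹ = y⁻¹ * ((x⁻¹ * σ (σ x)) * y * (x⁻¹ * σ (σ x))⁻¹) := by group
    rw [e] at h6; exact h6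
  generalize x⁻¹ * σ (σ x) = u at huQ huA hc ⊢
  obtain ⟨c, hcdef⟩ : ∃ c, c = y⁻¹ * (u * y * u⁻¹) := ⟨_, rfl⟩
  rw [← hcdef] at hc
  have hcu : u * c = c * u := huA _ hc
  have huy : u * y * u⁻¹ = y * c := by rw [hcdef]; group
  have hpow : ∀ j : ℕ, u ^ j * y * (u ^ j)⁻¹ = y * c ^ j := by
    intro j
    induction j with
    | zero => simp
    | succ j ih =>
      have hcj : u * c ^ j = c ^ j * u := (Commute.pow_right (show Commute u c from hcu) j).eq
      have hcj' : u * c ^ j * u⁻¹ = c ^ j := by rw [hcj]; group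
      calc u ^ (j + 1) * y * (u ^ (j + 1))⁻¹ = u * (u ^ j * y * (u ^ j)⁻¹) * u⁻¹ := by
            rw [pow_succ']; group
        _ = u * (y * c ^ j) * u⁻¹ := by rw [ih]
        _ = (u * y * u⁻¹) * (u * c ^ j * u⁻¹) := by group
        _ = (y * c) * c ^ j := by rw [huy, hcj']
        _ = y * c ^ (j + 1) := by rw [pow_succ', mul_assoc]
  have e2 := hpow (orderOf u)
  rw [pow_orderOf_eq_one, one_mul, inv_one, mul_one] at e2
  have e3 : c ^ orderOf u = 1 := by
    have h6 : y * c ^ orderOf u = y * 1 := by rw [mul_one]; exact e2.symm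
    exact mul_left_cancel h6
  have hcop' : (orderOf u).Coprime (Nat.card P) :=
    Nat.Coprime.coprime_dvd_left (Subgroup.orderOf_dvd_natCard Q huQ) hcop
  have e4 : c = 1 := eq_one_of_coprime_pow (hAP hc) hcop' e3
  rw [e4, mul_one] at huy
  calc u * y = (u * y * u⁻¹) * u := by group
    _ = y * u := by rw [huy]

theorem isInv_pCore [Finite G] (σ : G ≃* G) (p : ℕ) [Fact p.Prime] :
    IsInv σ (Cfsg.pCore p G) := by
  intro x hx
  have h1 : ((Cfsg.pCore p G).map σ.toMonoidHom).Normal :=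
    Subgroup.Normal.map (Cfsg.Agent.Lib.Helper78.Fitting.pCore_normal p) _ σ.surjective
  have h2 : IsPGroup p ((Cfsg.pCore p G).map σ.toMonoidHom) :=
    (Cfsg.Agent.Lib.Helper78.Fitting.pCore_isPGroup p).map _
  exact Cfsg.Agent.Lib.Helper78.Fitting.le_pCore h1 h2 ⟨x, hx, rfl⟩

theorem pCore_quot_eq_bot [Finite G] (p : ℕ) [Fact p.Prime] (P : Subgroup G) [P.Normal]
    (hP : P = Cfsg.pCore p G) : Cfsg.pCore p (G ⧸ P) = ⊥ := by
  have hNbn : (Cfsg.pCore p (G ⧸ P)).Normal := Cfsg.Agent.Lib.Helper78.Fitting.pCore_normal p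
  have hNbp : IsPGroup p (Cfsg.pCore p (G ⧸ P)) := Cfsg.Agent.Lib.Helper78.Fitting.pCore_isPGroup p
  have hPp : IsPGroup p P := by
    rw [hP]; exact Cfsg.Agent.Lib.Helper78.Fitting.pCore_isPGroup p
  have hNn : ((Cfsg.pCore p (G ⧸ P)).comap (QuotientGroup.mk' P)).Normal := hNbn.comap _
  have hNp : IsPGroup p ((Cfsg.pCore p (G ⧸ P)).comap (QuotientGroup.mk' P)) := by
    rintro ⟨g, hg⟩
    obtain ⟨k, hk⟩ := hNbp ⟨QuotientGroup.mk' P g, hg⟩
    have hk' : (QuotientGroup.mk' P g) ^ p ^ k = 1 := congrArg Subtype.val hk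
    rw [← map_pow] at hk'
    have hmem : g ^ p ^ k ∈ P := (QuotientGroup.eq_one_iff _).mp hk'
    obtain ⟨j, hj⟩ := hPp ⟨g ^ p ^ k, hmem⟩
    have hj' : (g ^ p ^ k) ^ p ^ j = 1 := congrArg Subtype.val hj
    refine ⟨k + j, ?_⟩
    apply Subtype.ext
    show g ^ p ^ (k + j) = 1
    rw [pow_add, pow_mul]; exact hj'
  have hle := Cfsg.Agent.Lib.Helper78.Fitting.le_pCore hNn hNp
  rw [← hP] at hle
  rw [Subgroup.eq_bot_iff_forall]
  intro xb hxb
  obtain ⟨g, rfl⟩ := QuotientGroup.mk'_surjective P xb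
  exact (QuotientGroup.eq_one_iff g).mpr (hle hxb)

open Cfsg.Agent.Lib.Helper78.Fitting
open scoped commutatorElement

/-- A finite solvable group with a fixed-point-free automorphism `σ`, `σ⁴ = 1`, has nilpotent
derived subgroup. -/
theorem main4 (n : ℕ) : ∀ (G : Type u) [Group G] [Finite G], Nat.card G = n →
    Group.IsSolvable G → ∀ (σ : G ≃* G), IsFpf σ → (⇑σ)^[4] = id →
    Group.IsNilpotent (commutator G) := by
  induction n using Nat.strong_induction_on with
  | _ n IH =>
  intro G _ _ hn hsolv σ hσ hσ4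
  have := hsolv
  have hodd := odd_card_of_fpf4 hσ hσ4
  by_cases hA : ∃ p q : ℕ, p.Prime ∧ q.Prime ∧ p ≠ q ∧ Cfsg.pCore p G ≠ ⊥ ∧ Cfsg.pCore q G ≠ ⊥
  · obtain ⟨p, q, hp, hq, hpq, hp0, hq0⟩ := hA
    have : Fact p.Prime := ⟨hp⟩
    have : Fact q.Prime := ⟨hq⟩
    have hN1 : (Cfsg.pCore p G).Normal := pCore_normal p
    have hN2 : (Cfsg.pCore q G).Normal := pCore_normal q
    have key : ∀ (N : Subgroup G) [N.Normal], IsInv σ N → N ≠ ⊥ →
        Group.IsNilpotent (commutator (G ⧸ N)) := by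
      intro N _ hN hN0
      have hlt : Nat.card (G ⧸ N) < n := by
        rw [← hn, ← Subgroup.index_eq_card, ← N.card_mul_index]
        have h1 : 1 < Nat.card N := (Subgroup.one_lt_card_iff_ne_bot N).mpr hN0
        have hpos : 0 < N.index := Nat.pos_of_ne_zero Subgroup.index_ne_zero_of_finite
        nlinarith
      exact IH _ hlt (G ⧸ N) rfl inferInstance (quot σ N hN) (quot_isFpf hσ N hN)
        (quot_iterate_id σ N hN hσ4)
    have h1 := key _ (isInv_pCore σ p) hp0
    have h2 := key _ (isInv_pCore σ q) hq0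
    have hdisj : Cfsg.pCore p G ⊓ Cfsg.pCore q G = ⊥ :=
      (IsPGroup.disjoint_of_ne p q hpq _ _ (pCore_isPGroup p) (pCore_isPGroup q)).eq_bot
    have hmem : ∀ (N : Subgroup G) [N.Normal] (x : commutator G),
        QuotientGroup.mk' N (x : G) ∈ commutator (G ⧸ N) := by
      intro N _ x
      have hmap : (commutator G).map (QuotientGroup.mk' N) ≤ commutator (G ⧸ N) := by
        rw [commutator_def, Subgroup.map_commutator, commutator_def]
        exact Subgroup.commutator_mono le_top le_top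
      exact hmap ⟨x, x.2, rfl⟩
    let f1 : ↥(commutator G) →* ↥(commutator (G ⧸ Cfsg.pCore p G)) :=
      ((QuotientGroup.mk' _).comp (commutator G).subtype).codRestrict _ (hmem _)
    let f2 : ↥(commutator G) →* ↥(commutator (G ⧸ Cfsg.pCore q G)) :=
      ((QuotientGroup.mk' _).comp (commutator G).subtype).codRestrict _ (hmem _)
    have hinj : Function.Injective (f1.prod f2) := by
      intro a b hab
      have e1 : QuotientGroup.mk' (Cfsg.pCore p G) (a : G)
          = QuotientGroup.mk' (Cfsg.pCore p G) (b : G) :=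
        congrArg (fun z => ((z.1 : ↥(commutator (G ⧸ Cfsg.pCore p G))) : G ⧸ Cfsg.pCore p G)) hab
      have e2 : QuotientGroup.mk' (Cfsg.pCore q G) (a : G)
          = QuotientGroup.mk' (Cfsg.pCore q G) (b : G) :=
        congrArg (fun z => ((z.2 : ↥(commutator (G ⧸ Cfsg.pCore q G))) : G ⧸ Cfsg.pCore q G)) hab
      have e3 : (a : G)⁻¹ * b ∈ Cfsg.pCore p G ⊓ Cfsg.pCore q G :=
        Subgroup.mem_inf.mpr ⟨QuotientGroup.eq.mp e1, QuotientGroup.eq.mp e2⟩
      rw [hdisj, Subgroup.mem_bot] at e3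
      exact Subtype.ext (inv_mul_eq_one.mp e3)
    exact nilpotent_of_inj (f1.prod f2) hinj
  · by_cases htriv : Subsingleton G
    · exact Group.isNilpotent_of_subsingleton
    rw [not_subsingleton_iff_nontrivial] at htriv
    have hF0 : Cfsg.fittingSubgroup G ≠ ⊥ := by
      intro h0
      have h1 := Cfsg.Agent.S0552.centralizer_fitting_le (G := G)
      rw [h0] at h1
      have h2 : (⊤ : Subgroup G) ≤ ⊥ := by
        intro g _
        apply h1
        rw [Subgroup.mem_centralizer_iff]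
        intro h hh
        have hh' : h = 1 := Subgroup.mem_bot.mp hh
        rw [hh', one_mul, mul_one]
      exact top_ne_bot (le_bot_iff.mp h2)
    have hex : ∃ p : Nat.Primes, Cfsg.pCore (p : ℕ) G ≠ ⊥ := by
      by_contra hcon
      apply hF0
      rw [fitting_eq_iSup_pCore]
      apply le_bot_iff.mp
      apply iSup_le
      intro p
      by_contra hne
      exact hcon ⟨p, fun h => hne (h ▸ le_refl _)⟩
    obtain ⟨⟨p, hp⟩, hp0⟩ := hex
    have : Fact p.Prime := ⟨hp⟩
    have hothers : ∀ q : ℕ, q.Prime → q ≠ p → Cfsg.pCore q G = ⊥ := by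
      intro q hq hqp
      by_contra hq0
      exact hA ⟨p, q, hp, hq, fun h => hqp h.symm, hp0, hq0⟩
    have hFP : Cfsg.fittingSubgroup G = Cfsg.pCore p G := by
      rw [fitting_eq_iSup_pCore]
      apply le_antisymm
      · apply iSup_le
        intro q
        by_cases hqp : (q : ℕ) = p
        · rw [hqp]
        · rw [hothers q q.2 hqp]; exact bot_le
      · exact le_iSup (fun q : Nat.Primes => Cfsg.pCore (q : ℕ) G) ⟨p, hp⟩
    obtain ⟨P, hPdef⟩ : ∃ P : Subgroup G, P = Cfsg.pCore p G := ⟨_, rfl⟩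
    have hPn : P.Normal := by rw [hPdef]; exact pCore_normal p
    have hPσ : IsInv σ P := by rw [hPdef]; exact isInv_pCore σ p
    have hPp : IsPGroup p P := by rw [hPdef]; exact pCore_isPGroup p
    have hCP : Subgroup.centralizer (P : Set G) ≤ P := by
      have h1 := Cfsg.Agent.S0552.centralizer_fitting_le (G := G)
      rw [hFP, ← hPdef] at h1; exact h1
    obtain ⟨σb, hσbdef⟩ : ∃ σb : G ⧸ P ≃* G ⧸ P, σb = quot σ P hPσ := ⟨_, rfl⟩
    have hσb : IsFpf σb := by rw [hσbdef]; exact quot_isFpf hσ P hPσ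
    have hσb4 : (⇑σb)^[4] = id := by rw [hσbdef]; exact quot_iterate_id σ P hPσ hσ4
    have hσbmk : ∀ g : G, σb (QuotientGroup.mk' P g) = QuotientGroup.mk' P (σ g) := by
      intro g; rw [hσbdef]; rfl
    have hoddb : Odd (Nat.card (G ⧸ P)) :=
      Odd.of_dvd_nat hodd (Subgroup.card_quotient_dvd_card P)
    let Fix : Subgroup (G ⧸ P) :=
      { carrier := {x | σb (σb x) = x}
        mul_mem' := by
          intro a b ha hb
          show σb (σb (a * b)) = a * b
          have ha' : σb (σb a) = a := ha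
          have hb' : σb (σb b) = b := hb
          rw [map_mul, map_mul, ha', hb']
        one_mem' := by
          show σb (σb 1) = 1
          rw [map_one, map_one]
        inv_mem' := by
          intro a ha
          show σb (σb a⁻¹) = a⁻¹
          have ha' : σb (σb a) = a := ha
          rw [map_inv, map_inv, ha'] }
    have claim1 : ∀ q : ℕ, q.Prime → Cfsg.pCore q (G ⧸ P) ≤ Fix := by
      intro q hq
      have : Fact q.Prime := ⟨hq⟩
      by_cases hqp : q = p
      · rw [hqp, pCore_quot_eq_bot p P hPdef]; exact bot_le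
      · have hOn : (Cfsg.pCore q (G ⧸ P)).Normal := pCore_normal q
        have hOσ : IsInv σb (Cfsg.pCore q (G ⧸ P)) := isInv_pCore _ q
        have hOq : IsPGroup q (Cfsg.pCore q (G ⧸ P)) := pCore_isPGroup q
        let N : Subgroup G := (Cfsg.pCore q (G ⧸ P)).comap (QuotientGroup.mk' P)
        have hNn : N.Normal := hOn.comap _
        have hPN : P ≤ N := by
          intro y hy
          show QuotientGroup.mk' P y ∈ Cfsg.pCore q (G ⧸ P)
          have e : QuotientGroup.mk' P y = 1 := (QuotientGroup.eq_one_iff y).mpr hy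
          rw [e]; exact Subgroup.one_mem _
        have hNσ : IsInv σ N := by
          intro g hg
          show QuotientGroup.mk' P (σ g) ∈ Cfsg.pCore q (G ⧸ P)
          rw [← hσbmk]; exact hOσ _ hg
        obtain ⟨Q', hQ'⟩ := exists_isInv_sylow (restr_isFpf hσ N hNσ) q
        let Q : Subgroup G := (Q' : Subgroup ↥N).map N.subtype
        have hQN : Q ≤ N := Subgroup.map_subtype_le _
        have hQσ : IsInv σ Q := by
          rintro _ ⟨z, hz, rfl⟩
          exact ⟨restr σ N hNσ z, hQ' z hz, rfl⟩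
        have hQq : IsPGroup q Q := Q'.2.map _
        have hcop : (Nat.card Q).Coprime (Nat.card P) :=
          IsPGroup.coprime_card_of_ne q p hqp Q P hQq hPp
        have hQfix : ∀ x ∈ Q, x⁻¹ * σ (σ x) ∈ P := by
          intro x hx
          apply hCP
          rw [Subgroup.mem_centralizer_iff]
          intro y hy
          exact (tau_centralizes_pgroup _ G rfl hsolv σ hσ hσ4 p P hPσ hPp Q hQσ hcop
            x hx y hy).symm
        let T : Subgroup G := N ⊓ Fix.comap (QuotientGroup.mk' P)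
        have hPT : P ≤ T := by
          intro y hy
          refine Subgroup.mem_inf.mpr ⟨hPN hy, ?_⟩
          show σb (σb (QuotientGroup.mk' P y)) = QuotientGroup.mk' P y
          have e : QuotientGroup.mk' P y = 1 := (QuotientGroup.eq_one_iff y).mpr hy
          rw [e, map_one, map_one]
        have hQT : Q ≤ T := by
          intro x hx
          refine Subgroup.mem_inf.mpr ⟨hQN hx, ?_⟩
          show σb (σb (QuotientGroup.mk' P x)) = QuotientGroup.mk' P x
          rw [hσbmk, hσbmk]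
          exact (QuotientGroup.eq.mpr (hQfix x hx)).symm
        have hd1 : T.relIndex N ∣ P.relIndex N := Subgroup.relIndex_dvd_of_le_left N hPT
        have hd2 : T.relIndex N ∣ Q.relIndex N := Subgroup.relIndex_dvd_of_le_left N hQT
        have hPidx : ∃ k, P.relIndex N = q ^ k := by
          have hpg : IsPGroup q (↥N ⧸ P.subgroupOf N) := by
            intro xb
            obtain ⟨g, rfl⟩ := QuotientGroup.mk'_surjective (P.subgroupOf N) xb
            obtain ⟨k, hk⟩ := hOq ⟨QuotientGroup.mk' P (g : G), g.2⟩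
            have hk' : (QuotientGroup.mk' P (g : G)) ^ q ^ k = 1 := congrArg Subtype.val hk
            rw [← map_pow] at hk'
            have hmem : (g : G) ^ q ^ k ∈ P := (QuotientGroup.eq_one_iff _).mp hk'
            refine ⟨k, ?_⟩
            rw [← map_pow]
            apply (QuotientGroup.eq_one_iff _).mpr
            exact Subgroup.mem_subgroupOf.mpr hmem
          obtain ⟨k, hk⟩ := IsPGroup.iff_card.mp hpg
          exact ⟨k, by rw [← hk]; exact Subgroup.index_eq_card _⟩
        have hQidx : ¬ q ∣ Q.relIndex N := by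
          have e : Q.subgroupOf N = (Q' : Subgroup ↥N) :=
            Subgroup.comap_map_eq_self_of_injective N.subtype_injective _
          show ¬ q ∣ (Q.subgroupOf N).index
          rw [e]; exact Q'.not_dvd_index
        have hone : T.relIndex N = 1 := by
          obtain ⟨k, hk⟩ := hPidx
          rw [hk] at hd1
          obtain ⟨j, hj, hj2⟩ := (Nat.dvd_prime_pow hq).mp hd1
          rcases Nat.eq_zero_or_pos j with h0 | hpos
          · rw [hj2, h0, pow_zero]
          · exfalso; apply hQidx; rw [hj2] at hd2; exact (dvd_pow_self q hpos.ne').trans hd2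
        have hNT : N ≤ T := Subgroup.relIndex_eq_one.mp hone
        intro xb hxb
        obtain ⟨g, rfl⟩ := QuotientGroup.mk'_surjective P xb
        have hgN : g ∈ N := hxb
        exact (Subgroup.mem_inf.mp (hNT hgN)).2
    have claim1' : Cfsg.fittingSubgroup (G ⧸ P) ≤ Fix := by
      rw [fitting_eq_iSup_pCore]
      exact iSup_le (fun q => claim1 q q.2)
    have claim2 : ∀ g : G ⧸ P, σb (σb g) = g := by
      intro g
      have hFn : (Cfsg.fittingSubgroup (G ⧸ P)).Normal := fitting_normal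
      have hτ2 : ∀ x : G ⧸ P,
          σb (σb (σb (σb x))) = x :=
        fun x => congrFun hσb4 x
      have hfix : ∀ f ∈ Cfsg.fittingSubgroup (G ⧸ P), σb (σb f) = f := fun f hf => claim1' hf
      have hcent : g⁻¹ * σb (σb g) ∈
          Subgroup.centralizer (Cfsg.fittingSubgroup (G ⧸ P) : Set (G ⧸ P)) := by
        rw [Subgroup.mem_centralizer_iff]
        intro f hf
        have h1 : g * f * g⁻¹ ∈ Cfsg.fittingSubgroup (G ⧸ P) := hFn.conj_mem f hf g
        have h2 : σb (σb (g * f * g⁻¹)) = g * f * g⁻¹ := hfix _ h1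
        have h3 : σb (σb f) = f := hfix _ hf
        rw [map_mul, map_mul, map_mul, map_mul, map_inv, map_inv, h3] at h2
        calc f * (g⁻¹ * σb (σb g)) = g⁻¹ * (g * f * g⁻¹) * σb (σb g) := by group
          _ = g⁻¹ * (σb (σb g) * f * (σb (σb g))⁻¹) * σb (σb g) := by rw [← h2]
          _ = g⁻¹ * σb (σb g) * f := by group
      have hubF := Cfsg.Agent.S0552.centralizer_fitting_le hcent
      have h4 : σb (σb (g⁻¹ * σb (σb g))) = g⁻¹ * σb (σb g) := hfix _ hubF
      have h5 : σb (σb (g⁻¹ * σb (σb g))) = (g⁻¹ * σb (σb g))⁻¹ := by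
        rw [map_mul, map_mul, map_inv, map_inv, hτ2]; group
      have h6 : (g⁻¹ * σb (σb g)) * (g⁻¹ * σb (σb g)) = 1 :=
        mul_eq_one_iff_eq_inv.mpr (h4.symm.trans h5)
      have h7 : g⁻¹ * σb (σb g) = 1 := by
        have h8 : orderOf (g⁻¹ * σb (σb g)) ∣ 2 :=
          orderOf_dvd_of_pow_eq_one (by rw [pow_two]; exact h6)
        have h9 : orderOf (g⁻¹ * σb (σb g)) ∣ Nat.card (G ⧸ P) := orderOf_dvd_natCard _
        have h10 : Nat.Coprime 2 (Nat.card (G ⧸ P)) := Nat.coprime_two_left.mpr hoddb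
        have h11 : orderOf (g⁻¹ * σb (σb g)) ∣ 1 := by
          have := Nat.dvd_gcd h8 h9
          rwa [Nat.Coprime.gcd_eq_one h10] at this
        exact orderOf_eq_one_iff.mp (Nat.dvd_one.mp h11)
      exact (inv_mul_eq_one.mp h7).symm
    have claim3 : ∀ a b : G ⧸ P, Commute a b := fun a b =>
      MonoidHom.FixedPointFree.commute_all_of_involutive (φ := σb) hσb claim2 a b
    have hcomm : commutator G ≤ P := by
      rw [commutator_def]
      apply Subgroup.commutator_le.mpr
      intro a _ b _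
      apply (QuotientGroup.eq_one_iff _).mp
      show QuotientGroup.mk' P ⁅a, b⁆ = 1
      rw [map_commutatorElement, commutatorElement_eq_one_iff_commute]
      exact claim3 _ _
    have : Group.IsNilpotent P := hPp.isNilpotent
    exact nilpotent_of_inj (Subgroup.inclusion hcomm) (Subgroup.inclusion_injective hcomm)

end Cfsg.Agent.Lib.Helper1.Fpf4
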