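import Mathlib
import Cfsg.Agent.Lib.Helper96.HallConjStmt

/-!
# S2535 piece S7: a Hall `{2,3}`-subgroup of `Perm Ω`, `card Ω = 7`, is the stabilizer of a 3-set.
-/

set_option autoImplicit false

namespace Cfsg.Agent.Lib.Helper1.HCS7

open Equiv Cfsg.Agent.Lib.Helper96.HallSymStmt Cfsg.Agent.Lib.Helper96.HallConjStmt
open scoped Pointwise

theorem main : Cfsg.Agent.Lib.Helper96.HallConjStmt.S7' := by
  intro hMAX h71 h72 Ω _ _ hcard π h23 H hH
  obtain ⟨Δ, hΔ3, hinv⟩ := h71 Ω hcard π h23 H hH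
  have h2 : (2 : ℕ) ∈ π := (h23 2 Nat.prime_two (by norm_num)).2 (Or.inl rfl)
  have h3 : (3 : ℕ) ∈ π := (h23 3 Nat.prime_three (by norm_num)).2 (Or.inr rfl)
  have hpi := h72 Ω hcard π h2 h3 Δ hΔ3
  refine ⟨Δ, hΔ3, ?_⟩
  have hle : H ≤ MulAction.stabilizer (Perm Ω) Δ := by
    intro g hg
    rw [MulAction.mem_stabilizer_iff]
    apply Set.Subset.antisymm
    · intro y hy
      obtain ⟨x, hx, rfl⟩ := Set.mem_smul_set.1 hy
      exact hinv g hg x hx
    · intro y hy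
      rw [Set.mem_smul_set]
      refine ⟨g⁻¹ y, hinv g⁻¹ (H.inv_mem hg) y hy, ?_⟩
      simp
  exact (hMAX (Perm Ω) π H _ hH hle hpi).symm

end Cfsg.Agent.Lib.Helper1.HCS7
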