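import Mathlib
import Cfsg.Agent.Lib.Helper96.HallConjStmt
import Cfsg.Agent.Lib.Helper96.HallSymFwd

/-!
# S2535 piece S71: a Hall `{2,3}`-subgroup of `Perm Ω`, `card Ω = 7`, has an invariant 3-set.
-/

set_option autoImplicit false
set_option linter.style.haveILetI false

namespace Cfsg.Agent.Lib.Helper1.HCS71

open Equiv Cfsg.Agent.Lib.Helper96.HallSymStmt Cfsg.Agent.Lib.Helper96.HallConjStmt
open scoped Pointwise

/-- the complement of an invariant set is invariant -/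
theorem invS_compl {Ω : Type} {H : Subgroup (Perm Ω)} {Δ : Set Ω} (h : InvS H Δ) :
    InvS H Δᶜ := by
  intro g hg x hx hgx
  apply hx
  have := h g⁻¹ (H.inv_mem hg) (g x) hgx
  simpa using this

/-- orbits are invariant -/
theorem invS_orb {Ω : Type} (H : Subgroup (Perm Ω)) (x : Ω) : InvS H (Orb H x) := by
  rintro g hg _ ⟨h, hh, rfl⟩
  exact ⟨g * h, H.mul_mem hg hh, rfl⟩

/-- no invariant 6-set in degree 7 -/
theorem no_six (Ω : Type) [Fintype Ω] [DecidableEq Ω] (_hcard : Fintype.card Ω = 7)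
    (π : Set ℕ) (h23 : Case23 7 π) (H : Subgroup (Perm Ω)) (hH : Cfsg.IsPiHall π H)
    (Δ : Set Ω) (hΔ : Δ.ncard = 6) (hinv : InvS H Δ) : False := by
  classical
  obtain ⟨H', hH', -, -⟩ := Cfsg.Agent.Lib.Helper96.HallSymFwd.ssb Ω π H hH Δ hinv
  letI : Fintype ↥Δ := Fintype.ofFinite _
  have hc : Fintype.card ↥Δ = 6 := by
    rw [← Nat.card_eq_fintype_card, Nat.card_coe_set_eq, hΔ]
  have h2 : (2 : ℕ) ∈ π := (h23 2 Nat.prime_two (by norm_num)).2 (Or.inl rfl)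
  have h3 : (3 : ℕ) ∈ π := (h23 3 Nat.prime_three (by norm_num)).2 (Or.inr rfl)
  have h5 : (5 : ℕ) ∉ π := by
    intro h
    have := (h23 5 (by norm_num) (by norm_num)).1 h
    omega
  have htwo : TwoP 6 π := ⟨2, 3, Nat.prime_two, Nat.prime_three, by norm_num, h2, h3,
    by norm_num, by norm_num⟩
  have hnot : NotAll 6 π := ⟨5, by norm_num, by norm_num, h5⟩
  have hconcl := Cfsg.Agent.Lib.Helper96.HallSymFwd.fwd_all 6 ↥Δ hc π htwo hnot H' hH'
  rcases hconcl with ⟨hp, -⟩ | ⟨h78, -⟩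
  · exact absurd hp (by norm_num)
  · omega

theorem main : Cfsg.Agent.Lib.Helper96.HallConjStmt.S71 := by
  classical
  intro Ω _ _ hcard π h23 H hH
  have h2 : (2 : ℕ) ∈ π := (h23 2 Nat.prime_two (by norm_num)).2 (Or.inl rfl)
  have h3 : (3 : ℕ) ∈ π := (h23 3 Nat.prime_three (by norm_num)).2 (Or.inr rfl)
  have h7 : (7 : ℕ) ∉ π := by
    intro h
    have := (h23 7 (by norm_num) (by norm_num)).1 h
    omega
  have hntr : ¬ Cfsg.Agent.Lib.Helper96.HallSymStmt.Trans H := by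
    intro htr
    have hdvd := Cfsg.Agent.Lib.Helper96.HallSymFwd.tdvd Ω H (by rw [hcard]; norm_num) htr
    rw [hcard] at hdvd
    exact h7 (hH.1 7 (by norm_num) hdvd)
  unfold Cfsg.Agent.Lib.Helper96.HallSymStmt.Trans at hntr
  push Not at hntr
  obtain ⟨x, y, hxy⟩ := hntr
  set Δ₀ : Set Ω := Orb H x with hΔ₀
  have hinv₀ : InvS H Δ₀ := invS_orb H x
  have hx : x ∈ Δ₀ := ⟨1, H.one_mem, rfl⟩
  have hy : y ∉ Δ₀ := by
    rintro ⟨h, hh, hhx⟩
    exact hxy h hh hhx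
  have hcardΩ : Nat.card Ω = 7 := by rw [Nat.card_eq_fintype_card, hcard]
  have hpos : 0 < Δ₀.ncard := (Set.ncard_pos (Set.toFinite _)).2 ⟨x, hx⟩
  have hcompl : Δ₀ᶜ.ncard = 7 - Δ₀.ncard := by
    rw [Set.ncard_compl, hcardΩ]
  have hcpos : 0 < Δ₀ᶜ.ncard := (Set.ncard_pos (Set.toFinite _)).2 ⟨y, hy⟩
  have hle : Δ₀.ncard ≤ 7 := by
    have := Set.ncard_le_card Δ₀
    rwa [hcardΩ] at this
  have hssa := Cfsg.Agent.Lib.Helper96.HallSymFwd.ssa Ω π H hH Δ₀ hinv₀ 3 Nat.prime_three h3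
  rw [hcard] at hssa
  have hm : Δ₀.ncard = 1 ∨ Δ₀.ncard = 2 ∨ Δ₀.ncard = 3 ∨ Δ₀.ncard = 4 ∨ Δ₀.ncard = 5 ∨
      Δ₀.ncard = 6 := by omega
  rcases hm with hm | hm | hm | hm | hm | hm
  · exact absurd (no_six Ω hcard π h23 H hH Δ₀ᶜ (by omega) (invS_compl hinv₀)) id
  · rw [hm] at hssa
    exact absurd (by decide : 3 ∣ Nat.choose 7 2) hssa
  · exact ⟨Δ₀, hm, hinv₀⟩
  · exact ⟨Δ₀ᶜ, by omega, invS_compl hinv₀⟩
  · rw [hm] at hssa
    exact absurd (by decide : 3 ∣ Nat.choose 7 5) hssa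
  · exact absurd (no_six Ω hcard π h23 H hH Δ₀ hm hinv₀) id

end Cfsg.Agent.Lib.Helper1.HCS71
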