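import Mathlib
import Cfsg.Agent.Lib.Helper96.HallConjStmt

/-!
# S2535 piece S8: a Hall `{2,3}`-subgroup of `Perm Ω`, `card Ω = 8`, is the stabilizer of a
partition into two 4-sets.
-/

set_option autoImplicit false

namespace Cfsg.Agent.Lib.Helper1.HCS8

open Equiv Cfsg.Agent.Lib.Helper96.HallSymStmt Cfsg.Agent.Lib.Helper96.HallConjStmt
open scoped Pointwise

theorem main : Cfsg.Agent.Lib.Helper96.HallConjStmt.S8' := by
  intro hMAX h81 h82 Ω _ _ hcard π h23 H hH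
  obtain ⟨Δ, hΔ4, hinv⟩ := h81 Ω hcard π h23 H hH
  have h2 : (2 : ℕ) ∈ π := (h23 2 Nat.prime_two (by norm_num)).2 (Or.inl rfl)
  have h3 : (3 : ℕ) ∈ π := (h23 3 Nat.prime_three (by norm_num)).2 (Or.inr rfl)
  have hpi := h82 Ω hcard π h2 h3 Δ hΔ4
  refine ⟨Δ, hΔ4, ?_⟩
  have hle : H ≤ MulAction.stabilizer (Perm Ω) ({Δ, Δᶜ} : Set (Set Ω)) := by
    intro g hg
    rw [MulAction.mem_stabilizer_iff]
    rw [Set.smul_set_insert, Set.smul_set_singleton, Set.smul_set_compl]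
    rcases hinv g hg with h | h
    · rw [h]
    · rw [h, compl_compl, Set.pair_comm]
  exact (hMAX (Perm Ω) π H _ hH hle hpi).symm

end Cfsg.Agent.Lib.Helper1.HCS8
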