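import Mathlib
import Cfsg.Agent.Lib.Helper96.HallConjStmt
import Cfsg.Agent.Lib.Helper96.HallSymFwd

/-!
# S2535 piece S81: a Hall `{2,3}`-subgroup of `Perm Ω`, `card Ω = 8`, preserves a partition into
two 4-sets.
-/

set_option autoImplicit false
set_option linter.style.haveILetI false

namespace Cfsg.Agent.Lib.Helper1.HCS81

open Equiv Cfsg.Agent.Lib.Helper96.HallSymStmt Cfsg.Agent.Lib.Helper96.HallConjStmt
open scoped Pointwise

theorem invS_orb {Ω : Type} (H : Subgroup (Perm Ω)) (x : Ω) : InvS H (Orb H x) := by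
  rintro g hg _ ⟨h, hh, rfl⟩
  exact ⟨g * h, H.mul_mem hg hh, rfl⟩

theorem main : Cfsg.Agent.Lib.Helper96.HallConjStmt.S81 := by
  classical
  intro Ω _ _ hcard π h23 H hH
  have h2 : (2 : ℕ) ∈ π := (h23 2 Nat.prime_two (by norm_num)).2 (Or.inl rfl)
  have h3 : (3 : ℕ) ∈ π := (h23 3 Nat.prime_three (by norm_num)).2 (Or.inr rfl)
  have h5 : (5 : ℕ) ∉ π := by
    intro h
    have := (h23 5 (by norm_num) (by norm_num)).1 h
    omega
  have hcardΩ : Nat.card Ω = 8 := by rw [Nat.card_eq_fintype_card, hcard]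
  -- `H` is transitive
  have htr : Cfsg.Agent.Lib.Helper96.HallSymStmt.Trans H := by
    by_contra hntr
    unfold Cfsg.Agent.Lib.Helper96.HallSymStmt.Trans at hntr
    push Not at hntr
    obtain ⟨x, y, hxy⟩ := hntr
    set Δ₀ : Set Ω := Orb H x with hΔ₀
    have hinv₀ : InvS H Δ₀ := invS_orb H x
    have hx : x ∈ Δ₀ := ⟨1, H.one_mem, rfl⟩
    have hy : y ∉ Δ₀ := by
      rintro ⟨h, hh, hhx⟩
      exact hxy h hh hhx
    have hpos : 0 < Δ₀.ncard := (Set.ncard_pos (Set.toFinite _)).2 ⟨x, hx⟩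
    have hcompl : Δ₀ᶜ.ncard = 8 - Δ₀.ncard := by
      rw [Set.ncard_compl, hcardΩ]
    have hcpos : 0 < Δ₀ᶜ.ncard := (Set.ncard_pos (Set.toFinite _)).2 ⟨y, hy⟩
    have hle : Δ₀.ncard ≤ 8 := by
      have := Set.ncard_le_card Δ₀
      rwa [hcardΩ] at this
    have hssa := Cfsg.Agent.Lib.Helper96.HallSymFwd.ssa Ω π H hH Δ₀ hinv₀ 2 Nat.prime_two h2
    rw [hcard] at hssa
    have hm : Δ₀.ncard = 1 ∨ Δ₀.ncard = 2 ∨ Δ₀.ncard = 3 ∨ Δ₀.ncard = 4 ∨ Δ₀.ncard = 5 ∨
        Δ₀.ncard = 6 ∨ Δ₀.ncard = 7 := by omega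
    rcases hm with hm | hm | hm | hm | hm | hm | hm <;> rw [hm] at hssa <;>
      exact hssa (by decide)
  -- `H` is not primitive
  have htwo : TwoP (Fintype.card Ω) π := by
    rw [hcard]
    exact ⟨2, 3, Nat.prime_two, Nat.prime_three, by norm_num, h2, h3, by norm_num, by norm_num⟩
  have hnot : NotAll (Fintype.card Ω) π := by
    rw [hcard]
    exact ⟨5, by norm_num, by norm_num, h5⟩
  have hnprim : ¬ MulAction.IsPreprimitive ↥H Ω := fun hp =>
    Cfsg.Agent.Lib.Helper96.HallSymFwd.prim Ω π H hH hp htwo hnot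
  obtain ⟨ι, hι, f, a, hsurj, hfib, ha1, ha8, hab, hcompat⟩ :=
    Cfsg.Agent.Lib.Helper96.HallSymFwd.b0 Ω H htr hnprim
  rw [hcard] at ha8 hab
  have hblk := (Cfsg.Agent.Lib.Helper96.HallSymFwd.blk Ω π H hH htr (by rw [hcard]; norm_num)
    ι f a hsurj ha1.le hfib (by rw [hcard]; exact hab) hcompat).1 3 Nat.prime_three h3
  haveI : Fact (Nat.Prime 3) := ⟨Nat.prime_three⟩
  -- `a = 4`, `card ι = 2`
  have hb : a = 4 ∧ Fintype.card ι = 2 := by
    have hb0 : 0 < Fintype.card ι := by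
      rcases Nat.eq_zero_or_pos (Fintype.card ι) with h | h
      · rw [h] at hab; omega
      · exact h
    have hadvd : a ∣ 8 := ⟨_, hab⟩
    have hale : a ≤ 8 := Nat.le_of_dvd (by norm_num) hadvd
    have hcases : a = 2 ∨ a = 4 := by
      interval_cases a <;> simp_all <;> omega
    rcases hcases with rfl | rfl
    · exfalso
      have hι4 : Fintype.card ι = 4 := by omega
      rw [hι4] at hblk
      have e1 : 2 ≤ padicValNat 3 (2 * 4).factorial :=
        (padicValNat_dvd_iff_le (by positivity)).1 (by decide)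
      have e2 : padicValNat 3 (2).factorial = 0 :=
        padicValNat.eq_zero_of_not_dvd (by decide)
      have e3 : ¬ 2 ≤ padicValNat 3 (4).factorial := by
        intro h
        have := (padicValNat_dvd_iff_le (p := 3) (n := 2) (a := (4).factorial)
          (by positivity)).2 h
        exact absurd this (by decide)
      rw [e2] at hblk
      omega
    · exact ⟨rfl, by omega⟩
  obtain ⟨rfl, hι2⟩ := hb
  have hne : Nonempty ι := by
    rw [← Fintype.card_pos_iff, hι2]; norm_num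
  obtain ⟨i₀⟩ := hne
  refine ⟨f ⁻¹' {i₀}, hfib i₀, ?_⟩
  intro g hg
  obtain ⟨x₀, hx₀⟩ : (f ⁻¹' {i₀}).Nonempty := by
    rw [← Set.ncard_pos (Set.toFinite _), hfib i₀]; norm_num
  have hsub : g • (f ⁻¹' {i₀}) ⊆ f ⁻¹' {f (g x₀)} := by
    intro y hy
    obtain ⟨x, hx, rfl⟩ := Set.mem_smul_set.1 hy
    have hfx : f x = f x₀ := by
      rw [Set.mem_preimage, Set.mem_singleton_iff] at hx hx₀
      rw [hx, hx₀]
    exact hcompat g hg x x₀ hfx
  have hnc : (g • (f ⁻¹' {i₀})).ncard = 4 := by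
    rw [← Set.image_smul, Set.ncard_image_of_injective _ (MulAction.injective g), hfib i₀]
  have heq : g • (f ⁻¹' {i₀}) = f ⁻¹' {f (g x₀)} :=
    Set.eq_of_subset_of_ncard_le hsub (by rw [hnc, hfib]) (Set.toFinite _)
  by_cases hj : f (g x₀) = i₀
  · left; rw [heq, hj]
  · right
    rw [heq]
    ext z
    simp only [Set.mem_preimage, Set.mem_singleton_iff, Set.mem_compl_iff]
    constructor
    · intro hz hz'
      exact hj (hz ▸ hz')
    · intro hz
      by_contra hz'
      have h3' : 2 < Fintype.card ι := by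
        rw [Fintype.two_lt_card_iff]
        exact ⟨f z, i₀, f (g x₀), hz, hz', fun h => hj h.symm⟩
      omega

end Cfsg.Agent.Lib.Helper1.HCS81
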