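import Mathlib

/-!
# Unipotent operators of `p`-power order whose centralizer is "scalars plus traces"

Polynomial identities in characteristic `p`, an orbit/trace decomposition lemma, and the
key "single Jordan block" lemma used for Hall--Higman Theorem B.
-/

namespace Cfsg.Agent.Lib.Helper1.HHJordan

open Module Polynomial

section Poly

theorem geom_poly (K : Type*) [Field K] (p : ℕ) [Fact p.Prime] [CharP K p] (k : ℕ) :
    (∑ j ∈ Finset.range (p ^ k), (X : K[X]) ^ j) = (X - 1) ^ (p ^ k - 1) := by
  have h1 : (X - 1 : K[X]) * ∑ j ∈ Finset.range (p ^ k), (X : K[X]) ^ j = X ^ (p ^ k) - 1 :=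
    mul_geom_sum X (p ^ k)
  have h2 : (X - 1 : K[X]) ^ (p ^ k) = X ^ (p ^ k) - 1 := by
    rw [sub_pow_char_pow, one_pow]
  have h3 : (X - 1 : K[X]) ≠ 0 := by
    have := X_sub_C_ne_zero (1 : K)
    simpa using this
  have hpos : 0 < p ^ k := pos_of_ne_zero (pow_ne_zero _ (Fact.out : p.Prime).ne_zero)
  apply mul_left_cancel₀ h3
  rw [h1, ← h2, ← pow_succ']
  congr 1
  omega

theorem geom_alg (K : Type*) [Field K] (p : ℕ) [Fact p.Prime] [CharP K p]
    {E : Type*} [Ring E] [Algebra K E] (x : E) (k : ℕ) :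
    (∑ j ∈ Finset.range (p ^ k), x ^ j) = (x - 1) ^ (p ^ k - 1) := by
  have h := congrArg (aeval (R := K) x) (geom_poly K p k)
  simpa using h

theorem frob_alg (K : Type*) [Field K] (p : ℕ) [Fact p.Prime] [CharP K p]
    {E : Type*} [Ring E] [Algebra K E] (x : E) (k : ℕ) :
    (x - 1) ^ (p ^ k) = x ^ (p ^ k) - 1 := by
  have h2 : (X - 1 : K[X]) ^ (p ^ k) = X ^ (p ^ k) - 1 := by
    rw [sub_pow_char_pow, one_pow]
  have h := congrArg (aeval (R := K) x) h2
  simpa using h

theorem deriv_alg (K : Type*) [Field K] (p : ℕ) [Fact p.Prime] [CharP K p]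
    {E : Type*} [Ring E] [Algebra K E] (x : E) (k : ℕ) (hk : 2 ≤ p ^ k) :
    (∑ j ∈ Finset.range (p ^ k), (j : K) • x ^ j) = -((x - 1) ^ (p ^ k - 2) * x) := by
  have h0 := congrArg derivative (geom_poly K p k)
  rw [derivative_sum] at h0
  have h1 : derivative ((X - 1 : K[X]) ^ (p ^ k - 1))
      = C ((p ^ k - 1 : ℕ) : K) * (X - 1) ^ (p ^ k - 2) := by
    have := derivative_X_sub_C_pow (1 : K) (p ^ k - 1)
    have e : p ^ k - 1 - 1 = p ^ k - 2 := by omega
    rw [e] at this
    simpa using this
  rw [h1] at h0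
  have hk0 : k ≠ 0 := by
    rintro rfl; simp at hk
  have hcast : ((p ^ k - 1 : ℕ) : K) = -1 := by
    rw [Nat.cast_sub (by omega)]
    simp [hk0]
  rw [hcast] at h0
  have h2 := congrArg (fun q => q * X) h0
  simp only [Finset.sum_mul] at h2
  have h3 : ∀ j ∈ Finset.range (p ^ k), derivative ((X : K[X]) ^ j) * X = C (j : K) * X ^ j := by
    intro j _
    rw [derivative_X_pow]
    rcases j with _ | j
    · simp
    · simp [pow_succ, mul_assoc]
  rw [Finset.sum_congr rfl h3] at h2
  have h4 := congrArg (aeval (R := K) x) h2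
  simp only [map_sum, map_mul, aeval_C, map_pow, aeval_X, map_neg, map_one, map_sub] at h4
  have h5 : (∑ j ∈ Finset.range (p ^ k), (j : K) • x ^ j)
      = ∑ j ∈ Finset.range (p ^ k), (algebraMap K E) (j : K) * x ^ j := by
    apply Finset.sum_congr rfl
    intro j _
    rw [Algebra.smul_def]
  rw [h5, h4]
  simp

end Poly

section Orbit

/-- Orbit decomposition: a combination `∑ c a • t a` that is "equivariant" under a permutation
`φ` of the (finite) index set of period `P`, acting freely away from a fixed point `o`, is the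
`o`-term plus a trace `∑_{j<P} x^j s xi^j`. -/
theorem orbit_trace {K E I : Type*} [Field K] [Ring E] [Algebra K E] [Fintype I] [DecidableEq I]
    (φ : Equiv.Perm I) (P : ℕ) (hP : 0 < P) (hφP : ∀ a, (⇑φ)^[P] a = a) (o : I) (ho : φ o = o)
    (hfree : ∀ a, a ≠ o → ∀ j, 0 < j → j < P → (⇑φ)^[j] a ≠ a)
    (t : I → E) (x xi : E) (c : I → K)
    (hc : ∀ (j : ℕ) (a : I), c ((⇑φ)^[j] a) • t ((⇑φ)^[j] a) = c a • (x ^ j * t a * xi ^ j)) :
    ∃ s ∈ Submodule.span K (Set.range t),
      ∑ a, c a • t a = c o • t o + ∑ j ∈ Finset.range P, x ^ j * s * xi ^ j := by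
  classical
  let G : Subgroup (Equiv.Perm I) := Subgroup.zpowers φ
  let Ω := Quotient (MulAction.orbitRel ↥G I)
  let _ : Fintype Ω := Fintype.ofFinite _
  let mk : I → Ω := fun a => Quotient.mk (MulAction.orbitRel ↥G I) a
  let rep : Ω → I := fun ω => Quotient.out ω
  have hφpow : φ ^ P = 1 := by
    ext a
    rw [← Equiv.Perm.iterate_eq_pow]
    exact hφP a
  have hmk : ∀ a b : I, mk a = mk b ↔ ∃ j, j < P ∧ (⇑φ)^[j] b = a := by
    intro a b
    show Quotient.mk (MulAction.orbitRel ↥G I) a = Quotient.mk (MulAction.orbitRel ↥G I) b ↔ _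
    rw [Quotient.eq]
    show a ∈ MulAction.orbit ↥G b ↔ _
    constructor
    · rintro ⟨g, hg⟩
      obtain ⟨k, hk⟩ := Subgroup.mem_zpowers_iff.mp g.2
      have hPz : φ ^ (P : ℤ) = 1 := by rw [zpow_natCast]; exact hφpow
      have h1 : φ ^ k = φ ^ (k % (P : ℤ)) := zpow_eq_zpow_emod k hPz
      have hnn : 0 ≤ k % (P : ℤ) := Int.emod_nonneg _ (by exact_mod_cast hP.ne')
      have hlt : k % (P : ℤ) < P := Int.emod_lt_of_pos _ (by exact_mod_cast hP)
      refine ⟨(k % (P : ℤ)).toNat, by omega, ?_⟩
      have h2 : φ ^ ((k % (P : ℤ)).toNat) = φ ^ k := by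
        rw [h1, ← zpow_natCast, Int.toNat_of_nonneg hnn]
      rw [Equiv.Perm.iterate_eq_pow, h2, hk]
      exact hg
    · rintro ⟨j, _, hj⟩
      refine ⟨⟨φ ^ j, Subgroup.pow_mem _ (Subgroup.mem_zpowers φ) j⟩, ?_⟩
      show (φ ^ j) b = a
      rw [← Equiv.Perm.iterate_eq_pow]
      exact hj
  have hmkrep : ∀ ω : Ω, mk (rep ω) = ω := fun ω => Quotient.out_eq ω
  have hiter_o : ∀ j : ℕ, (⇑φ)^[j] o = o := by
    intro j
    induction j with
    | zero => rfl
    | succ j ih => rw [Function.iterate_succ_apply', ih, ho]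
  have hrep_o : ∀ ω : Ω, rep ω = o ↔ ω = mk o := by
    intro ω
    constructor
    · intro h
      rw [← hmkrep ω, h]
    · intro h
      have h1 : mk (rep ω) = mk o := by rw [hmkrep, h]
      obtain ⟨j, _, hj⟩ := (hmk _ _).mp h1
      rw [← hj, hiter_o]
  have hfiber : ∀ ω : Ω, Finset.univ.filter (fun a => mk a = ω)
      = Finset.image (fun j => (⇑φ)^[j] (rep ω)) (Finset.range P) := by
    intro ω
    ext a
    simp only [Finset.mem_filter, Finset.mem_univ, true_and, Finset.mem_image, Finset.mem_range]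
    rw [← hmkrep ω, hmk, hmkrep]
  have hinj : ∀ b : I, b ≠ o → Set.InjOn (fun j => (⇑φ)^[j] b) (Finset.range P : Set ℕ) := by
    intro b hb
    have key : ∀ i j : ℕ, i < j → j < P → (⇑φ)^[i] b ≠ (⇑φ)^[j] b := by
      intro i j hij hjP h
      have h1 : (⇑φ)^[j] b = (⇑φ)^[i] ((⇑φ)^[j - i] b) := by
        rw [← Function.iterate_add_apply]
        congr 1
        omega
      rw [h1] at h
      have h2 := (Function.Injective.iterate φ.injective i) h
      exact hfree b hb (j - i) (by omega) (by omega) h2.symm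
    intro i hi j hj hij
    simp only [Finset.coe_range, Set.mem_Iio] at hi hj
    by_contra hne
    rcases Nat.lt_or_gt_of_ne hne with h | h
    · exact key i j h hj hij
    · exact key j i h hi hij.symm
  let sω : Ω → E := fun ω => if rep ω = o then 0 else c (rep ω) • t (rep ω)
  have hsω : ∀ ω, sω ω ∈ Submodule.span K (Set.range t) := by
    intro ω
    show (if rep ω = o then 0 else c (rep ω) • t (rep ω)) ∈ _
    split_ifs
    · exact Submodule.zero_mem _
    · exact Submodule.smul_mem _ _ (Submodule.subset_span ⟨_, rfl⟩)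
  refine ⟨∑ ω, sω ω, Submodule.sum_mem _ (fun ω _ => hsω ω), ?_⟩
  have hfib : ∀ ω : Ω, ∑ a ∈ Finset.univ.filter (fun a => mk a = ω), c a • t a
      = (if ω = mk o then c o • t o else 0) + ∑ j ∈ Finset.range P, x ^ j * sω ω * xi ^ j := by
    intro ω
    rw [hfiber ω]
    by_cases h : rep ω = o
    · have h' : ω = mk o := (hrep_o ω).mp h
      have himg : Finset.image (fun j => (⇑φ)^[j] (rep ω)) (Finset.range P) = {o} := by
        ext a
        simp only [Finset.mem_image, Finset.mem_range, Finset.mem_singleton]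
        constructor
        · rintro ⟨j, _, rfl⟩
          rw [h, hiter_o]
        · rintro rfl
          exact ⟨0, hP, by rw [h]; rfl⟩
      rw [himg, Finset.sum_singleton, if_pos h']
      have : ∀ j ∈ Finset.range P, x ^ j * sω ω * xi ^ j = 0 := by
        intro j _
        show x ^ j * (if rep ω = o then 0 else c (rep ω) • t (rep ω)) * xi ^ j = 0
        rw [if_pos h, mul_zero, zero_mul]
      rw [Finset.sum_eq_zero this, add_zero]
    · have h' : ¬ ω = mk o := fun h'' => h ((hrep_o ω).mpr h'')
      rw [Finset.sum_image (hinj (rep ω) h), if_neg h', zero_add]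
      apply Finset.sum_congr rfl
      intro j _
      show c ((⇑φ)^[j] (rep ω)) • t ((⇑φ)^[j] (rep ω))
        = x ^ j * (if rep ω = o then 0 else c (rep ω) • t (rep ω)) * xi ^ j
      rw [if_neg h, hc j (rep ω), mul_smul_comm, smul_mul_assoc]
  calc ∑ a, c a • t a = ∑ ω : Ω, ∑ a ∈ Finset.univ.filter (fun a => mk a = ω), c a • t a :=
        (Finset.sum_fiberwise Finset.univ mk (fun a => c a • t a)).symm
    _ = ∑ ω : Ω, ((if ω = mk o then c o • t o else 0)
          + ∑ j ∈ Finset.range P, x ^ j * sω ω * xi ^ j) := Finset.sum_congr rfl (fun ω _ => hfib ω)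
    _ = c o • t o + ∑ j ∈ Finset.range P, x ^ j * (∑ ω, sω ω) * xi ^ j := by
        rw [Finset.sum_add_distrib, Finset.sum_ite_eq' Finset.univ (mk o), if_pos (Finset.mem_univ _),
          Finset.sum_comm]
        congr 1
        apply Finset.sum_congr rfl
        intro j _
        rw [Finset.mul_sum, Finset.sum_mul]

end Orbit

section Jordan

/-- **Single Jordan block lemma.** `e` a unipotent operator of order dividing `p ^ n` in
characteristic `p` on a space of dimension `≥ 2`, such that every operator commuting with `e` is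
a scalar plus a trace `∑_{j < p^n} e^j s e^{-j}`.  Then `e - 1` has nilpotency index `p ^ n`, or
index `p ^ n - 1` and the dimension is `p ^ n - 1`. -/
theorem jordan_lemma {K : Type*} [Field K] (p : ℕ) [Fact p.Prime] [CharP K p]
    {U : Type*} [AddCommGroup U] [Module K U] [FiniteDimensional K U]
    (e ei : Module.End K U) (n : ℕ) (hn : 1 ≤ n) (hei : ei * e = 1)
    (hα : ∀ g : Module.End K U, e * g = g * e →
      ∃ (c : K) (s : Module.End K U), g = c • 1 + ∑ j ∈ Finset.range (p ^ n), e ^ j * s * ei ^ j)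
    (hd : 2 ≤ finrank K U) (r : ℕ) (hr : (e - 1) ^ r = 0) :
    p ^ n ≤ r ∨ (p ^ n - 1 ≤ r ∧ finrank K U = p ^ n - 1) := by
  classical
  have hp := (Fact.out : p.Prime)
  have hP2 : 2 ≤ p ^ n := by
    calc 2 ≤ p := hp.two_le
      _ = p ^ 1 := (pow_one p).symm
      _ ≤ p ^ n := Nat.pow_le_pow_right hp.pos hn
  by_cases hrP : p ^ n ≤ r
  · exact Or.inl hrP
  right
  push Not at hrP
  generalize hNdef : e - 1 = N at hr
  have heN : e = N + 1 := by rw [← hNdef]; abel
  have hNpow : ∀ m, r ≤ m → N ^ m = 0 := by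
    intro m hm
    obtain ⟨k, rfl⟩ := Nat.exists_eq_add_of_le hm
    rw [pow_add, hr, zero_mul]
  have hNP1 : N ^ (p ^ n - 1) = 0 := hNpow _ (by omega)
  have hgeom : (∑ j ∈ Finset.range (p ^ n), e ^ j) = 0 := by
    rw [geom_alg K p e n, hNdef]; exact hNP1
  have : Nontrivial U := Module.nontrivial_of_finrank_pos (R := K) (by omega)
  -- fixed vectors
  have hfixe : ∀ v : U, N v = 0 → e v = v := by
    intro v hv
    rw [heN, LinearMap.add_apply, hv, zero_add]; rfl
  have heiapp : ∀ v : U, ei (e v) = v := by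
    intro v
    have := congrArg (fun g : Module.End K U => g v) hei
    exact this
  have hfixei : ∀ v : U, N v = 0 → ei v = v := by
    intro v hv
    have h2 := heiapp v
    rw [hfixe v hv] at h2; exact h2
  have hfixeipow : ∀ (j : ℕ) (v : U), N v = 0 → (ei ^ j) v = v := by
    intro j v hv
    induction j with
    | zero => simp
    | succ j ih => rw [pow_succ, Module.End.mul_apply, hfixei v hv, ih]
  -- traces kill fixed vectors
  have htr0 : ∀ (s : Module.End K U) (v : U), N v = 0 →
      (∑ j ∈ Finset.range (p ^ n), e ^ j * s * ei ^ j) v = 0 := by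
    intro s v hv
    rw [LinearMap.sum_apply]
    have h1 : ∀ j ∈ Finset.range (p ^ n), (e ^ j * s * ei ^ j) v = (e ^ j) (s v) := by
      intro j _
      rw [Module.End.mul_apply, Module.End.mul_apply, hfixeipow j v hv]
    rw [Finset.sum_congr rfl h1, ← LinearMap.sum_apply, hgeom, LinearMap.zero_apply]
  -- nilpotency index
  have hex : ∃ a, N ^ a = 0 := ⟨r, hr⟩
  have ha : N ^ (Nat.find hex) = 0 := Nat.find_spec hex
  have hamin : ∀ m, m < Nat.find hex → N ^ m ≠ 0 := fun m hm => Nat.find_min hex hm
  have har : Nat.find hex ≤ r := Nat.find_min' hex hr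
  have hafin : Nat.find hex ≤ finrank K U := by
    apply Nat.find_min' hex
    have h1 := Module.End.ker_pow_eq_ker_pow_finrank_of_le (f := N)
      (m := finrank K U + Nat.find hex) (Nat.le_add_right _ _)
    rw [pow_add, ha, mul_zero, LinearMap.ker_zero] at h1
    exact LinearMap.ker_eq_top.mp h1.symm
  generalize Nat.find hex = a at ha hamin har hafin
  have ha1 : 1 ≤ a := by
    by_contra h
    have h0 : a = 0 := by omega
    rw [h0, pow_zero] at ha
    exact one_ne_zero ha
  obtain ⟨a', rfl⟩ : ∃ a', a = a' + 1 := ⟨a - 1, by omega⟩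
  obtain ⟨u, hu⟩ : ∃ u, (N ^ a') u ≠ 0 := by
    by_contra h
    push Not at h
    exact hamin a' (by omega) (LinearMap.ext h)
  have hNv₀ : N ((N ^ a') u) = 0 := by
    rw [← Module.End.mul_apply, ← pow_succ', ha, LinearMap.zero_apply]
  -- the functional
  obtain ⟨φ, hφ⟩ : ∃ φ : Module.Dual K U, φ ((N ^ a') u) = 1 := Projective.exists_dual_eq_one K hu
  let Pr : Module.End K U :=
    ∑ j ∈ Finset.range (a' + 1), (φ.comp (N ^ (a' - j))).smulRight ((N ^ j) u)
  have hPr : ∀ v, Pr v = ∑ j ∈ Finset.range (a' + 1), φ ((N ^ (a' - j)) v) • (N ^ j) u := by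
    intro v
    show (∑ j ∈ Finset.range (a' + 1), (φ.comp (N ^ (a' - j))).smulRight ((N ^ j) u)) v = _
    rw [LinearMap.sum_apply]
    rfl
  have hNPr : N * Pr = Pr * N := by
    apply LinearMap.ext
    intro v
    rw [Module.End.mul_apply, Module.End.mul_apply, hPr, hPr, map_sum, Finset.sum_range_succ,
      Finset.sum_range_succ']
    have h1 : N (φ ((N ^ (a' - a')) v) • (N ^ a') u) = 0 := by
      rw [map_smul, hNv₀, smul_zero]
    have h2 : φ ((N ^ (a' - 0)) (N v)) • (N ^ 0) u = 0 := by
      have : (N ^ (a' - 0)) (N v) = (N ^ (a' + 1)) v := by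
        rw [Nat.sub_zero, ← Module.End.mul_apply, ← pow_succ]
      rw [this, ha, LinearMap.zero_apply, map_zero, zero_smul]
    rw [h1, h2, add_zero, add_zero]
    apply Finset.sum_congr rfl
    intro j hj
    have hj' : j < a' := Finset.mem_range.mp hj
    have h3 : (N ^ (a' - (j + 1))) (N v) = (N ^ (a' - j)) v := by
      rw [← Module.End.mul_apply, ← pow_succ]
      congr 2
      omega
    rw [h3, map_smul, ← Module.End.mul_apply, ← pow_succ']
  have hePr : e * Pr = Pr * e := by
    rw [heN, add_mul, mul_add, hNPr, one_mul, mul_one]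
  obtain ⟨c, s, hcs⟩ := hα Pr hePr
  have hPrv₀ : Pr ((N ^ a') u) = (N ^ a') u := by
    rw [hPr, Finset.sum_range_succ]
    have h1 : ∀ j ∈ Finset.range a', φ ((N ^ (a' - j)) ((N ^ a') u)) • (N ^ j) u = 0 := by
      intro j hj
      have hj' : j < a' := Finset.mem_range.mp hj
      have : (N ^ (a' - j)) ((N ^ a') u) = 0 := by
        rw [← Module.End.mul_apply, ← pow_add]
        obtain ⟨k, hk⟩ : ∃ k, a' - j + a' = (a' + 1) + k := ⟨a' - j - 1, by omega⟩
        rw [hk, pow_add, ha, zero_mul, LinearMap.zero_apply]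
      rw [this, map_zero, zero_smul]
    rw [Finset.sum_eq_zero h1, zero_add, Nat.sub_self, pow_zero, Module.End.one_apply, hφ, one_smul]
  have hPrfix' : ∀ v, N v = 0 → Pr v = c • v := by
    intro v hv
    have h1 := congrArg (fun g : Module.End K U => g v) hcs
    simp only [LinearMap.add_apply, LinearMap.smul_apply, Module.End.one_apply] at h1
    rw [htr0 s v hv, add_zero] at h1
    exact h1
  have hc1 : c = 1 := by
    have h1 := hPrfix' _ hNv₀
    rw [hPrv₀] at h1
    have h2 : (1 - c) • (N ^ a') u = 0 := by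
      rw [sub_smul, one_smul, ← h1, sub_self]
    rcases smul_eq_zero.mp h2 with h | h
    · exact (sub_eq_zero.mp h).symm
    · exact absurd h hu
  have hPrfix : ∀ v, N v = 0 → Pr v = v := by
    intro v hv
    rw [hPrfix' v hv, hc1, one_smul]
  have hPrpow : ∀ k : ℕ, N ^ k * Pr = Pr * N ^ k := by
    intro k
    exact (Commute.pow_left (show Commute N Pr from hNPr) k).eq
  have hPrinj : Function.Injective Pr := by
    rw [← LinearMap.ker_eq_bot, LinearMap.ker_eq_bot']
    intro v hv
    by_contra hv0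
    have hex' : ∃ k, (N ^ k) v = 0 := ⟨a' + 1, by rw [ha, LinearMap.zero_apply]⟩
    have hk := Nat.find_spec hex'
    have hkmin : ∀ m, m < Nat.find hex' → (N ^ m) v ≠ 0 := fun m hm => Nat.find_min hex' hm
    generalize Nat.find hex' = k at hk hkmin
    have hk1 : 1 ≤ k := by
      by_contra h
      have h0 : k = 0 := by omega
      rw [h0, pow_zero, Module.End.one_apply] at hk
      exact hv0 hk
    obtain ⟨k', rfl⟩ : ∃ k', k = k' + 1 := ⟨k - 1, by omega⟩
    have hw : N ((N ^ k') v) = 0 := by
      rw [← Module.End.mul_apply, ← pow_succ', hk]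
    have h1 := hPrfix _ hw
    have h2 : Pr ((N ^ k') v) = (N ^ k') (Pr v) := by
      rw [← Module.End.mul_apply, ← hPrpow, Module.End.mul_apply]
    rw [h2, hv, map_zero] at h1
    exact hkmin k' (by omega) h1.symm
  have hPrsurj : Function.Surjective Pr := LinearMap.injective_iff_surjective.mp hPrinj
  have hdle : finrank K U ≤ a' + 1 := by
    have h1 : (⊤ : Submodule K U) ≤ Submodule.span K (Set.range (fun j : Fin (a' + 1) => (N ^ (j : ℕ)) u)) := by
      intro w _
      obtain ⟨v, rfl⟩ := hPrsurj w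
      rw [hPr]
      apply Submodule.sum_mem
      intro j hj
      apply Submodule.smul_mem
      exact Submodule.subset_span ⟨⟨j, Finset.mem_range.mp hj⟩, rfl⟩
    have h2 := Submodule.finrank_mono h1
    rw [finrank_top] at h2
    have h3 := finrank_range_le_card (R := K) (fun j : Fin (a' + 1) => (N ^ (j : ℕ)) u)
    rw [Fintype.card_fin] at h3
    exact h2.trans h3
  -- `N ^ (p ^ n - 2) ≠ 0`
  have hNP2 : N ^ (p ^ n - 2) ≠ 0 := by
    intro hz
    have heN' : e * N = N * e := by
      rw [heN, add_mul, mul_add, one_mul, mul_one]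
    obtain ⟨c', s', hN⟩ := hα N heN'
    have hc' : c' = 0 := by
      have h1 := congrArg (fun g : Module.End K U => g ((N ^ a') u)) hN
      simp only [LinearMap.add_apply, LinearMap.smul_apply, Module.End.one_apply] at h1
      rw [htr0 s' _ hNv₀, add_zero, hNv₀] at h1
      rcases smul_eq_zero.mp h1.symm with h | h
      · exact h
      · exact absurd h hu
    have hkey : ∀ v : U, N (N v) = 0 → N v = 0 := by
      intro v hv
      have hev : ∀ j : ℕ, (ei ^ j) v = v - (j : K) • N v := by
        intro j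
        induction j with
        | zero => simp
        | succ j ih =>
          have h1 : ei v = v - N v := by
            have h2 := heiapp v
            have h3 : e v = v + N v := by
              rw [heN, LinearMap.add_apply, Module.End.one_apply, add_comm]
            rw [h3, map_add, hfixei _ hv] at h2
            exact eq_sub_of_add_eq h2
          rw [pow_succ, Module.End.mul_apply, h1, map_sub, ih, hfixeipow j _ hv]
          push_cast
          rw [add_smul, one_smul]
          abel
      have h1 := congrArg (fun g : Module.End K U => g v) hN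
      simp only [LinearMap.add_apply, LinearMap.smul_apply, Module.End.one_apply] at h1
      rw [hc', zero_smul, zero_add, LinearMap.sum_apply] at h1
      have h2 : ∀ j ∈ Finset.range (p ^ n), (e ^ j * s' * ei ^ j) v
          = (e ^ j) (s' v) - ((j : K) • e ^ j) (s' (N v)) := by
        intro j _
        rw [Module.End.mul_apply, Module.End.mul_apply, hev j, map_sub, map_sub, map_smul, map_smul,
          LinearMap.smul_apply]
      rw [Finset.sum_congr rfl h2, Finset.sum_sub_distrib, ← LinearMap.sum_apply,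
        ← LinearMap.sum_apply, hgeom, deriv_alg K p e n hP2, hNdef, hz, zero_mul, neg_zero] at h1
      rw [h1]; simp
    have ha0 : a' = 0 := by
      by_contra hne
      obtain ⟨b, rfl⟩ : ∃ b, a' = b + 1 := ⟨a' - 1, by omega⟩
      apply hamin (b + 1) (by omega)
      apply LinearMap.ext
      intro v
      have h1 : N (N ((N ^ b) v)) = 0 := by
        have e1 : (N ^ (b + 1 + 1)) v = N (N ((N ^ b) v)) := by
          rw [pow_succ', pow_succ', Module.End.mul_apply, Module.End.mul_apply]
        rw [← e1, ha, LinearMap.zero_apply]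
      have h2 := hkey _ h1
      rw [pow_succ', Module.End.mul_apply, h2, LinearMap.zero_apply]
    rw [ha0] at hdle
    omega
  have hr1 : p ^ n - 1 ≤ r := by
    by_contra h
    exact hNP2 (hNpow _ (by omega))
  have ha2 : p ^ n - 1 ≤ a' + 1 := by
    by_contra h
    apply hNP2
    obtain ⟨k, hk⟩ : ∃ k, p ^ n - 2 = (a' + 1) + k := ⟨p ^ n - 2 - (a' + 1), by omega⟩
    rw [hk, pow_add, ha, zero_mul]
  exact ⟨hr1, by omega⟩

end Jordan

end Cfsg.Agent.Lib.Helper1.HHJordan
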