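import Mathlib
import Cfsg.Agent.Lib.Helper59.HHCore
import Cfsg.Agent.Lib.Helper1.HHJordan

/-!
# Hall--Higman core in the unipotent case

A nondegenerate projective representation `T` of a finite abelian group `I` on `W` (char `p`,
algebraically closed), normalized by a unit `X` of order dividing `p ^ n` acting on `I` through
`φ` with `φ^[p^(n-1)]` fixed-point-free.  Then the nilpotency index of `X - 1` is `p ^ n`, or it
is `p ^ n - 1` and `|I| = (p ^ n - 1) ^ 2`.

The first half of the proof (construction of the element of the span of `T` acting like `X⁻¹` on a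
faithful invariant subspace, simplicity, Wedderburn) follows `Helper59.HHCore.hh_abstract`.
-/

namespace Cfsg.Agent.Lib.Helper1.HHUnip

open Module Cfsg.Agent.Lib.Helper1.HHJordan

set_option maxHeartbeats 3200000 in
theorem unip_core {K : Type*} [Field K] [IsAlgClosed K] (p : ℕ) [Fact p.Prime] [CharP K p]
    {W : Type*} [AddCommGroup W] [Module K W] [FiniteDimensional K W] [Nontrivial W]
    {I : Type*} [Group I] [Finite I] [Nontrivial I]
    (hI : ∀ a b : I, a * b = b * a)
    (T : I → (Module.End K W)ˣ)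
    (hT : ∀ a b, ∃ c : K, (T a : Module.End K W) * T b = c • (T (a * b) : Module.End K W))
    (hnd : ∀ a, a ≠ 1 → ∃ b, (T b : Module.End K W) * T a ≠ T a * T b)
    (X : (Module.End K W)ˣ) (n : ℕ) (hn : 1 ≤ n) (hXP : X ^ (p ^ n) = 1)
    (φ : I ≃* I) (hφP : ∀ a, (⇑φ)^[p ^ n] a = a)
    (hfpfn : ∀ a, (⇑φ)^[p ^ (n - 1)] a = a → a = 1)
    (hX : ∀ a, ∃ c : K, (X : Module.End K W) * T a = c • ((T (φ a) : Module.End K W) * X))
    (r : ℕ) (hr : ((X : Module.End K W) - 1) ^ r = 0) :
    p ^ n ≤ r ∨ (p ^ n - 1 ≤ r ∧ Nat.card I = (p ^ n - 1) ^ 2) := by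
  classical
  have hp := (Fact.out : p.Prime)
  have hP1 : 1 ≤ p ^ n := Nat.one_le_pow _ _ hp.pos
  have hfpf : ∀ a, φ a = a → a = 1 := fun a ha => hfpfn a (Function.iterate_fixed ha _)
  letI : Fintype I := Fintype.ofFinite I
  choose α hα using hT
  choose γ hγ using hX
  -- abbreviations
  let t : I → Module.End K W := fun a => (T a : Module.End K W)
  let ti : I → Module.End K W := fun a => ((T a)⁻¹ : (Module.End K W)ˣ)
  let x : Module.End K W := (X : Module.End K W)
  let xi : Module.End K W := ((X⁻¹ : (Module.End K W)ˣ) : Module.End K W)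
  have htti : ∀ a, t a * ti a = 1 := fun a => Units.mul_inv (T a)
  have htit : ∀ a, ti a * t a = 1 := fun a => Units.inv_mul (T a)
  have hxxi : x * xi = 1 := Units.mul_inv X
  have hxix : xi * x = 1 := Units.inv_mul X
  have hα' : ∀ a b, t a * t b = α a b • t (a * b) := hα
  have hγ' : ∀ a, x * t a = γ a • (t (φ a) * x) := hγ
  have ht0 : ∀ a, t a ≠ 0 := fun a => (T a).ne_zero
  have hα0 : ∀ a b, α a b ≠ 0 := by
    intro a b h
    have h1 := hα' a b
    rw [h, zero_smul] at h1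
    exact (T a * T b).ne_zero h1
  have hγ0 : ∀ a, γ a ≠ 0 := by
    intro a h
    have h1 := hγ' a
    rw [h, zero_smul] at h1
    exact (X * T a).ne_zero h1
  have ht1 : t 1 = α 1 1 • (1 : Module.End K W) := by
    have h1 := hα' 1 1
    rw [mul_one] at h1
    calc t 1 = t 1 * (t 1 * ti 1) := by rw [htti, mul_one]
      _ = (t 1 * t 1) * ti 1 := by rw [mul_assoc]
      _ = α 1 1 • (1 : Module.End K W) := by rw [h1, smul_mul_assoc, htti]
  -- commutation scalars
  let β : I → I → K := fun b a => α b a * (α a b)⁻¹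
  have hβ : ∀ a b, t b * t a = β b a • (t a * t b) := by
    intro a b
    rw [hα' b a, hα' a b, smul_smul, hI b a]
    congr 1
    show α b a = α b a * (α a b)⁻¹ * α a b
    rw [mul_assoc, inv_mul_cancel₀ (hα0 a b), mul_one]
  have hβ0 : ∀ a b, β b a ≠ 0 := fun a b => mul_ne_zero (hα0 b a) (inv_ne_zero (hα0 a b))
  -- conjugation maps
  let cj : I → Module.End K W →ₗ[K] Module.End K W := fun b =>
    (LinearMap.mulLeft K (t b)).comp (LinearMap.mulRight K (ti b))
  have hcj : ∀ b u, cj b u = t b * (u * ti b) := fun b u => rfl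
  have hχ : ∀ a b, cj b (t a) = β b a • t a := by
    intro a b
    rw [hcj, ← mul_assoc, hβ, smul_mul_assoc, mul_assoc, htti, mul_one]
  have hdist : ∀ a a', a ≠ a' → ∃ b, β b a ≠ β b a' := by
    intro a a' hne
    by_contra hall
    push Not at hall
    have hc : a'⁻¹ * a ≠ 1 := by
      intro h
      apply hne
      rw [inv_mul_eq_one] at h
      exact h.symm
    obtain ⟨b, hb⟩ := hnd _ hc
    apply hb
    have h1 : t (a'⁻¹ * a) = (α a' (a'⁻¹ * a)) • (ti a' * t a) := by
      have h2 := hα' a' (a'⁻¹ * a)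
      rw [mul_inv_cancel_left] at h2
      rw [← mul_smul_comm, ← h2, ← mul_assoc, htit, one_mul]
    have h3 : t b * ti a' = (β b a')⁻¹ • (ti a' * t b) := by
      have h4 := hβ a' b
      calc t b * ti a' = ti a' * (t a' * t b) * ti a' := by
            rw [← mul_assoc, htit, one_mul]
        _ = (β b a')⁻¹ • (ti a' * (t b * t a') * ti a') := by
            rw [h4, mul_smul_comm, smul_mul_assoc, smul_smul, inv_mul_cancel₀ (hβ0 a' b), one_smul]
        _ = (β b a')⁻¹ • (ti a' * t b) := by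
            rw [mul_assoc, mul_assoc, htti, mul_one]
    have h5 : t b * (ti a' * t a) = (ti a' * t a) * t b := by
      rw [← mul_assoc, h3, smul_mul_assoc, mul_assoc, hβ a b, mul_smul_comm, smul_smul,
        hall b, inv_mul_cancel₀ (hβ0 a' b), one_smul, mul_assoc]
    show t b * t (a'⁻¹ * a) = t (a'⁻¹ * a) * t b
    rw [h1, mul_smul_comm, smul_mul_assoc, h5]
  -- separation
  have hsep : ∀ (J : Submodule K (Module.End K W)), (∀ b, ∀ u ∈ J, t b * (u * ti b) ∈ J) →
      ∀ c : I → K, ∑ a, c a • t a ∈ J → ∀ a, c a • t a ∈ J := by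
    intro J hJ c hc a
    exact Cfsg.Agent.Lib.Helper59.HHCore.weight_sep cj t (fun a b => β b a) hχ hdist J hJ Finset.univ c hc a (Finset.mem_univ a)
  have hli : LinearIndependent K t := by
    rw [Fintype.linearIndependent_iff]
    intro c hc a
    have h1 := hsep ⊥ (fun b u hu => by
      rw [Submodule.mem_bot] at hu ⊢
      rw [hu, zero_mul, mul_zero]) c (by rw [hc]; exact Submodule.zero_mem _) a
    rw [Submodule.mem_bot] at h1
    exact (smul_eq_zero.mp h1).resolve_right (ht0 a)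
  -- the span
  let 𝒮 : Submodule K (Module.End K W) := Submodule.span K (Set.range t)
  have hmem𝒮 : ∀ u, u ∈ 𝒮 ↔ ∃ c : I → K, ∑ a, c a • t a = u := fun u =>
    Submodule.mem_span_range_iff_exists_fun K
  have ht𝒮 : ∀ a, t a ∈ 𝒮 := fun a => Submodule.subset_span ⟨a, rfl⟩
  have h1𝒮 : (1 : Module.End K W) ∈ 𝒮 := by
    have : (1 : Module.End K W) = (α 1 1)⁻¹ • t 1 := by
      rw [ht1, smul_smul, inv_mul_cancel₀ (hα0 1 1), one_smul]
    rw [this]
    exact 𝒮.smul_mem _ (ht𝒮 1)
  have hmul𝒮 : ∀ u v, u ∈ 𝒮 → v ∈ 𝒮 → u * v ∈ 𝒮 := by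
    intro u v hu hv
    obtain ⟨c, rfl⟩ := (hmem𝒮 u).mp hu
    obtain ⟨c', rfl⟩ := (hmem𝒮 v).mp hv
    rw [Finset.sum_mul]
    apply Submodule.sum_mem
    intro a _
    rw [Finset.mul_sum]
    apply Submodule.sum_mem
    intro b _
    rw [smul_mul_assoc, mul_smul_comm, hα' a b]
    exact 𝒮.smul_mem _ (𝒮.smul_mem _ (𝒮.smul_mem _ (ht𝒮 _)))
  have hti : ∀ a, ti a = (α a a⁻¹ * α 1 1)⁻¹ • t a⁻¹ := by
    intro a
    have h1 := hα' a a⁻¹
    rw [mul_inv_cancel, ht1, smul_smul] at h1
    calc ti a = ti a * ((α a a⁻¹ * α 1 1)⁻¹ • (t a * t a⁻¹)) := by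
          rw [h1, smul_smul, inv_mul_cancel₀ (mul_ne_zero (hα0 _ _) (hα0 _ _)), one_smul, mul_one]
      _ = (α a a⁻¹ * α 1 1)⁻¹ • t a⁻¹ := by
          rw [mul_smul_comm, ← mul_assoc, htit, one_mul]
  have hti𝒮 : ∀ a, ti a ∈ 𝒮 := by
    intro a
    rw [hti]
    exact 𝒮.smul_mem _ (ht𝒮 _)
  let 𝒜 : Subalgebra K (Module.End K W) := 𝒮.toSubalgebra h1𝒮 hmul𝒮
  have hmem𝒜 : ∀ u, u ∈ 𝒜 ↔ u ∈ 𝒮 := fun u => Iff.rfl
  -- simplicity
  haveI hsimple : IsSimpleRing ↥𝒜 := by
    apply IsSimpleRing.of_eq_bot_or_eq_top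
    intro 𝔍
    by_cases h𝔍 : 𝔍 = ⊥
    · exact Or.inl h𝔍
    right
    have hex : ∃ u : ↥𝒜, u ∈ 𝔍 ∧ u ≠ 0 := by
      by_contra h
      push Not at h
      apply h𝔍
      ext u
      rw [TwoSidedIdeal.mem_bot]
      exact ⟨h u, fun hu => hu ▸ 𝔍.zero_mem⟩
    obtain ⟨u, hu𝔍, hu0⟩ := hex
    let J : Submodule K (Module.End K W) :=
      { carrier := {v | ∃ h : v ∈ 𝒜, (⟨v, h⟩ : ↥𝒜) ∈ 𝔍}
        add_mem' := by
          rintro v w ⟨hv, hv'⟩ ⟨hw, hw'⟩
          exact ⟨𝒜.add_mem hv hw, 𝔍.add_mem hv' hw'⟩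
        zero_mem' := ⟨𝒜.zero_mem, 𝔍.zero_mem⟩
        smul_mem' := by
          rintro c v ⟨hv, hv'⟩
          refine ⟨𝒜.smul_mem hv c, ?_⟩
          have h1 : (⟨c • v, 𝒜.smul_mem hv c⟩ : ↥𝒜) = algebraMap K ↥𝒜 c * ⟨v, hv⟩ := by
            rw [← Algebra.smul_def]; rfl
          rw [h1]
          exact 𝔍.mul_mem_left _ _ hv' }
    have hJmem : ∀ v, v ∈ J ↔ ∃ h : v ∈ 𝒜, (⟨v, h⟩ : ↥𝒜) ∈ 𝔍 := fun v => Iff.rfl
    have hJst : ∀ b, ∀ v ∈ J, t b * (v * ti b) ∈ J := by
      rintro b v ⟨hv, hv'⟩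
      refine ⟨𝒜.mul_mem (ht𝒮 b) (𝒜.mul_mem hv (hti𝒮 b)), ?_⟩
      have h1 : (⟨t b * (v * ti b), 𝒜.mul_mem (ht𝒮 b) (𝒜.mul_mem hv (hti𝒮 b))⟩ : ↥𝒜)
          = ⟨t b, ht𝒮 b⟩ * (⟨v, hv⟩ * ⟨ti b, hti𝒮 b⟩) := rfl
      rw [h1]
      exact 𝔍.mul_mem_left _ _ (𝔍.mul_mem_right _ _ hv')
    obtain ⟨c, hc⟩ := (hmem𝒮 (u : Module.End K W)).mp u.2
    have hcne : ∃ a, c a ≠ 0 := by
      by_contra h
      push Not at h
      apply hu0
      apply Subtype.ext
      rw [← hc]
      simp [h]
    obtain ⟨a, ha⟩ := hcne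
    have h2 : c a • t a ∈ J := hsep J hJst c (by rw [hc]; exact ⟨u.2, hu𝔍⟩) a
    have h3 : t a ∈ J := by
      have := J.smul_mem (c a)⁻¹ h2
      rwa [smul_smul, inv_mul_cancel₀ ha, one_smul] at this
    obtain ⟨h4, h5⟩ := h3
    rw [← TwoSidedIdeal.one_mem_iff]
    have h6 : (1 : ↥𝒜) = ⟨ti a, hti𝒮 a⟩ * ⟨t a, h4⟩ := by
      apply Subtype.ext
      show (1 : Module.End K W) = ti a * t a
      rw [htit]
    rw [h6]
    exact 𝔍.mul_mem_left _ _ h5
  -- the operator C
  let F : I → Module.End K W := fun a => ti a * x * t a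
  let C : Module.End K W := ∑ a, F a
  have hFmul : ∀ a b, F (a * b) = ti b * F a * t b := by
    intro a b
    have h1 : ((T a * T b : (Module.End K W)ˣ) : Module.End K W)
        = α a b • ((T (a * b) : (Module.End K W)ˣ) : Module.End K W) := by
      rw [Units.val_mul]; exact hα a b
    have h2 := Cfsg.Agent.Lib.Helper59.HHCore.conj_of_smul (T a * T b) (T (a * b)) (α a b) h1 x
    rw [mul_inv_rev, Units.val_mul, Units.val_mul] at h2
    have h3 : ti b * ti a * x * (t a * t b) = ti (a * b) * x * t (a * b) := h2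
    show ti (a * b) * x * t (a * b) = ti b * (ti a * x * t a) * t b
    rw [← h3]
    simp only [mul_assoc]
  have hCT' : ∀ b, ti b * C * t b = C := by
    intro b
    show ti b * (∑ a, F a) * t b = ∑ a, F a
    rw [Finset.mul_sum, Finset.sum_mul]
    conv_rhs => rw [← Equiv.sum_comp (Equiv.mulRight b) F]
    apply Finset.sum_congr rfl
    intro a _
    exact (hFmul a b).symm
  have hCT : ∀ b, C * t b = t b * C := by
    intro b
    calc C * t b = t b * (ti b * C * t b) := by rw [← mul_assoc, ← mul_assoc, htti, one_mul]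
      _ = t b * C := by rw [hCT' b]
  have hCti : ∀ b, C * ti b = ti b * C := by
    intro b
    calc C * ti b = ti b * (t b * C) * ti b := by rw [← mul_assoc, htit, one_mul]
      _ = ti b * (C * t b) * ti b := by rw [hCT]
      _ = ti b * C := by rw [mul_assoc, mul_assoc, htti, mul_one]
  have hFφ : ∀ a, F a = xi * F (φ a) * x := by
    intro a
    have h1 : ((X * T a : (Module.End K W)ˣ) : Module.End K W)
        = γ a • ((T (φ a) * X : (Module.End K W)ˣ) : Module.End K W) := by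
      rw [Units.val_mul, Units.val_mul]; exact hγ a
    have h2 := Cfsg.Agent.Lib.Helper59.HHCore.conj_of_smul (X * T a) (T (φ a) * X) (γ a) h1 x
    rw [mul_inv_rev, mul_inv_rev, Units.val_mul, Units.val_mul, Units.val_mul, Units.val_mul] at h2
    have h3 : ti a * xi * x * (x * t a) = xi * ti (φ a) * x * (t (φ a) * x) := h2
    calc F a = ti a * xi * x * (x * t a) := by
          show ti a * x * t a = _
          rw [mul_assoc (ti a) xi x, hxix, mul_one, mul_assoc]
      _ = xi * ti (φ a) * x * (t (φ a) * x) := h3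
      _ = xi * F (φ a) * x := by
          show _ = xi * (ti (φ a) * x * t (φ a)) * x
          simp only [mul_assoc]
  have hCX' : xi * C * x = C := by
    show xi * (∑ a, F a) * x = ∑ a, F a
    rw [Finset.mul_sum, Finset.sum_mul]
    rw [← Equiv.sum_comp φ.toEquiv (fun a => xi * F a * x)]
    apply Finset.sum_congr rfl
    intro a _
    exact (hFφ a).symm
  have hCX : C * x = x * C := by
    calc C * x = x * (xi * C * x) := by rw [← mul_assoc, ← mul_assoc, hxxi, one_mul]
      _ = x * C := by rw [hCX']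
  have hCxi : C * xi = xi * C := by
    calc C * xi = xi * (x * C) * xi := by rw [← mul_assoc, hxix, one_mul]
      _ = xi * (C * x) * xi := by rw [hCX]
      _ = xi * C := by rw [mul_assoc, mul_assoc, hxxi, mul_one]
  -- the element Ξ
  let τ : I → I := fun a => a⁻¹ * φ a
  have hτinj : Function.Injective τ := by
    intro a b hab
    have h1 : a⁻¹ * φ a = b⁻¹ * φ b := hab
    have h2 : φ (a * b⁻¹) = a * b⁻¹ := by
      rw [map_mul, map_inv]
      have h3 : φ a = a * (b⁻¹ * φ b) := by rw [← h1, mul_inv_cancel_left]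
      rw [h3, mul_assoc, mul_assoc, mul_inv_cancel, mul_one]
    have h4 := hfpf _ h2
    exact mul_inv_eq_one.mp h4
  let τe : I ≃ I := Equiv.ofBijective τ (Finite.injective_iff_bijective.mp hτinj)
  let ξ : I → K := fun a => γ a * (α a (τ a))⁻¹
  have hξ0 : ∀ a, ξ a ≠ 0 := fun a => mul_ne_zero (hγ0 a) (inv_ne_zero (hα0 _ _))
  let Ξ : Module.End K W := C * xi
  have hΞ1 : Ξ = ∑ a, ξ a • t (τ a) := by
    show (∑ a, F a) * xi = _
    rw [Finset.sum_mul]
    apply Finset.sum_congr rfl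
    intro a _
    show ti a * x * t a * xi = (γ a * (α a (τ a))⁻¹) • t (τ a)
    have h1 : x * t a * xi = γ a • t (φ a) := by
      rw [hγ', smul_mul_assoc, mul_assoc, hxxi, mul_one]
    have h2 : ti a * t (φ a) = (α a (τ a))⁻¹ • t (τ a) := by
      have h3 := hα' a (τ a)
      have h4 : a * τ a = φ a := mul_inv_cancel_left a (φ a)
      rw [h4] at h3
      calc ti a * t (φ a) = (α a (τ a))⁻¹ • (ti a * (α a (τ a) • t (φ a))) := by
            rw [mul_smul_comm, smul_smul, inv_mul_cancel₀ (hα0 _ _), one_smul]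
        _ = (α a (τ a))⁻¹ • t (τ a) := by
            rw [← h3, ← mul_assoc, htit, one_mul]
    rw [mul_assoc (ti a) x (t a), mul_assoc (ti a), h1, mul_smul_comm, h2, smul_smul]
  let ξ' : I → K := fun b => ξ (τe.symm b)
  have hξ'0 : ∀ b, ξ' b ≠ 0 := fun b => hξ0 _
  have hΞ2 : Ξ = ∑ b, ξ' b • t b := by
    rw [hΞ1, ← Equiv.sum_comp τe (fun b => ξ' b • t b)]
    apply Finset.sum_congr rfl
    intro a _
    show ξ a • t (τ a) = ξ (τe.symm (τe a)) • t (τe a)
    rw [Equiv.symm_apply_apply]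
    rfl
  have hΞ𝒮 : Ξ ∈ 𝒮 := (hmem𝒮 Ξ).mpr ⟨ξ', hΞ2.symm⟩
  -- faithfulness on stable subspaces
  have hF : ∀ (U : Submodule K W), U ≠ ⊥ → (∀ b, ∀ w ∈ U, ti b w ∈ U) → ∀ c : I → K,
      (∀ w ∈ U, (∑ a, c a • t a) w = 0) → ∀ a, c a = 0 := by
    intro U hU hst c hc a
    let J : Submodule K (Module.End K W) :=
      { carrier := {u | ∀ w ∈ U, u w = 0}
        add_mem' := by
          intro u v hu hv w hw
          rw [LinearMap.add_apply, hu w hw, hv w hw, add_zero]
        zero_mem' := fun w _ => rfl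
        smul_mem' := by
          intro k u hu w hw
          rw [LinearMap.smul_apply, hu w hw, smul_zero] }
    have hJ : ∀ b, ∀ u ∈ J, t b * (u * ti b) ∈ J := by
      intro b u hu w hw
      show t b (u (ti b w)) = 0
      rw [hu _ (hst b w hw), map_zero]
    have h1 : c a • t a ∈ J := hsep J hJ c hc a
    obtain ⟨w, hw, hw0⟩ := (Submodule.ne_bot_iff _).mp hU
    have h2 : (c a • t a) w = 0 := h1 w hw
    rw [LinearMap.smul_apply] at h2
    rcases smul_eq_zero.mp h2 with h | h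
    · exact h
    · exfalso
      apply hw0
      have h3 : ti a (t a w) = w := by
        have := congrArg (fun g : Module.End K W => g w) (htit a)
        exact this
      rw [← h3, h, map_zero]
  -- C is injective
  have hCker : LinearMap.ker C = ⊥ := by
    by_contra hne
    have h1 := hF (LinearMap.ker C) hne (by
      intro b w hw
      rw [LinearMap.mem_ker] at hw ⊢
      have := congrArg (fun g : Module.End K W => g w) (hCti b)
      simp only [Module.End.mul_apply] at this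
      rw [this, hw, map_zero]) ξ' (by
      intro w hw
      rw [LinearMap.mem_ker] at hw
      rw [← hΞ2]
      show C (xi w) = 0
      have := congrArg (fun g : Module.End K W => g w) hCxi
      simp only [Module.End.mul_apply] at this
      rw [this, hw, map_zero]) 1
    exact hξ'0 1 h1
  -- an eigenspace of C
  obtain ⟨μ, hμ⟩ := Module.End.exists_eigenvalue C
  obtain ⟨v₀, hv₀⟩ := hμ.exists_hasEigenvector
  have hμ0 : μ ≠ 0 := by
    rintro rfl
    apply hv₀.2
    have h1 : v₀ ∈ LinearMap.ker C := by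
      rw [LinearMap.mem_ker, hv₀.apply_eq_smul, zero_smul]
    rw [hCker] at h1
    exact (Submodule.mem_bot K).mp h1
  let U : Submodule K W := Module.End.eigenspace C μ
  have hUmem : ∀ w, w ∈ U ↔ C w = μ • w := fun w => Module.End.mem_eigenspace_iff
  have hU : U ≠ ⊥ := (Submodule.ne_bot_iff _).mpr ⟨v₀, hv₀.1, hv₀.2⟩
  have hUst : ∀ g : Module.End K W, C * g = g * C → ∀ w ∈ U, g w ∈ U := by
    intro g hg w hw
    rw [hUmem] at hw ⊢
    have := congrArg (fun h : Module.End K W => h w) hg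
    simp only [Module.End.mul_apply] at this
    rw [this, hw, map_smul]
  have hC𝒮 : ∀ u ∈ 𝒮, C * u = u * C := by
    intro u hu
    obtain ⟨c, rfl⟩ := (hmem𝒮 u).mp hu
    rw [Finset.mul_sum, Finset.sum_mul]
    apply Finset.sum_congr rfl
    intro a _
    rw [mul_smul_comm, smul_mul_assoc, hCT]
  let Y : Module.End K W := μ⁻¹ • Ξ
  have hY𝒮 : Y ∈ 𝒮 := 𝒮.smul_mem _ hΞ𝒮
  have hYU : ∀ w ∈ U, Y w = xi w := by
    intro w hw
    show μ⁻¹ • C (xi w) = xi w
    have h1 := hUst xi hCxi w hw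
    rw [hUmem] at h1
    rw [h1, smul_smul, inv_mul_cancel₀ hμ0, one_smul]
  have hfaith : ∀ u ∈ 𝒮, (∀ w ∈ U, u w = 0) → u = 0 := by
    intro u hu h
    obtain ⟨c, rfl⟩ := (hmem𝒮 u).mp hu
    have h1 := hF U hU (fun b w hw => hUst (ti b) (hCti b) w hw) c h
    simp [h1]
  -- Wedderburn
  obtain ⟨d, hd0, ⟨eM⟩⟩ := IsSimpleRing.exists_algEquiv_matrix_of_isAlgClosed K ↥𝒜
  let Ψ : ↥𝒜 ≃ₐ[K] Module.End K (Fin d → K) := eM.trans Matrix.toLinAlgEquiv'
  have hcard : Fintype.card I = d * d := by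
    have h1 : finrank K ↥𝒮 = Fintype.card I := finrank_span_eq_card hli
    have h2 : finrank K ↥𝒜 = finrank K (Matrix (Fin d) (Fin d) K) := eM.toLinearEquiv.finrank_eq
    have h3 : finrank K ↥𝒜 = finrank K ↥𝒮 := rfl
    rw [← h1, ← h3, h2, Module.finrank_matrix]
    simp
  -- ===== the unipotent part =====
  have hfree : ∀ a : I, a ≠ 1 → ∀ j, 0 < j → j < p ^ n → (⇑φ)^[j] a ≠ a := by
    intro a ha j hj0 hjP h
    have h1 : Function.IsPeriodicPt (⇑φ) j a := h
    have h2 : Function.IsPeriodicPt (⇑φ) (p ^ n) a := hφP a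
    have h3 := h1.gcd h2
    obtain ⟨k, hk, hgk⟩ := (Nat.dvd_prime_pow hp).mp (Nat.gcd_dvd_right j (p ^ n))
    have hkn : k < n := by
      by_contra hge
      have hkn' : k = n := by omega
      have h4 : Nat.gcd j (p ^ n) ≤ j := Nat.le_of_dvd hj0 (Nat.gcd_dvd_left _ _)
      rw [hgk, hkn'] at h4
      omega
    have h4 : Function.IsPeriodicPt (⇑φ) (p ^ (n - 1)) a := by
      apply h3.trans_dvd
      rw [hgk]
      exact pow_dvd_pow p (by omega)
    exact ha (hfpfn a h4)
  have hxP : x ^ (p ^ n) = 1 := by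
    show ((X : (Module.End K W)ˣ) : Module.End K W) ^ (p ^ n) = 1
    rw [← Units.val_pow_eq_pow_val, hXP, Units.val_one]
  have hxiP : xi ^ (p ^ n) = 1 := by
    show ((X⁻¹ : (Module.End K W)ˣ) : Module.End K W) ^ (p ^ n) = 1
    rw [← Units.val_pow_eq_pow_val, inv_pow, hXP, inv_one, Units.val_one]
  have hxi_x : xi ^ (p ^ n - 1) = x := by
    have h1 : xi ^ (p ^ n - 1) * xi = 1 := by
      rw [← pow_succ, Nat.sub_add_cancel hP1, hxiP]
    calc xi ^ (p ^ n - 1) = xi ^ (p ^ n - 1) * (xi * x) := by rw [hxix, mul_one]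
      _ = x := by rw [← mul_assoc, h1, one_mul]
  have hYpow : ∀ (k : ℕ) (w : W), w ∈ U → (Y ^ k) w = (xi ^ k) w := by
    intro k
    induction k with
    | zero => intro w _; simp
    | succ k ih =>
      intro w hw
      rw [pow_succ, pow_succ, Module.End.mul_apply, Module.End.mul_apply, hYU w hw]
      exact ih _ (hUst xi hCxi w hw)
  have hxpowU : ∀ (k : ℕ) (w : W), w ∈ U → (x ^ k) w ∈ U := by
    intro k
    induction k with
    | zero => intro w hw; simpa using hw
    | succ k ih =>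
      intro w hw
      rw [pow_succ, Module.End.mul_apply]
      exact ih _ (hUst x hCX w hw)
  have hxipowU : ∀ (k : ℕ) (w : W), w ∈ U → (xi ^ k) w ∈ U := by
    intro k
    induction k with
    | zero => intro w hw; simpa using hw
    | succ k ih =>
      intro w hw
      rw [pow_succ, Module.End.mul_apply]
      exact ih _ (hUst xi hCxi w hw)
  let y : ↥𝒜 := ⟨Y, hY𝒮⟩
  have hyP : y ^ (p ^ n) = 1 := by
    apply Subtype.ext
    show Y ^ (p ^ n) = 1
    have h1 : Y ^ (p ^ n) - 1 ∈ 𝒮 := 𝒮.sub_mem (𝒜.pow_mem hY𝒮 _) h1𝒮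
    have h2 := hfaith _ h1 (by
      intro w hw
      rw [LinearMap.sub_apply, hYpow _ w hw, hxiP]
      simp)
    exact sub_eq_zero.mp h2
  let f : Module.End K (Fin d → K) := Ψ y
  have hfP : f ^ (p ^ n) = 1 := by
    show Ψ y ^ (p ^ n) = 1
    rw [← map_pow, hyP, map_one]
  let e : Module.End K (Fin d → K) := f ^ (p ^ n - 1)
  have hei : f * e = 1 := by
    show f * f ^ (p ^ n - 1) = 1
    rw [← pow_succ', Nat.sub_add_cancel hP1, hfP]
  have hfe : f = e ^ (p ^ n - 1) := by
    show f = (f ^ (p ^ n - 1)) ^ (p ^ n - 1)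
    rw [← pow_mul]
    obtain ⟨m, hm⟩ : ∃ m, (p ^ n - 1) * (p ^ n - 1) = p ^ n * m + 1 := by
      refine ⟨p ^ n - 2, ?_⟩
      obtain ⟨q, hq⟩ : ∃ q, p ^ n = q + 2 := ⟨p ^ n - 2, by
        have : 2 ≤ p ^ n := by
          calc 2 ≤ p := hp.two_le
            _ = p ^ 1 := (pow_one p).symm
            _ ≤ p ^ n := Nat.pow_le_pow_right hp.pos hn
        omega⟩
      rw [hq]
      simp only [Nat.add_sub_cancel]
      have : q + 2 - 1 = q + 1 := by omega
      rw [this]
      ring
    rw [hm, pow_add, pow_mul, hfP, one_pow, one_mul, pow_one]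
  -- `Y ^ (P - 1)` acts as `x` on `U`
  have hYxU : ∀ (k : ℕ) (w : W), w ∈ U → ((Y ^ (p ^ n - 1)) ^ k) w = (x ^ k) w := by
    intro k w hw
    rw [← pow_mul, hYpow _ w hw, pow_mul, hxi_x]
  -- the nilpotency transfers
  have her : (e - 1) ^ r = 0 := by
    have h1 : (Y ^ (p ^ n - 1) - 1) ^ r ∈ 𝒮 :=
      𝒜.pow_mem (𝒜.sub_mem (𝒜.pow_mem hY𝒮 _) h1𝒮) r
    have hstep : ∀ w ∈ U, (Y ^ (p ^ n - 1) - 1) w = (x - 1) w := by
      intro w hw
      have := hYxU 1 w hw
      rw [pow_one, pow_one] at this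
      rw [LinearMap.sub_apply, LinearMap.sub_apply, this]
    have hx1U : ∀ w ∈ U, (x - 1) w ∈ U := by
      intro w hw
      rw [LinearMap.sub_apply]
      exact U.sub_mem (hUst x hCX w hw) (by simpa using hw)
    have hpow : ∀ (k : ℕ) (w : W), w ∈ U → ((Y ^ (p ^ n - 1) - 1) ^ k) w = ((x - 1) ^ k) w := by
      intro k
      induction k with
      | zero => intro w _; simp
      | succ k ih =>
        intro w hw
        rw [pow_succ, pow_succ, Module.End.mul_apply, Module.End.mul_apply, hstep w hw]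
        exact ih _ (hx1U w hw)
    have h2 : (Y ^ (p ^ n - 1) - 1) ^ r = 0 := by
      apply hfaith _ h1
      intro w hw
      rw [hpow r w hw, hr, LinearMap.zero_apply]
    have h3 : (y ^ (p ^ n - 1) - 1) ^ r = 0 := Subtype.ext h2
    show (Ψ y ^ (p ^ n - 1) - 1) ^ r = 0
    rw [← map_pow, ← map_one Ψ, ← map_sub, ← map_pow, h3, map_zero]
  -- the centralizer of `e`
  have hx𝒮 : ∀ u ∈ 𝒮, x * u * xi ∈ 𝒮 := by
    intro u hu
    obtain ⟨c, rfl⟩ := (hmem𝒮 u).mp hu
    rw [Finset.mul_sum, Finset.sum_mul]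
    apply Submodule.sum_mem
    intro a _
    rw [mul_smul_comm, smul_mul_assoc, hγ', smul_mul_assoc, mul_assoc, hxxi, mul_one]
    exact 𝒮.smul_mem _ (𝒮.smul_mem _ (ht𝒮 _))
  have hxxi_apply : ∀ w, x (xi w) = w := by
    intro w
    have := congrArg (fun g : Module.End K W => g w) hxxi
    exact this
  have hα : ∀ g : Module.End K (Fin d → K), e * g = g * e →
      ∃ (c : K) (s : Module.End K (Fin d → K)),
        g = c • 1 + ∑ j ∈ Finset.range (p ^ n), e ^ j * s * f ^ j := by
    intro g hge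
    have hg : f * g = g * f := by
      rw [hfe]
      exact (Commute.pow_left (show Commute e g from hge) _).eq
    let u : ↥𝒜 := Ψ.symm g
    have hyu : y * u = u * y := by
      apply Ψ.injective
      rw [map_mul, map_mul]
      show f * Ψ (Ψ.symm g) = Ψ (Ψ.symm g) * f
      rw [Ψ.apply_symm_apply, hg]
    have hYu : Y * (u : Module.End K W) = (u : Module.End K W) * Y := congrArg Subtype.val hyu
    have hu𝒮 : (u : Module.End K W) ∈ 𝒮 := u.2
    have h1 : x * (u : Module.End K W) * xi - (u : Module.End K W) = 0 := by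
      apply hfaith _ (𝒮.sub_mem (hx𝒮 _ hu𝒮) hu𝒮)
      intro w hw
      rw [LinearMap.sub_apply, Module.End.mul_apply, Module.End.mul_apply, ← hYU w hw]
      have h2 : (u : Module.End K W) (Y w) = Y ((u : Module.End K W) w) := by
        have := congrArg (fun g : Module.End K W => g w) hYu
        exact this.symm
      rw [h2, hYU _ (hUst _ (hC𝒮 _ hu𝒮) w hw), hxxi_apply, sub_self]
    have h4 : x * (u : Module.End K W) = (u : Module.End K W) * x := by
      have h5 : x * (u : Module.End K W) * xi = (u : Module.End K W) := sub_eq_zero.mp h1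
      calc x * (u : Module.End K W) = x * (u : Module.End K W) * xi * x := by
            rw [mul_assoc _ xi x, hxix, mul_one]
        _ = (u : Module.End K W) * x := by rw [h5]
    obtain ⟨c, hc⟩ := (hmem𝒮 _).mp hu𝒮
    have hinv : ∀ a, c (φ a) = c a * γ a := by
      intro a
      have hcx : x * (∑ a, c a • t a) = (∑ a, c a • t a) * x := by rw [hc]; exact h4
      have h1 : x * (∑ a, c a • t a) = (∑ a, (c a * γ a) • t (φ a)) * x := by
        rw [Finset.mul_sum, Finset.sum_mul]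
        apply Finset.sum_congr rfl
        intro a _
        rw [mul_smul_comm, hγ', smul_smul, smul_mul_assoc]
      have h2 : (∑ a, c a • t a) = ∑ a, c (φ a) • t (φ a) :=
        (Equiv.sum_comp φ.toEquiv (fun a => c a • t a)).symm
      have h3 : (∑ a, (c a * γ a) • t (φ a)) * x = (∑ a, c (φ a) • t (φ a)) * x := by
        rw [← h1, hcx, h2]
      have h4 : ∑ a, (c a * γ a) • t (φ a) = ∑ a, c (φ a) • t (φ a) := by
        calc ∑ a, (c a * γ a) • t (φ a) = (∑ a, (c a * γ a) • t (φ a)) * x * xi := by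
              rw [mul_assoc, hxxi, mul_one]
          _ = ∑ a, c (φ a) • t (φ a) := by rw [h3, mul_assoc, hxxi, mul_one]
      have h5 : ∑ a, (c (φ a) - c a * γ a) • t (φ a) = 0 := by
        simp only [sub_smul]
        rw [Finset.sum_sub_distrib, h4, sub_self]
      have hli' : LinearIndependent K (t ∘ φ) := hli.comp φ φ.injective
      have h6 := Fintype.linearIndependent_iff.mp hli' (fun a => c (φ a) - c a * γ a) h5 a
      exact sub_eq_zero.mp h6
    have hcjj : ∀ (j : ℕ) (a : I), c ((⇑φ.toEquiv)^[j] a) • t ((⇑φ.toEquiv)^[j] a)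
        = c a • (x ^ j * t a * xi ^ j) := by
      intro j a
      induction j with
      | zero => simp
      | succ j ih =>
        rw [Function.iterate_succ_apply']
        have h1 : ∀ b : I, x * t b * xi = γ b • t (φ b) := by
          intro b
          rw [hγ', smul_mul_assoc, mul_assoc, hxxi, mul_one]
        generalize (⇑φ.toEquiv)^[j] a = b at ih ⊢
        calc c (φ.toEquiv b) • t (φ.toEquiv b) = c (φ b) • t (φ b) := rfl
          _ = c b • (x * t b * xi) := by rw [hinv, mul_smul, h1]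
          _ = x * (c b • t b) * xi := by rw [mul_smul_comm, smul_mul_assoc]
          _ = x * (c a • (x ^ j * t a * xi ^ j)) * xi := by rw [ih]
          _ = c a • (x ^ (j + 1) * t a * xi ^ (j + 1)) := by
              rw [mul_smul_comm, smul_mul_assoc, pow_succ', pow_succ]
              simp only [mul_assoc]
    obtain ⟨s, hs, hsum⟩ := orbit_trace (K := K) φ.toEquiv (p ^ n) hP1 hφP 1 (map_one φ)
      hfree t x xi c hcjj
    have hs𝒮 : s ∈ 𝒮 := hs
    refine ⟨c 1 * α 1 1, Ψ ⟨s, hs𝒮⟩, ?_⟩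
    have hconj : ∀ j : ℕ, x ^ j * s * xi ^ j = (Y ^ (p ^ n - 1)) ^ j * s * Y ^ j := by
      intro j
      have hm1 : x ^ j * s * xi ^ j ∈ 𝒮 := by
        induction j with
        | zero => simpa using hs𝒮
        | succ j ih =>
          have := hx𝒮 _ ih
          have e1 : x * (x ^ j * s * xi ^ j) * xi = x ^ (j + 1) * s * xi ^ (j + 1) := by
            rw [pow_succ', pow_succ]; simp only [mul_assoc]
          rwa [e1] at this
      have hm2 : (Y ^ (p ^ n - 1)) ^ j * s * Y ^ j ∈ 𝒮 :=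
        𝒜.mul_mem (𝒜.mul_mem (𝒜.pow_mem (𝒜.pow_mem hY𝒮 _) _) hs𝒮) (𝒜.pow_mem hY𝒮 _)
      have h0 := hfaith _ (𝒮.sub_mem hm1 hm2) (by
        intro w hw
        rw [LinearMap.sub_apply, Module.End.mul_apply, Module.End.mul_apply, Module.End.mul_apply,
          Module.End.mul_apply, hYpow j w hw,
          hYxU j _ (hUst _ (hC𝒮 _ hs𝒮) _ (hxipowU j w hw)), sub_self])
      exact sub_eq_zero.mp h0
    have hu_eq : u = (c 1 * α 1 1) • (1 : ↥𝒜)
        + ∑ j ∈ Finset.range (p ^ n), (y ^ (p ^ n - 1)) ^ j * ⟨s, hs𝒮⟩ * y ^ j := by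
      apply Subtype.ext
      have hval : ((∑ j ∈ Finset.range (p ^ n), (y ^ (p ^ n - 1)) ^ j * ⟨s, hs𝒮⟩ * y ^ j : ↥𝒜)
          : Module.End K W) = ∑ j ∈ Finset.range (p ^ n), (Y ^ (p ^ n - 1)) ^ j * s * Y ^ j := by
        rw [← Subalgebra.coe_val, map_sum]
        rfl
      show (u : Module.End K W) = (c 1 * α 1 1) • (1 : Module.End K W) + _
      rw [hval, ← hc, hsum, ht1, smul_smul]
      congr 1
      exact Finset.sum_congr rfl (fun j _ => hconj j)
    have hg_eq : g = Ψ u := (Ψ.apply_symm_apply g).symm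
    rw [hg_eq, hu_eq, map_add, map_smul, map_one, map_sum]
    congr 1
    apply Finset.sum_congr rfl
    intro j _
    rw [map_mul, map_mul, map_pow, map_pow, map_pow]
  have hd2 : 2 ≤ finrank K (Fin d → K) := by
    rw [Module.finrank_fin_fun]
    have hm2 : 2 ≤ Fintype.card I := Fintype.one_lt_card
    rw [hcard] at hm2
    by_contra h
    have : d ≤ 1 := by omega
    have : d * d ≤ 1 := by nlinarith
    omega
  rcases jordan_lemma p e f n hn hei hα hd2 r her with h | ⟨h1, h2⟩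
  · exact Or.inl h
  · right
    refine ⟨h1, ?_⟩
    rw [Module.finrank_fin_fun] at h2
    rw [Nat.card_eq_fintype_card, hcard, h2]
    ring

end Cfsg.Agent.Lib.Helper1.HHUnip
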