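import Mathlib
import Cfsg.Agent.Lib.Helper1.HHJordan

/-!
# Weight spaces of a commuting semisimple subgroup of `GL(W)` and their translates
-/

namespace Cfsg.Agent.Lib.Helper1.HHW

open Module Cfsg.Agent.Lib.Helper1.HHJordan

variable {K : Type*} [Field K] {W : Type*} [AddCommGroup W] [Module K W]

/-- coercion `GL(W) → End(W)` as a monoid hom -/
abbrev toE : (W ≃ₗ[K] W) →* Module.End K W := LinearEquiv.automorphismGroup.toLinearMapMonoidHom

theorem toE_apply (g : W ≃ₗ[K] W) (w : W) : toE g w = g w := rfl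

theorem toE_eq (g : W ≃ₗ[K] W) : toE g = (g : W →ₗ[K] W) := rfl

theorem toE_injective : Function.Injective (toE : (W ≃ₗ[K] W) → Module.End K W) := by
  intro g h hgh
  ext w
  exact congrArg (fun f : Module.End K W => f w) hgh

theorem inv_apply_apply (g : W ≃ₗ[K] W) (w : W) : g⁻¹ (g w) = w := by
  rw [← LinearEquiv.mul_apply, inv_mul_cancel]; rfl

theorem apply_inv_apply (g : W ≃ₗ[K] W) (w : W) : g (g⁻¹ w) = w := by
  rw [← LinearEquiv.mul_apply, mul_inv_cancel]; rfl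

/-- The family of endomorphisms attached to a subgroup of `GL(W)`. -/
def fam (A : Subgroup (W ≃ₗ[K] W)) : A → Module.End K W := fun a => toE (a : W ≃ₗ[K] W)

/-- Simultaneous eigenspace (weight space). -/
def wt (A : Subgroup (W ≃ₗ[K] W)) (χ : A → K) : Submodule K W :=
  ⨅ a : A, Module.End.eigenspace (fam A a) (χ a)

theorem mem_wt {A : Subgroup (W ≃ₗ[K] W)} {χ : A → K} {w : W} :
    w ∈ wt A χ ↔ ∀ a : A, (a : W ≃ₗ[K] W) w = χ a • w := by
  simp only [wt, Submodule.mem_iInf, Module.End.mem_eigenspace_iff]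
  rfl

theorem semisimple_of_pow {g : W ≃ₗ[K] W} [FiniteDimensional K W] {m : ℕ} (hg : g ^ m = 1)
    (hm : (m : K) ≠ 0) : (toE g).IsSemisimple := by
  apply Module.End.isSemisimple_of_squarefree_aeval_eq_zero
    (p := (Polynomial.X ^ m - 1 : Polynomial K))
    (Polynomial.X_pow_sub_one_separable_iff.mpr hm).squarefree
  rw [map_sub, map_pow, Polynomial.aeval_X, map_one, ← map_pow, hg, map_one, sub_self]

section Family

variable (A : Subgroup (W ≃ₗ[K] W))

theorem fam_commute (hcomm : ∀ a ∈ A, ∀ b ∈ A, a * b = b * a) (a b : A) :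
    Commute (fam A a) (fam A b) := by
  show toE (a : W ≃ₗ[K] W) * toE (b : W ≃ₗ[K] W) = toE (b : W ≃ₗ[K] W) * toE (a : W ≃ₗ[K] W)
  rw [← map_mul, ← map_mul, hcomm a a.2 b b.2]

theorem wt_eq_gen [FiniteDimensional K W]
    (hss : ∀ a ∈ A, ∃ m : ℕ, a ^ m = 1 ∧ (m : K) ≠ 0) (χ : A → K) :
    (⨅ a : A, (fam A a).maxGenEigenspace (χ a)) = wt A χ := by
  apply iInf_congr
  intro a
  obtain ⟨m, hm, hmK⟩ := hss a a.2
  exact (semisimple_of_pow hm hmK).isFinitelySemisimple.maxGenEigenspace_eq_eigenspace (χ a)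

theorem iSup_wt [IsAlgClosed K] [FiniteDimensional K W]
    (hcomm : ∀ a ∈ A, ∀ b ∈ A, a * b = b * a)
    (hss : ∀ a ∈ A, ∃ m : ℕ, a ^ m = 1 ∧ (m : K) ≠ 0) :
    ⨆ χ : A → K, wt A χ = ⊤ := by
  have h := Module.End.iSup_iInf_maxGenEigenspace_eq_top_of_iSup_maxGenEigenspace_eq_top_of_commute
    (fam A) (fun a b _ => fam_commute A hcomm a b)
    (fun a => Module.End.iSup_maxGenEigenspace_eq_top (fam A a))
  rw [← h]
  exact iSup_congr (fun χ => (wt_eq_gen A hss χ).symm)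

theorem indep_wt [FiniteDimensional K W]
    (hcomm : ∀ a ∈ A, ∀ b ∈ A, a * b = b * a)
    (hss : ∀ a ∈ A, ∃ m : ℕ, a ^ m = 1 ∧ (m : K) ≠ 0) :
    iSupIndep (wt A) := by
  have h := Module.End.independent_iInf_maxGenEigenspace_of_forall_mapsTo (fam A)
    (fun a b μ => Module.End.mapsTo_maxGenEigenspace_of_comm (fam_commute A hcomm b a) μ)
  have e : (fun χ : A → K => ⨅ a : A, (fam A a).maxGenEigenspace (χ a)) = wt A :=
    funext (wt_eq_gen A hss)
  rwa [e] at h

/-- An element normalizing `A` permutes the weight spaces. -/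
theorem map_wt (x : W ≃ₗ[K] W) (hx : ∀ a ∈ A, x * a * x⁻¹ ∈ A) (hx' : ∀ a ∈ A, x⁻¹ * a * x ∈ A)
    (χ : A → K) : ∃ χ' : A → K, (wt A χ).map (toE x) = wt A χ' := by
  refine ⟨fun a => χ ⟨x⁻¹ * a * x, hx' a a.2⟩, ?_⟩
  ext v
  rw [Submodule.mem_map, mem_wt]
  constructor
  · rintro ⟨w, hw, rfl⟩ a
    rw [mem_wt] at hw
    have h1 := hw ⟨x⁻¹ * a * x, hx' a a.2⟩
    have h2 : (a : W ≃ₗ[K] W) (x w) = x ((x⁻¹ * (a : W ≃ₗ[K] W) * x) w) := by
      rw [LinearEquiv.mul_apply, LinearEquiv.mul_apply, apply_inv_apply]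
    show (a : W ≃ₗ[K] W) (x w) = _ • x w
    rw [h2, h1, map_smul]
  · intro hv
    refine ⟨x⁻¹ v, ?_, apply_inv_apply x v⟩
    rw [mem_wt]
    intro a
    have h1 := hv ⟨x * a * x⁻¹, hx a a.2⟩
    have h2 : (a : W ≃ₗ[K] W) (x⁻¹ v) = x⁻¹ ((x * (a : W ≃ₗ[K] W) * x⁻¹) v) := by
      rw [LinearEquiv.mul_apply, LinearEquiv.mul_apply, inv_apply_apply]
    rw [h2, h1, map_smul]
    congr 2
    apply Subtype.ext
    show x⁻¹ * (x * (a : W ≃ₗ[K] W) * x⁻¹) * x = a
    group

end Family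

/-- iterating `map x` on submodules -/
theorem iterate_map (x : W ≃ₗ[K] W) (j : ℕ) (V : Submodule K W) :
    (fun V : Submodule K W => V.map (toE x))^[j] V = V.map (toE (x ^ j)) := by
  induction j with
  | zero => simp [toE]
  | succ j ih =>
    rw [Function.iterate_succ_apply', ih, pow_succ', map_mul, ← Submodule.map_comp]
    rfl

theorem map_injective (x : W ≃ₗ[K] W) {V V' : Submodule K W}
    (h : V.map (toE x) = V'.map (toE x)) : V = V' :=
  Submodule.map_injective_of_injective (f := toE x) x.injective h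

theorem conj_pow_mem (A : Subgroup (W ≃ₗ[K] W)) (x : W ≃ₗ[K] W) (hx : ∀ a ∈ A, x * a * x⁻¹ ∈ A)
    (j : ℕ) : ∀ a ∈ A, x ^ j * a * (x ^ j)⁻¹ ∈ A := by
  induction j with
  | zero => intro a ha; simpa using ha
  | succ j ih =>
    intro a ha
    have h1 := hx _ (ih a ha)
    have e : x * (x ^ j * a * (x ^ j)⁻¹) * x⁻¹ = x ^ (j + 1) * a * (x ^ (j + 1))⁻¹ := by
      rw [pow_succ']; group
    rwa [e] at h1

theorem conj_inv_mem (A : Subgroup (W ≃ₗ[K] W)) (x : W ≃ₗ[K] W) (hx : ∀ a ∈ A, x * a * x⁻¹ ∈ A)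
    {N : ℕ} (hN : 0 < N) (hxN : x ^ N = 1) : ∀ a ∈ A, x⁻¹ * a * x ∈ A := by
  intro a ha
  have h1 := conj_pow_mem A x hx (N - 1) a ha
  have e : x ^ (N - 1) = x⁻¹ := by
    have : x ^ (N - 1) * x = 1 := by rw [← pow_succ, Nat.sub_add_cancel hN, hxN]
    exact eq_inv_of_mul_eq_one_left this
  rwa [e, inv_inv] at h1

/-- **Translates of a weight space are independent.** -/
theorem translates_indep [FiniteDimensional K W] (A : Subgroup (W ≃ₗ[K] W))
    (hcomm : ∀ a ∈ A, ∀ b ∈ A, a * b = b * a)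
    (hss : ∀ a ∈ A, ∃ m : ℕ, a ^ m = 1 ∧ (m : K) ≠ 0)
    (x : W ≃ₗ[K] W) (hx : ∀ a ∈ A, x * a * x⁻¹ ∈ A) (hx' : ∀ a ∈ A, x⁻¹ * a * x ∈ A)
    (χ : A → K) (t : ℕ)
    (hper : ∀ j, 0 < j → j < t → (wt A χ).map (toE (x ^ j)) ≠ wt A χ)
    (v : ℕ → W) (hv : ∀ j, v j ∈ wt A χ)
    (hsum : ∑ j ∈ Finset.range t, (x ^ j) (v j) = 0) : ∀ j, j < t → v j = 0 := by
  classical
  by_cases hbot : wt A χ = ⊥
  · intro j _
    have := hv j
    rw [hbot, Submodule.mem_bot] at this
    exact this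
  have hχs : ∀ j : ℕ, ∃ χ' : A → K, (wt A χ).map (toE (x ^ j)) = wt A χ' := by
    intro j
    induction j with
    | zero => exact ⟨χ, by simp [toE]⟩
    | succ j ih =>
      obtain ⟨χ', h⟩ := ih
      obtain ⟨χ'', h'⟩ := map_wt A x hx hx' χ'
      refine ⟨χ'', ?_⟩
      rw [← h', ← h, pow_succ', map_mul, ← Submodule.map_comp]
      rfl
  choose χs hχs using hχs
  have hdist : ∀ i j, i < j → j < t → χs i ≠ χs j := by
    intro i j hij hjt h
    have h1 : (wt A χ).map (toE (x ^ i)) = (wt A χ).map (toE (x ^ j)) := by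
      rw [hχs i, hχs j, h]
    have h2 : (wt A χ).map (toE (x ^ j)) = ((wt A χ).map (toE (x ^ (j - i)))).map (toE (x ^ i)) := by
      rw [← Submodule.map_comp]
      have : x ^ j = x ^ i * x ^ (j - i) := by rw [← pow_add]; congr 1; omega
      rw [this, map_mul]
      rfl
    rw [h2] at h1
    exact hper (j - i) (by omega) (by omega) (map_injective _ h1).symm
  have hindep := indep_wt A hcomm hss
  intro i₀ hi₀
  have hmem : ∀ j, (x ^ j) (v j) ∈ wt A (χs j) := by
    intro j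
    rw [← hχs j]
    exact Submodule.mem_map_of_mem (hv j)
  have h1 : (x ^ i₀) (v i₀) = -∑ j ∈ (Finset.range t).erase i₀, (x ^ j) (v j) := by
    rw [← Finset.add_sum_erase _ _ (Finset.mem_range.mpr hi₀)] at hsum
    exact eq_neg_of_add_eq_zero_left hsum
  have h2 : (x ^ i₀) (v i₀) ∈ ⨆ (χ' : A → K) (_ : χ' ≠ χs i₀), wt A χ' := by
    rw [h1]
    apply Submodule.neg_mem
    apply Submodule.sum_mem
    intro j hj
    have hj1 : j ≠ i₀ := Finset.ne_of_mem_erase hj
    have hj2 : j < t := Finset.mem_range.mp (Finset.mem_of_mem_erase hj)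
    have hne : χs j ≠ χs i₀ := by
      rcases Nat.lt_or_gt_of_ne hj1 with h | h
      · exact hdist j i₀ h hi₀
      · exact (hdist i₀ j h hj2).symm
    exact Submodule.mem_iSup_of_mem (χs j) (Submodule.mem_iSup_of_mem hne (hmem j))
  have h3 := (iSupIndep_def.mp hindep (χs i₀)).le_bot ⟨hmem i₀, h2⟩
  rw [Submodule.mem_bot] at h3
  exact (x ^ i₀).injective (by rw [h3, map_zero])

/-- If `V` has period `p ^ n` and some period `0 < j < p ^ n`, it has period `p ^ (n - 1)`. -/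
theorem period_reduce (p : ℕ) [Fact p.Prime] {α : Type*} (F : α → α) (V : α) (n : ℕ)
    (hP : Function.IsPeriodicPt F (p ^ n) V) (j : ℕ) (hj0 : 0 < j) (hjP : j < p ^ n)
    (hj : Function.IsPeriodicPt F j V) : Function.IsPeriodicPt F (p ^ (n - 1)) V := by
  have hp := (Fact.out : p.Prime)
  have h3 := hj.gcd hP
  obtain ⟨k, hk, hgk⟩ := (Nat.dvd_prime_pow hp).mp (Nat.gcd_dvd_right j (p ^ n))
  have hkn : k < n := by
    by_contra hge
    have hkn' : k = n := by omega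
    have h4 : Nat.gcd j (p ^ n) ≤ j := Nat.le_of_dvd hj0 (Nat.gcd_dvd_left _ _)
    rw [hgk, hkn'] at h4
    omega
  apply h3.trans_dvd
  rw [hgk]
  exact pow_dvd_pow p (by omega)

/-- **Abelian case of Hall--Higman B.** If `x` of order dividing `p ^ n` normalizes a commuting
semisimple subgroup `A` not centralized by `x ^ (p ^ (n-1))`, then `(x - 1) ^ r = 0` forces
`p ^ n ≤ r`. -/
theorem abelian_bound [IsAlgClosed K] [FiniteDimensional K W] (p : ℕ) [Fact p.Prime] [CharP K p]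
    (A : Subgroup (W ≃ₗ[K] W))
    (hcomm : ∀ a ∈ A, ∀ b ∈ A, a * b = b * a)
    (hss : ∀ a ∈ A, ∃ m : ℕ, a ^ m = 1 ∧ (m : K) ≠ 0)
    (x : W ≃ₗ[K] W) (hx : ∀ a ∈ A, x * a * x⁻¹ ∈ A) (n : ℕ) (hxP : x ^ (p ^ n) = 1)
    (hy : ∃ a ∈ A, x ^ (p ^ (n - 1)) * a * (x ^ (p ^ (n - 1)))⁻¹ ≠ a)
    (r : ℕ) (hr : (toE x - 1) ^ r = 0) : p ^ n ≤ r := by
  classical
  have hp := (Fact.out : p.Prime)
  have hP0 : 0 < p ^ n := Nat.pos_of_ne_zero (pow_ne_zero _ hp.ne_zero)
  have hx' := conj_inv_mem A x hx hP0 hxP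
  generalize hydef : x ^ (p ^ (n - 1)) = y at hy
  have hex : ∃ χ : A → K, (wt A χ).map (toE y) ≠ wt A χ := by
    by_contra hall
    push Not at hall
    obtain ⟨a, ha, hne⟩ := hy
    apply hne
    have hagree : ∀ χ : A → K, ∀ w ∈ wt A χ, (y * a * y⁻¹) w = a w := by
      intro χ w hw
      have hw' : w ∈ (wt A χ).map (toE y) := by rw [hall χ]; exact hw
      obtain ⟨w', hw'mem, rfl⟩ := hw'
      have h1 := (mem_wt.mp hw'mem) ⟨a, ha⟩
      have h2 := (mem_wt.mp hw) ⟨a, ha⟩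
      show (y * a * y⁻¹) (y w') = a (y w')
      rw [LinearEquiv.mul_apply, LinearEquiv.mul_apply, inv_apply_apply, h1, map_smul]
      exact h2.symm
    have htop : (⊤ : Submodule K W) ≤ LinearMap.eqLocus (toE (y * a * y⁻¹)) (toE a) := by
      rw [← iSup_wt A hcomm hss]
      apply iSup_le
      intro χ w hw
      exact hagree χ w hw
    ext w
    exact htop (Submodule.mem_top (x := w))
  obtain ⟨χ, hχ⟩ := hex
  have hbot : wt A χ ≠ ⊥ := by
    intro h; apply hχ; rw [h, Submodule.map_bot]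
  have hper : ∀ j, 0 < j → j < p ^ n → (wt A χ).map (toE (x ^ j)) ≠ wt A χ := by
    intro j hj0 hjP h
    have h1 : Function.IsPeriodicPt (fun V : Submodule K W => V.map (toE x)) j (wt A χ) := by
      show (fun V : Submodule K W => V.map (toE x))^[j] (wt A χ) = wt A χ
      rw [iterate_map]; exact h
    have h2 : Function.IsPeriodicPt (fun V : Submodule K W => V.map (toE x)) (p ^ n) (wt A χ) := by
      show (fun V : Submodule K W => V.map (toE x))^[p ^ n] (wt A χ) = wt A χ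
      rw [iterate_map, hxP, map_one]
      exact Submodule.map_id _
    have h3 := period_reduce p _ (wt A χ) n h2 j hj0 hjP h1
    apply hχ
    have h4 : (fun V : Submodule K W => V.map (toE x))^[p ^ (n - 1)] (wt A χ) = wt A χ := h3
    rwa [iterate_map, hydef] at h4
  by_contra hlt
  push Not at hlt
  obtain ⟨w, hw, hw0⟩ := (Submodule.ne_bot_iff _).mp hbot
  have hNP : (toE x - 1) ^ (p ^ n - 1) = 0 := by
    obtain ⟨k, hk⟩ := Nat.exists_eq_add_of_le (show r ≤ p ^ n - 1 by omega)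
    rw [hk, pow_add, hr, zero_mul]
  have hgeom := geom_alg K p (toE x) n
  rw [hNP] at hgeom
  have hsum : ∑ j ∈ Finset.range (p ^ n), (x ^ j) w = 0 := by
    have := congrArg (fun f : Module.End K W => f w) hgeom
    simp only [LinearMap.sum_apply, LinearMap.zero_apply] at this
    rw [← this]
    apply Finset.sum_congr rfl
    intro j _
    rw [← map_pow]; rfl
  exact hw0 (translates_indep A hcomm hss x hx hx' χ (p ^ n) hper (fun _ => w) (fun _ => hw)
    hsum 0 hP0)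

end Cfsg.Agent.Lib.Helper1.HHW
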