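import Mathlib
import Cfsg.Agent.Lib.Helper1.HHUnip
import Cfsg.Agent.Lib.Helper1.HHW

/-!
# The critical configuration of Hall--Higman B inside `GL(W)`

A finite class-two subgroup `Q ≤ GL(W)` with scalar centre, normalized by `x` of order dividing
`p ^ n` with `x ^ (p ^ (n-1))` fixed-point-free modulo the centre.
-/

namespace Cfsg.Agent.Lib.Helper1.HHFinal

open Module Cfsg.Agent.Lib.Helper1.HHW Cfsg.Agent.Lib.Helper1.HHUnip

variable {K : Type*} [Field K] {W : Type*} [AddCommGroup W] [Module K W]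

/-- The unit of `End(W)` attached to an element of `GL(W)`. -/
def toU (g : W ≃ₗ[K] W) : (Module.End K W)ˣ where
  val := toE g
  inv := toE g⁻¹
  val_inv := by rw [← map_mul, mul_inv_cancel, map_one]
  inv_val := by rw [← map_mul, inv_mul_cancel, map_one]

theorem val_toU (g : W ≃ₗ[K] W) : ((toU g : (Module.End K W)ˣ) : Module.End K W) = toE g := rfl

set_option maxHeartbeats 1600000 in
theorem final_config [IsAlgClosed K] [FiniteDimensional K W] (p : ℕ) [Fact p.Prime] [CharP K p]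
    (Q : Subgroup (W ≃ₗ[K] W)) [Finite Q]
    (hnc : ∃ g ∈ Q, ∃ h ∈ Q, g * h ≠ h * g)
    (hcl2 : ∀ g ∈ Q, ∀ h ∈ Q, ∀ k ∈ Q, (g * h * g⁻¹ * h⁻¹) * k = k * (g * h * g⁻¹ * h⁻¹))
    (hZ : ∀ z ∈ Q, (∀ k ∈ Q, z * k = k * z) → ∃ c : K, ∀ w : W, z w = c • w)
    (x : W ≃ₗ[K] W) (hx : ∀ g ∈ Q, x * g * x⁻¹ ∈ Q)
    (n : ℕ) (hn : 1 ≤ n) (hxP : x ^ (p ^ n) = 1)
    (hfpf : ∀ g ∈ Q, (∀ k ∈ Q, (x ^ (p ^ (n - 1)) * g * (x ^ (p ^ (n - 1)))⁻¹ * g⁻¹) * k
        = k * (x ^ (p ^ (n - 1)) * g * (x ^ (p ^ (n - 1)))⁻¹ * g⁻¹)) → ∀ k ∈ Q, g * k = k * g)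
    (r : ℕ) (hr : (toE x - 1) ^ r = 0) :
    p ^ n ≤ r ∨ (p ^ n - 1 ≤ r ∧ Nat.card (Q ⧸ Subgroup.center Q) = (p ^ n - 1) ^ 2) := by
  classical
  have hp := (Fact.out : p.Prime)
  have hP0 : 0 < p ^ n := Nat.pos_of_ne_zero (pow_ne_zero _ hp.ne_zero)
  have hx' := conj_inv_mem Q x hx hP0 hxP
  have : Nontrivial W := by
    by_contra h
    rw [not_nontrivial_iff_subsingleton] at h
    obtain ⟨g, _, h', _, hgh⟩ := hnc
    apply hgh
    ext w
    exact Subsingleton.elim _ _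
  have hcen_iff : ∀ z : Q, z ∈ Subgroup.center Q ↔
      ∀ k ∈ Q, (z : W ≃ₗ[K] W) * k = k * (z : W ≃ₗ[K] W) := by
    intro z
    rw [Subgroup.mem_center_iff]
    constructor
    · intro h k hk
      have := h ⟨k, hk⟩
      exact (congrArg Subtype.val this).symm
    · intro h k
      exact Subtype.ext (h k k.2).symm
  have hsc : ∀ z : Q, z ∈ Subgroup.center Q →
      ∃ c : K, c ≠ 0 ∧ toE (z : W ≃ₗ[K] W) = c • (1 : Module.End K W) := by
    intro z hz
    obtain ⟨c, hc⟩ := hZ z z.2 ((hcen_iff z).mp hz)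
    refine ⟨c, ?_, ?_⟩
    · rintro rfl
      obtain ⟨w, hw⟩ := exists_ne (0 : W)
      have := hc w
      rw [zero_smul] at this
      exact hw ((LinearEquiv.map_eq_zero_iff _).mp this)
    · apply LinearMap.ext
      intro w
      rw [toE_apply, hc w]
      rfl
  -- the quotient is commutative
  have hI : ∀ a b : Q ⧸ Subgroup.center Q, a * b = b * a := by
    intro a b
    obtain ⟨g, rfl⟩ := QuotientGroup.mk_surjective a
    obtain ⟨h, rfl⟩ := QuotientGroup.mk_surjective b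
    rw [← QuotientGroup.mk_mul, ← QuotientGroup.mk_mul, QuotientGroup.eq, hcen_iff]
    intro k hk
    have := hcl2 _ (inv_mem h.2) _ (inv_mem g.2) k hk
    have e : (((g * h)⁻¹ * (h * g) : Q) : W ≃ₗ[K] W)
        = (h : W ≃ₗ[K] W)⁻¹ * (g : W ≃ₗ[K] W)⁻¹ * ((h : W ≃ₗ[K] W)⁻¹)⁻¹ * ((g : W ≃ₗ[K] W)⁻¹)⁻¹ := by
      push_cast
      group
    rw [e]
    exact this
  -- equal cosets differ by a scalar
  have hkey : ∀ g h : Q, (QuotientGroup.mk g : Q ⧸ Subgroup.center Q) = QuotientGroup.mk h →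
      ∃ c : K, c ≠ 0 ∧ toE (g : W ≃ₗ[K] W) = c • toE (h : W ≃ₗ[K] W) := by
    intro g h hgh
    have hz : h⁻¹ * g ∈ Subgroup.center Q := QuotientGroup.eq.mp hgh.symm
    obtain ⟨c, hc0, hc⟩ := hsc _ hz
    refine ⟨c, hc0, ?_⟩
    have e : (g : W ≃ₗ[K] W) = (h : W ≃ₗ[K] W) * ((h⁻¹ * g : Q) : W ≃ₗ[K] W) := by
      push_cast
      group
    rw [e, map_mul, hc, mul_smul_comm, mul_one]
  have hout : ∀ a : Q ⧸ Subgroup.center Q, (QuotientGroup.mk a.out : Q ⧸ Subgroup.center Q) = a :=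
    fun a => QuotientGroup.out_eq' a
  let T : Q ⧸ Subgroup.center Q → (Module.End K W)ˣ := fun a => toU ((a.out : Q) : W ≃ₗ[K] W)
  have hTval : ∀ a, ((T a : (Module.End K W)ˣ) : Module.End K W) = toE ((a.out : Q) : W ≃ₗ[K] W) :=
    fun a => rfl
  have hT : ∀ a b, ∃ c : K, (T a : Module.End K W) * T b = c • (T (a * b) : Module.End K W) := by
    intro a b
    have h1 : (QuotientGroup.mk (a.out * b.out) : Q ⧸ Subgroup.center Q)
        = QuotientGroup.mk (a * b).out := by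
      rw [QuotientGroup.mk_mul, hout, hout, hout]
    obtain ⟨c, _, hc⟩ := hkey _ _ h1
    refine ⟨c, ?_⟩
    rw [hTval, hTval, hTval, ← hc, ← map_mul]
    rfl
  have hnd : ∀ a : Q ⧸ Subgroup.center Q, a ≠ 1 →
      ∃ b, (T b : Module.End K W) * T a ≠ T a * T b := by
    intro a ha
    have hnot : a.out ∉ Subgroup.center Q := by
      intro h
      apply ha
      rw [← hout a]
      exact (QuotientGroup.eq_one_iff _).mpr h
    rw [hcen_iff] at hnot
    push Not at hnot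
    obtain ⟨k, hk, hne⟩ := hnot
    refine ⟨QuotientGroup.mk ⟨k, hk⟩, ?_⟩
    obtain ⟨c, hc0, hc⟩ := hkey _ _ (hout (QuotientGroup.mk ⟨k, hk⟩))
    rw [hTval, hTval, hc]
    intro h
    rw [smul_mul_assoc, mul_smul_comm] at h
    have h2 := smul_right_injective (Module.End K W) hc0 h
    rw [← map_mul, ← map_mul] at h2
    exact hne (toE_injective h2).symm
  let X : (Module.End K W)ˣ := toU x
  have hXP : X ^ (p ^ n) = 1 := by
    apply Units.ext
    rw [Units.val_pow_eq_pow_val, Units.val_one]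
    show toE x ^ (p ^ n) = 1
    rw [← map_pow, hxP, map_one]
  -- the automorphism
  let cx : Q ≃* Q :=
    { toFun := fun g => ⟨x * g * x⁻¹, hx g g.2⟩
      invFun := fun g => ⟨x⁻¹ * g * x, hx' g g.2⟩
      left_inv := by
        intro g
        apply Subtype.ext
        show x⁻¹ * (x * (g : W ≃ₗ[K] W) * x⁻¹) * x = g
        group
      right_inv := by
        intro g
        apply Subtype.ext
        show x * (x⁻¹ * (g : W ≃ₗ[K] W) * x) * x⁻¹ = g
        group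
      map_mul' := by
        intro g h
        apply Subtype.ext
        show x * ((g : W ≃ₗ[K] W) * h) * x⁻¹ = (x * g * x⁻¹) * (x * h * x⁻¹)
        group }
  have hmap : (Subgroup.center Q).map cx.toMonoidHom = Subgroup.center Q :=
    (Subgroup.characteristic_iff_map_eq.mp inferInstance) cx
  let φ : Q ⧸ Subgroup.center Q ≃* Q ⧸ Subgroup.center Q :=
    QuotientGroup.congr (Subgroup.center Q) (Subgroup.center Q) cx hmap
  have hφmk : ∀ g : Q, φ (QuotientGroup.mk g) = QuotientGroup.mk (cx g) := fun g => rfl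
  have hφiter : ∀ (j : ℕ) (g : Q), (⇑φ)^[j] (QuotientGroup.mk g)
      = QuotientGroup.mk (⟨x ^ j * g * (x ^ j)⁻¹, conj_pow_mem Q x hx j g g.2⟩ : Q) := by
    intro j g
    induction j with
    | zero =>
      show (QuotientGroup.mk g : Q ⧸ Subgroup.center Q) = _
      congr 1
    | succ j ih =>
      rw [Function.iterate_succ_apply', ih, hφmk]
      congr 1
      apply Subtype.ext
      show x * (x ^ j * (g : W ≃ₗ[K] W) * (x ^ j)⁻¹) * x⁻¹ = x ^ (j + 1) * g * (x ^ (j + 1))⁻¹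
      rw [pow_succ']
      group
  have hφP : ∀ a, (⇑φ)^[p ^ n] a = a := by
    intro a
    obtain ⟨g, rfl⟩ := QuotientGroup.mk_surjective a
    rw [hφiter]
    congr 1
    apply Subtype.ext
    show x ^ (p ^ n) * (g : W ≃ₗ[K] W) * (x ^ (p ^ n))⁻¹ = g
    rw [hxP]
    group
  have hfpfn : ∀ a, (⇑φ)^[p ^ (n - 1)] a = a → a = 1 := by
    intro a ha
    obtain ⟨g, rfl⟩ := QuotientGroup.mk_surjective a
    rw [hφiter] at ha
    have h1 := QuotientGroup.eq.mp ha.symm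
    rw [hcen_iff] at h1
    rw [QuotientGroup.eq_one_iff, hcen_iff]
    apply hfpf g g.2
    intro k hk
    have hg := h1 g g.2
    have e : x ^ (p ^ (n - 1)) * (g : W ≃ₗ[K] W) * (x ^ (p ^ (n - 1)))⁻¹ * (g : W ≃ₗ[K] W)⁻¹
        = (g : W ≃ₗ[K] W)⁻¹ * (x ^ (p ^ (n - 1)) * (g : W ≃ₗ[K] W) * (x ^ (p ^ (n - 1)))⁻¹) := by
      have hg' : (g : W ≃ₗ[K] W)⁻¹ * (x ^ (p ^ (n - 1)) * (g : W ≃ₗ[K] W) * (x ^ (p ^ (n - 1)))⁻¹)
          * g = g * ((g : W ≃ₗ[K] W)⁻¹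
            * (x ^ (p ^ (n - 1)) * (g : W ≃ₗ[K] W) * (x ^ (p ^ (n - 1)))⁻¹)) := hg
      calc x ^ (p ^ (n - 1)) * (g : W ≃ₗ[K] W) * (x ^ (p ^ (n - 1)))⁻¹ * (g : W ≃ₗ[K] W)⁻¹
          = (g * ((g : W ≃ₗ[K] W)⁻¹
            * (x ^ (p ^ (n - 1)) * (g : W ≃ₗ[K] W) * (x ^ (p ^ (n - 1)))⁻¹))) * (g : W ≃ₗ[K] W)⁻¹ := by
            group
        _ = ((g : W ≃ₗ[K] W)⁻¹ * (x ^ (p ^ (n - 1)) * (g : W ≃ₗ[K] W) * (x ^ (p ^ (n - 1)))⁻¹)
            * g) * (g : W ≃ₗ[K] W)⁻¹ := by rw [hg']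
        _ = _ := by group
    rw [e]
    exact h1 k hk
  have hX : ∀ a, ∃ c : K, (X : Module.End K W) * T a = c • ((T (φ a) : Module.End K W) * X) := by
    intro a
    have h1 : (QuotientGroup.mk (cx a.out) : Q ⧸ Subgroup.center Q)
        = QuotientGroup.mk (φ a).out := by
      rw [← hφmk, hout, hout]
    obtain ⟨c, _, hc⟩ := hkey _ _ h1
    refine ⟨c, ?_⟩
    rw [hTval, hTval]
    show toE x * toE ((a.out : Q) : W ≃ₗ[K] W) = c • (toE (((φ a).out : Q) : W ≃ₗ[K] W) * toE x)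
    rw [← smul_mul_assoc, ← hc, ← map_mul, ← map_mul]
    congr 1
    show x * ((a.out : Q) : W ≃ₗ[K] W) = (x * ((a.out : Q) : W ≃ₗ[K] W) * x⁻¹) * x
    group
  have : Nontrivial (Q ⧸ Subgroup.center Q) := by
    obtain ⟨g, hg, h, hh, hgh⟩ := hnc
    refine ⟨QuotientGroup.mk ⟨g, hg⟩, 1, ?_⟩
    rw [Ne, QuotientGroup.eq_one_iff, hcen_iff]
    intro hcen
    exact hgh (hcen h hh)
  exact unip_core p hI T hT hnd X n hn hXP φ hφP hfpfn hX r hr

end Cfsg.Agent.Lib.Helper1.HHFinal
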