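import Mathlib

/-!
# Group theory for Hall--Higman B: minimal non-centralized invariant `q`-subgroups
-/

namespace Cfsg.Agent.Lib.Helper1.HHGrp

variable {G : Type*} [Group G]

/-- A minimal `x`-invariant subgroup of `Q` not centralized by `y`. -/
theorem exists_minimal (x y : G) (Q : Subgroup G) [Finite Q]
    (hx : ∀ g ∈ Q, x * g * x⁻¹ ∈ Q) (hyQ : ∃ g ∈ Q, y * g * y⁻¹ ≠ g) :
    ∃ Q' : Subgroup G, Q' ≤ Q ∧ (∀ g ∈ Q', x * g * x⁻¹ ∈ Q') ∧ (∃ g ∈ Q', y * g * y⁻¹ ≠ g) ∧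
      ∀ R : Subgroup G, R < Q' → (∀ g ∈ R, x * g * x⁻¹ ∈ R) → ∀ g ∈ R, y * g * y⁻¹ = g := by
  obtain ⟨N, hN⟩ : ∃ N, Nat.card Q = N := ⟨_, rfl⟩
  induction N using Nat.strong_induction_on generalizing Q with
  | _ N ih =>
    by_cases hmin : ∀ R : Subgroup G, R < Q → (∀ g ∈ R, x * g * x⁻¹ ∈ R) →
        ∀ g ∈ R, y * g * y⁻¹ = g
    · exact ⟨Q, le_rfl, hx, hyQ, hmin⟩
    · push Not at hmin
      obtain ⟨R, hRQ, hRx, g, hg, hgy⟩ := hmin
      have : Finite R :=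
        Finite.of_injective (Subgroup.inclusion hRQ.le) (Subgroup.inclusion_injective _)
      have hcard : Nat.card R < Nat.card Q := by
        by_contra h
        push Not at h
        exact hRQ.ne (Subgroup.eq_of_le_of_card_ge hRQ.le h)
      obtain ⟨Q', h1, h2, h3, h4⟩ := ih (Nat.card R) (hN ▸ hcard) R hRx ⟨g, hg, hgy⟩ rfl
      exact ⟨Q', h1.trans hRQ.le, h2, h3, h4⟩

theorem conj_closure (S : Set G) (c : G) (hc : ∀ s ∈ S, c * s * c⁻¹ ∈ Subgroup.closure S) :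
    ∀ d ∈ Subgroup.closure S, c * d * c⁻¹ ∈ Subgroup.closure S := by
  intro d hd
  induction hd using Subgroup.closure_induction with
  | mem s hs => exact hc s hs
  | one => simp
  | mul a b _ _ iha ihb =>
    have : c * (a * b) * c⁻¹ = (c * a * c⁻¹) * (c * b * c⁻¹) := by group
    rw [this]; exact mul_mem iha ihb
  | inv a _ iha =>
    have : c * a⁻¹ * c⁻¹ = (c * a * c⁻¹)⁻¹ := by group
    rw [this]; exact inv_mem iha

theorem conj_commutator (Q : Subgroup G) (c : G) (hc : ∀ g ∈ Q, c * g * c⁻¹ ∈ Q) :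
    ∀ m ∈ ⁅Q, Q⁆, c * m * c⁻¹ ∈ ⁅Q, Q⁆ := by
  intro m hm
  have h1 : Subgroup.map (MulAut.conj c).toMonoidHom Q ≤ Q := by
    rintro _ ⟨g, hg, rfl⟩
    exact hc g hg
  have h2 : Subgroup.map (MulAut.conj c).toMonoidHom ⁅Q, Q⁆ ≤ ⁅Q, Q⁆ := by
    rw [Subgroup.map_commutator]
    exact Subgroup.commutator_mono h1 h1
  exact h2 ⟨m, hm, rfl⟩

set_option maxHeartbeats 800000 in
/-- Structure of a minimal configuration: class two, `y` fixed-point-free modulo the centre,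
and `y` centralizes the centre. -/
theorem minimal_struct (p q : ℕ) [Fact p.Prime] [Fact q.Prime] (hpq : p ≠ q)
    (Q : Subgroup G) [Finite Q] (hQ : IsPGroup q Q)
    (x y : G) (hxy : x * y = y * x) (hyp : y ^ p = 1)
    (hx : ∀ g ∈ Q, x * g * x⁻¹ ∈ Q) (hx' : ∀ g ∈ Q, x⁻¹ * g * x ∈ Q)
    (hy : ∀ g ∈ Q, y * g * y⁻¹ ∈ Q)
    (hnc : ∃ g ∈ Q, ∃ h ∈ Q, g * h ≠ h * g)
    (hmin : ∀ R : Subgroup G, R < Q → (∀ g ∈ R, x * g * x⁻¹ ∈ R) → ∀ g ∈ R, y * g * y⁻¹ = g)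
    (hyQ : ∃ g ∈ Q, y * g * y⁻¹ ≠ g) :
    (∀ g ∈ Q, ∀ h ∈ Q, ∀ k ∈ Q, (g * h * g⁻¹ * h⁻¹) * k = k * (g * h * g⁻¹ * h⁻¹)) ∧
    (∀ g ∈ Q, (∀ k ∈ Q, (y * g * y⁻¹ * g⁻¹) * k = k * (y * g * y⁻¹ * g⁻¹)) →
      ∀ k ∈ Q, g * k = k * g) ∧
    (∀ z ∈ Q, (∀ k ∈ Q, z * k = k * z) → y * z * y⁻¹ = z) := by
  classical
  have hp := (Fact.out : p.Prime)
  have hq := (Fact.out : q.Prime)
  have hcx : x * y * x⁻¹ = y := by rw [hxy, mul_inv_cancel_right]
  have hcom_mem : ∀ g ∈ Q, y * g * y⁻¹ * g⁻¹ ∈ Q := fun g hg => mul_mem (hy g hg) (inv_mem hg)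
  have hcomx : ∀ g : G, x * (y * g * y⁻¹ * g⁻¹) * x⁻¹
      = y * (x * g * x⁻¹) * y⁻¹ * (x * g * x⁻¹)⁻¹ := by
    intro g
    calc x * (y * g * y⁻¹ * g⁻¹) * x⁻¹
        = (x * y * x⁻¹) * (x * g * x⁻¹) * (x * y * x⁻¹)⁻¹ * (x * g * x⁻¹)⁻¹ := by group
      _ = y * (x * g * x⁻¹) * y⁻¹ * (x * g * x⁻¹)⁻¹ := by rw [hcx]
  -- the subgroup `D = [Q, y]`
  let S : Set G := {d | ∃ g ∈ Q, d = y * g * y⁻¹ * g⁻¹}
  let D : Subgroup G := Subgroup.closure S
  have hDQ : D ≤ Q := by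
    rw [Subgroup.closure_le]
    rintro _ ⟨g, hg, rfl⟩
    exact hcom_mem g hg
  have hDx : ∀ d ∈ D, x * d * x⁻¹ ∈ D := by
    apply conj_closure
    rintro _ ⟨g, hg, rfl⟩
    rw [hcomx]
    exact Subgroup.subset_closure ⟨_, hx g hg, rfl⟩
  have hDeq : D = Q := by
    by_contra hne
    have hlt : D < Q := lt_of_le_of_ne hDQ hne
    have hcen := hmin D hlt hDx
    obtain ⟨g, hg, hgy⟩ := hyQ
    apply hgy
    have hd : y * g * y⁻¹ * g⁻¹ ∈ D := Subgroup.subset_closure ⟨g, hg, rfl⟩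
    generalize hddef : y * g * y⁻¹ * g⁻¹ = d at hd
    have hyd : y * d * y⁻¹ = d := hcen d hd
    have hygd : y * g * y⁻¹ = d * g := by rw [← hddef]; group
    have hcomm : Commute y d := by
      show y * d = d * y
      calc y * d = (y * d * y⁻¹) * y := by group
        _ = d * y := by rw [hyd]
    have hpow : ∀ k : ℕ, y ^ k * g * (y ^ k)⁻¹ = d ^ k * g := by
      intro k
      induction k with
      | zero => simp
      | succ k ih =>
        calc y ^ (k + 1) * g * (y ^ (k + 1))⁻¹ = y * (y ^ k * g * (y ^ k)⁻¹) * y⁻¹ := by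
              rw [pow_succ']; group
          _ = y * (d ^ k * g) * y⁻¹ := by rw [ih]
          _ = (y * d ^ k * y⁻¹) * (y * g * y⁻¹) := by group
          _ = d ^ k * (d * g) := by
              rw [hygd]
              congr 1
              have := (hcomm.pow_right k).eq
              calc y * d ^ k * y⁻¹ = d ^ k * y * y⁻¹ := by rw [this]
                _ = d ^ k := by group
          _ = d ^ (k + 1) * g := by rw [pow_succ, mul_assoc]
    have h1 := hpow p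
    rw [hyp] at h1
    have hdp : d ^ p = 1 := by
      have : g = d ^ p * g := by simpa using h1
      exact (mul_eq_right.mp this.symm)
    have hdQ : d ∈ Q := hDQ hd
    obtain ⟨j, hj⟩ := hQ ⟨d, hdQ⟩
    have hdq : d ^ (q ^ j) = 1 := by
      have := congrArg (fun z : Q => (z : G)) hj
      simpa using this
    have ho1 : orderOf d ∣ p := orderOf_dvd_of_pow_eq_one hdp
    have ho2 : orderOf d ∣ q ^ j := orderOf_dvd_of_pow_eq_one hdq
    have hcop : Nat.Coprime p (q ^ j) :=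
      Nat.Coprime.pow_right j ((Nat.coprime_primes hp hq).mpr hpq)
    have ho : orderOf d = 1 := Nat.eq_one_of_dvd_coprimes hcop ho1 ho2
    have hd1 : d = 1 := orderOf_eq_one_iff.mp ho
    rw [hygd, hd1, one_mul]
  -- central lemma
  have hcentral : ∀ R : Subgroup G, R < Q → (∀ g ∈ R, x * g * x⁻¹ ∈ R) →
      (∀ k ∈ Q, ∀ m ∈ R, k * m * k⁻¹ ∈ R) → ∀ m ∈ R, ∀ k ∈ Q, k * m = m * k := by
    intro R hRQ hRx hRn
    have hcen := hmin R hRQ hRx
    have hDle : D ≤ Subgroup.centralizer (R : Set G) := by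
      rw [Subgroup.closure_le]
      rintro _ ⟨g, hg, rfl⟩
      rw [SetLike.mem_coe, Subgroup.mem_centralizer_iff]
      intro m hm
      have hm' : g⁻¹ * m * g ∈ R := by
        have := hRn g⁻¹ (inv_mem hg) m hm
        rwa [inv_inv] at this
      have e1 : y⁻¹ * (g⁻¹ * m * g) * y = g⁻¹ * m * g := by
        calc y⁻¹ * (g⁻¹ * m * g) * y = y⁻¹ * (y * (g⁻¹ * m * g) * y⁻¹) * y := by
              rw [hcen _ hm']
          _ = g⁻¹ * m * g := by group
      have key : (y * g * y⁻¹ * g⁻¹) * m * (y * g * y⁻¹ * g⁻¹)⁻¹ = m := by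
        calc (y * g * y⁻¹ * g⁻¹) * m * (y * g * y⁻¹ * g⁻¹)⁻¹
            = y * (g * (y⁻¹ * (g⁻¹ * m * g) * y) * g⁻¹) * y⁻¹ := by group
          _ = y * (g * (g⁻¹ * m * g) * g⁻¹) * y⁻¹ := by rw [e1]
          _ = y * m * y⁻¹ := by group
          _ = m := hcen m hm
      calc m * (y * g * y⁻¹ * g⁻¹)
          = ((y * g * y⁻¹ * g⁻¹) * m * (y * g * y⁻¹ * g⁻¹)⁻¹) * (y * g * y⁻¹ * g⁻¹) := by
            rw [key]
        _ = (y * g * y⁻¹ * g⁻¹) * m := by group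
    intro m hm k hk
    have hkD : k ∈ D := by rw [hDeq]; exact hk
    have := Subgroup.mem_centralizer_iff.mp (hDle hkD) m hm
    exact this.symm
  -- (C1)
  have hC1 : ∀ g ∈ Q, ∀ h ∈ Q, ∀ k ∈ Q, (g * h * g⁻¹ * h⁻¹) * k = k * (g * h * g⁻¹ * h⁻¹) := by
    have hle : ⁅Q, Q⁆ ≤ Q := by
      rw [Subgroup.commutator_le]
      intro g hg h hh
      rw [commutatorElement_def]
      exact mul_mem (mul_mem (mul_mem hg hh) (inv_mem hg)) (inv_mem hh)
    have hne : ⁅Q, Q⁆ ≠ Q := by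
      intro heq
      obtain ⟨g, hg, hgy⟩ := hyQ
      have : Nontrivial Q := by
        refine ⟨⟨g, hg⟩, 1, ?_⟩
        intro h
        have hg1 : g = 1 := congrArg Subtype.val h
        apply hgy
        rw [hg1]; group
      have : Group.IsNilpotent Q := hQ.isNilpotent
      have h1 := Group.IsSolvable.commutator_lt_top_of_nontrivial Q
      have h2 := Subgroup.map_subtype_commutator Q
      rw [heq] at h2
      have h3 : (commutator Q).map Q.subtype = (⊤ : Subgroup Q).map Q.subtype := by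
        rw [h2, ← MonoidHom.range_eq_map, Subgroup.range_subtype]
      have h4 := Subgroup.map_injective Q.subtype_injective h3
      exact h1.ne h4
    have hlt : ⁅Q, Q⁆ < Q := lt_of_le_of_ne hle hne
    have hcen := hcentral ⁅Q, Q⁆ hlt (conj_commutator Q x hx)
      (fun k hk => conj_commutator Q k (fun g hg => mul_mem (mul_mem hk hg) (inv_mem hk)))
    intro g hg h hh k hk
    have hm : g * h * g⁻¹ * h⁻¹ ∈ ⁅Q, Q⁆ := by
      rw [← commutatorElement_def]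
      exact Subgroup.commutator_mem_commutator hg hh
    exact (hcen _ hm k hk).symm
  refine ⟨hC1, ?_, ?_⟩
  · -- (C2)
    have cen_mul : ∀ a b : G, (∀ k ∈ Q, a * k = k * a) → (∀ k ∈ Q, b * k = k * b) →
        ∀ k ∈ Q, (a * b) * k = k * (a * b) := by
      intro a b ha hb k hk
      rw [mul_assoc, hb k hk, ← mul_assoc, ha k hk, mul_assoc]
    have cen_inv : ∀ a : G, (∀ k ∈ Q, a * k = k * a) → ∀ k ∈ Q, a⁻¹ * k = k * a⁻¹ := by
      intro a ha k hk
      have := ha k hk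
      calc a⁻¹ * k = a⁻¹ * (k * a) * a⁻¹ := by group
        _ = a⁻¹ * (a * k) * a⁻¹ := by rw [this]
        _ = k * a⁻¹ := by group
    let M : Subgroup G :=
      { carrier := {g | g ∈ Q ∧ ∀ k ∈ Q, (y * g * y⁻¹ * g⁻¹) * k = k * (y * g * y⁻¹ * g⁻¹)}
        one_mem' := by
          refine ⟨one_mem Q, ?_⟩
          intro k _
          simp
        mul_mem' := by
          rintro g h ⟨hg, hgc⟩ ⟨hh, hhc⟩
          refine ⟨mul_mem hg hh, ?_⟩
          have e1 : g * (y * h * y⁻¹ * h⁻¹) * g⁻¹ = y * h * y⁻¹ * h⁻¹ := by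
            have := hhc g hg
            calc g * (y * h * y⁻¹ * h⁻¹) * g⁻¹ = ((y * h * y⁻¹ * h⁻¹) * g) * g⁻¹ := by rw [this]
              _ = y * h * y⁻¹ * h⁻¹ := by group
          have e2 : y * (g * h) * y⁻¹ * (g * h)⁻¹
              = (y * g * y⁻¹ * g⁻¹) * (y * h * y⁻¹ * h⁻¹) := by
            calc y * (g * h) * y⁻¹ * (g * h)⁻¹
                = (y * g * y⁻¹ * g⁻¹) * (g * (y * h * y⁻¹ * h⁻¹) * g⁻¹) := by group
              _ = (y * g * y⁻¹ * g⁻¹) * (y * h * y⁻¹ * h⁻¹) := by rw [e1]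
          rw [e2]
          exact cen_mul _ _ hgc hhc
        inv_mem' := by
          rintro g ⟨hg, hgc⟩
          refine ⟨inv_mem hg, ?_⟩
          have e1 : g⁻¹ * (y * g * y⁻¹ * g⁻¹)⁻¹ * g = (y * g * y⁻¹ * g⁻¹)⁻¹ := by
            have := cen_inv _ hgc g hg
            calc g⁻¹ * (y * g * y⁻¹ * g⁻¹)⁻¹ * g = g⁻¹ * ((y * g * y⁻¹ * g⁻¹)⁻¹ * g) := by group
              _ = g⁻¹ * (g * (y * g * y⁻¹ * g⁻¹)⁻¹) := by rw [this]
              _ = (y * g * y⁻¹ * g⁻¹)⁻¹ := by group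
          have e2 : y * g⁻¹ * y⁻¹ * g⁻¹⁻¹ = (y * g * y⁻¹ * g⁻¹)⁻¹ := by
            calc y * g⁻¹ * y⁻¹ * g⁻¹⁻¹ = g⁻¹ * (y * g * y⁻¹ * g⁻¹)⁻¹ * g := by group
              _ = (y * g * y⁻¹ * g⁻¹)⁻¹ := e1
          rw [e2]
          exact cen_inv _ hgc }
    have hMmem : ∀ g, g ∈ M ↔ g ∈ Q ∧ ∀ k ∈ Q, (y * g * y⁻¹ * g⁻¹) * k = k * (y * g * y⁻¹ * g⁻¹) :=
      fun g => Iff.rfl
    have hMQ : M ≤ Q := fun g hg => hg.1
    have hMne : M ≠ Q := by
      intro heq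
      have hDle : D ≤ Subgroup.centralizer (Q : Set G) := by
        rw [Subgroup.closure_le]
        rintro _ ⟨g, hg, rfl⟩
        rw [SetLike.mem_coe, Subgroup.mem_centralizer_iff]
        intro k hk
        have hgM : g ∈ M := by rw [heq]; exact hg
        exact ((hMmem g).mp hgM).2 k hk |>.symm
      obtain ⟨g, hg, h, hh, hgh⟩ := hnc
      apply hgh
      have hgD : g ∈ D := by rw [hDeq]; exact hg
      exact (Subgroup.mem_centralizer_iff.mp (hDle hgD) h hh).symm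
    have hMx : ∀ g ∈ M, x * g * x⁻¹ ∈ M := by
      rintro g ⟨hg, hgc⟩
      refine ⟨hx g hg, ?_⟩
      rw [← hcomx]
      intro k hk
      have hk' := hx' k hk
      have := hgc _ hk'
      calc x * (y * g * y⁻¹ * g⁻¹) * x⁻¹ * k
          = x * ((y * g * y⁻¹ * g⁻¹) * (x⁻¹ * k * x)) * x⁻¹ := by group
        _ = x * ((x⁻¹ * k * x) * (y * g * y⁻¹ * g⁻¹)) * x⁻¹ := by rw [this]
        _ = k * (x * (y * g * y⁻¹ * g⁻¹) * x⁻¹) := by group
    have hMn : ∀ k ∈ Q, ∀ g ∈ M, k * g * k⁻¹ ∈ M := by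
      intro k hk g hgM
      have hg : g ∈ Q := hMQ hgM
      have hcM : k * g * k⁻¹ * g⁻¹ ∈ M := by
        refine ⟨mul_mem (mul_mem (mul_mem hk hg) (inv_mem hk)) (inv_mem hg), ?_⟩
        have h1 : ∀ k' ∈ Q, (k * g * k⁻¹ * g⁻¹) * k' = k' * (k * g * k⁻¹ * g⁻¹) := hC1 k hk g hg
        have h2 : ∀ k' ∈ Q, (y * (k * g * k⁻¹ * g⁻¹) * y⁻¹) * k' = k' * (y * (k * g * k⁻¹ * g⁻¹) * y⁻¹) := by
          have e : y * (k * g * k⁻¹ * g⁻¹) * y⁻¹
              = (y * k * y⁻¹) * (y * g * y⁻¹) * (y * k * y⁻¹)⁻¹ * (y * g * y⁻¹)⁻¹ := by group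
          rw [e]
          exact hC1 _ (hy k hk) _ (hy g hg)
        exact cen_mul _ _ h2 (cen_inv _ h1)
      have e : k * g * k⁻¹ = (k * g * k⁻¹ * g⁻¹) * g := by group
      rw [e]
      exact mul_mem hcM hgM
    have hcen := hcentral M (lt_of_le_of_ne hMQ hMne) hMx hMn
    intro g hg hgc k hk
    exact (hcen g ⟨hg, hgc⟩ k hk).symm
  · -- (C3)
    let Z : Subgroup G := Q ⊓ Subgroup.centralizer (Q : Set G)
    have hZmem : ∀ z, z ∈ Z ↔ z ∈ Q ∧ ∀ k ∈ Q, k * z = z * k := by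
      intro z
      show z ∈ Q ⊓ Subgroup.centralizer (Q : Set G) ↔ _
      rw [Subgroup.mem_inf, Subgroup.mem_centralizer_iff]
      rfl
    have hZQ : Z ≤ Q := inf_le_left
    have hZne : Z ≠ Q := by
      intro heq
      obtain ⟨g, hg, h, hh, hgh⟩ := hnc
      apply hgh
      have hgZ : g ∈ Z := by rw [heq]; exact hg
      exact (((hZmem g).mp hgZ).2 h hh).symm
    have hZx : ∀ z ∈ Z, x * z * x⁻¹ ∈ Z := by
      intro z hzZ
      obtain ⟨hz, hzc⟩ := (hZmem z).mp hzZ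
      rw [hZmem]
      refine ⟨hx z hz, ?_⟩
      intro k hk
      have := hzc _ (hx' k hk)
      calc k * (x * z * x⁻¹) = x * ((x⁻¹ * k * x) * z) * x⁻¹ := by group
        _ = x * (z * (x⁻¹ * k * x)) * x⁻¹ := by rw [this]
        _ = x * z * x⁻¹ * k := by group
    have hcen := hmin Z (lt_of_le_of_ne hZQ hZne) hZx
    intro z hz hzc
    apply hcen
    rw [hZmem]
    exact ⟨hz, fun k hk => (hzc k hk).symm⟩

end Cfsg.Agent.Lib.Helper1.HHGrp
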