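import Mathlib
import Cfsg.Agent.Lib.Helper1.HHW

/-!
# Restriction of `GL(W)` to an invariant subspace
-/

namespace Cfsg.Agent.Lib.Helper1.HHRes

open Module Cfsg.Agent.Lib.Helper1.HHW Cfsg.Agent.Lib.Helper1.HHJordan

variable {K : Type*} [Field K] {W : Type*} [AddCommGroup W] [Module K W]

/-- Stabilizer of a submodule in `GL(W)`. -/
def stab (V : Submodule K W) : Subgroup (W ≃ₗ[K] W) where
  carrier := {g | V.map (toE g) = V}
  mul_mem' := by
    intro g h hg hh
    show V.map (toE (g * h)) = V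
    have : toE (g * h) = (toE g).comp (toE h) := rfl
    rw [this, Submodule.map_comp, hh, hg]
  one_mem' := Submodule.map_id V
  inv_mem' := by
    intro g hg
    show V.map (toE g⁻¹) = V
    have h1 : (V.map (toE g)).map (toE g⁻¹) = V := by
      rw [← Submodule.map_comp]
      have : (toE g⁻¹).comp (toE g) = LinearMap.id := by
        have : toE (g⁻¹ * g) = (toE g⁻¹).comp (toE g) := rfl
        rw [← this, inv_mul_cancel]
        rfl
      rw [this, Submodule.map_id]
    rw [hg] at h1
    exact h1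

theorem mem_stab {V : Submodule K W} {g : W ≃ₗ[K] W} : g ∈ stab V ↔ V.map (toE g) = V := Iff.rfl

theorem mem_stab_of {V : Submodule K W} {g : W ≃ₗ[K] W} (h1 : ∀ v ∈ V, g v ∈ V)
    (h2 : ∀ v ∈ V, g⁻¹ v ∈ V) : g ∈ stab V := by
  rw [mem_stab]
  apply le_antisymm
  · rintro _ ⟨v, hv, rfl⟩
    exact h1 v hv
  · intro v hv
    exact ⟨g⁻¹ v, h2 v hv, apply_inv_apply g v⟩

theorem stab_apply_mem {V : Submodule K W} {g : W ≃ₗ[K] W} (hg : g ∈ stab V) {v : W}
    (hv : v ∈ V) : g v ∈ V := by
  rw [mem_stab] at hg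
  rw [← hg]
  exact Submodule.mem_map_of_mem hv

/-- Restriction to an invariant subspace. -/
def res (V : Submodule K W) : stab V →* (V ≃ₗ[K] V) where
  toFun g := LinearEquiv.ofSubmodules (g : W ≃ₗ[K] W) V V g.2
  map_one' := by
    ext v
    rfl
  map_mul' := by
    intro g h
    ext v
    rfl

theorem res_apply (V : Submodule K W) (g : stab V) (v : V) :
    ((res V g v : V) : W) = (g : W ≃ₗ[K] W) (v : W) := rfl

/-- powers of `res g - 1` are restrictions of powers of `g - 1`. -/
theorem res_sub_one_pow (V : Submodule K W) (g : stab V) (s : ℕ) (v : V) :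
    ((((toE (res V g) - 1) ^ s) v : V) : W) = ((toE (g : W ≃ₗ[K] W) - 1) ^ s) (v : W) := by
  induction s generalizing v with
  | zero => rfl
  | succ s ih =>
    rw [pow_succ, pow_succ, Module.End.mul_apply, Module.End.mul_apply, ih]
    rfl

end Cfsg.Agent.Lib.Helper1.HHRes
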