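import Mathlib
import Cfsg.Agent.Lib.Helper1.HHW
import Cfsg.Agent.Lib.Helper1.HHRes
import Cfsg.Agent.Lib.Helper1.HHGrp
import Cfsg.Agent.Lib.Helper1.HHFinal

/-!
# Hall--Higman Theorem B for `Q ⋊ ⟨x⟩` inside `GL(W)` (algebraically closed field)
-/

namespace Cfsg.Agent.Lib.Helper1.HHCoreB

open Module Cfsg.Agent.Lib.Helper1.HHW Cfsg.Agent.Lib.Helper1.HHJordan
  Cfsg.Agent.Lib.Helper1.HHRes Cfsg.Agent.Lib.Helper1.HHGrp Cfsg.Agent.Lib.Helper1.HHFinal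

universe u v

theorem descent_zero {K : Type*} [Field K] {W : Type*} [AddCommGroup W] [Module K W]
    [FiniteDimensional K W] (p : ℕ) [Fact p.Prime] [CharP K p]
    (A : Subgroup (W ≃ₗ[K] W))
    (hcomm : ∀ a ∈ A, ∀ b ∈ A, a * b = b * a)
    (hss : ∀ a ∈ A, ∃ m : ℕ, a ^ m = 1 ∧ (m : K) ≠ 0)
    (x : W ≃ₗ[K] W) (hx : ∀ a ∈ A, x * a * x⁻¹ ∈ A) (hx' : ∀ a ∈ A, x⁻¹ * a * x ∈ A)
    (χ : A → K) (k : ℕ)
    (hper : ∀ j, 0 < j → j < p ^ k → (wt A χ).map (toE (x ^ j)) ≠ wt A χ)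
    (hstab : x ^ (p ^ k) ∈ stab (wt A χ))
    (r : ℕ) (hr : (toE x - 1) ^ r = 0) :
    ∀ v ∈ wt A χ, ((toE (x ^ (p ^ k)) - 1) ^ (r / p ^ k)) v = 0 := by
  have hp := (Fact.out : p.Prime)
  have ht0 : 0 < p ^ k := Nat.pos_of_ne_zero (pow_ne_zero _ hp.ne_zero)
  have hM : toE (x ^ (p ^ k)) - 1 = (toE x - 1) ^ (p ^ k) := by
    rw [frob_alg K p (toE x) k, map_pow]
  have hstabM : ∀ (s : ℕ) (v : W), v ∈ wt A χ → ((toE (x ^ (p ^ k)) - 1) ^ s) v ∈ wt A χ := by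
    intro s
    induction s with
    | zero => intro v hv; simpa using hv
    | succ s ih =>
      intro v hv
      rw [pow_succ, Module.End.mul_apply]
      apply ih
      rw [LinearMap.sub_apply]
      exact Submodule.sub_mem _ (stab_apply_mem hstab hv) (by simpa using hv)
  intro v hv
  have hv' := hstabM (r / p ^ k) v hv
  have hzero : (toE x - 1) ^ (p ^ k - 1 + p ^ k * (r / p ^ k)) = 0 := by
    have hlt := Nat.lt_mul_div_succ r ht0
    obtain ⟨c, hc⟩ := Nat.exists_eq_add_of_le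
      (show r ≤ p ^ k - 1 + p ^ k * (r / p ^ k) by
        have : p ^ k * (r / p ^ k + 1) = p ^ k * (r / p ^ k) + p ^ k := by ring
        omega)
    rw [hc, pow_add, hr, zero_mul]
  have hsum : ∑ j ∈ Finset.range (p ^ k), (x ^ j) (((toE (x ^ (p ^ k)) - 1) ^ (r / p ^ k)) v) = 0 := by
    have h1 : (∑ j ∈ Finset.range (p ^ k), toE x ^ j) * (toE (x ^ (p ^ k)) - 1) ^ (r / p ^ k) = 0 := by
      rw [geom_alg K p (toE x) k, hM, ← pow_mul, ← pow_add, hzero]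
    have h2 := congrArg (fun f : Module.End K W => f v) h1
    simp only [Module.End.mul_apply, LinearMap.sum_apply, LinearMap.zero_apply] at h2
    rw [← h2]
    apply Finset.sum_congr rfl
    intro j _
    rw [← map_pow]
    rfl
  exact translates_indep A hcomm hss x hx hx' χ (p ^ k) hper
    (fun _ => ((toE (x ^ (p ^ k)) - 1) ^ (r / p ^ k)) v) (fun _ => hv') hsum 0 ht0

set_option maxHeartbeats 3200000 in
/-- **Hall--Higman Theorem B, critical form.** `Q ≤ GL(W)` a finite `q`-group (`q ≠ p = char K`,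
`K` algebraically closed), normalized by `x` with `x ^ (p ^ n) = 1` and `x ^ (p ^ (n-1))` not
centralizing `Q`.  If `(x - 1) ^ r = 0` then `p ^ n ≤ r`, or `Q` is non-abelian and
`p ^ (n - n₀) * (p ^ n₀ - 1) ≤ r` for some `1 ≤ n₀ ≤ n` with `p ^ n₀ - 1` a power of `q`. -/
theorem core (p q : ℕ) [Fact p.Prime] [Fact q.Prime] (hpq : p ≠ q)
    {K : Type u} [Field K] [IsAlgClosed K] [CharP K p] :
    ∀ (d : ℕ) (W : Type v) [AddCommGroup W] [Module K W] [FiniteDimensional K W],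
    finrank K W = d →
    ∀ (Q : Subgroup (W ≃ₗ[K] W)) [Finite Q], IsPGroup q Q →
    ∀ (x : W ≃ₗ[K] W), (∀ g ∈ Q, x * g * x⁻¹ ∈ Q) →
    ∀ (n : ℕ), 1 ≤ n → x ^ (p ^ n) = 1 →
    (∃ g ∈ Q, x ^ (p ^ (n - 1)) * g * (x ^ (p ^ (n - 1)))⁻¹ ≠ g) →
    ∀ (r : ℕ), (toE x - 1) ^ r = 0 →
    p ^ n ≤ r ∨ ((∃ g ∈ Q, ∃ h ∈ Q, g * h ≠ h * g) ∧
      ∃ n₀ m : ℕ, 1 ≤ n₀ ∧ n₀ ≤ n ∧ 1 ≤ m ∧ p ^ n₀ - 1 = q ^ m ∧
        p ^ (n - n₀) * (p ^ n₀ - 1) ≤ r) := by
  intro d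
  induction d using Nat.strong_induction_on with
  | _ d ih =>
  intro W _ _ _ hd Q _ hQ x hx n hn hxP hyQ r hr
  classical
  have hp := (Fact.out : p.Prime)
  have hq := (Fact.out : q.Prime)
  have hP0 : 0 < p ^ n := Nat.pos_of_ne_zero (pow_ne_zero _ hp.ne_zero)
  have hyp : (x ^ (p ^ (n - 1))) ^ p = 1 := by
    rw [← pow_mul, ← pow_succ, Nat.sub_add_cancel hn, hxP]
  have hxy : x * x ^ (p ^ (n - 1)) = x ^ (p ^ (n - 1)) * x :=
    (Commute.pow_right (Commute.refl x) _).eq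
  generalize hydef : x ^ (p ^ (n - 1)) = y at hyQ hyp hxy
  have hssQ : ∀ a ∈ Q, ∃ m : ℕ, a ^ m = 1 ∧ (m : K) ≠ 0 := by
    intro a ha
    obtain ⟨j, hj⟩ := hQ ⟨a, ha⟩
    refine ⟨q ^ j, by simpa using congrArg Subtype.val hj, ?_⟩
    rw [Nat.cast_pow]
    apply pow_ne_zero
    intro h0
    have := (CharP.cast_eq_zero_iff K p q).mp h0
    exact hpq ((Nat.prime_dvd_prime_iff_eq hp hq).mp this)
  -- minimal subgroup
  obtain ⟨Q', hQ'Q, hQ'x, hQ'y, hQ'min⟩ := exists_minimal x y Q hx hyQ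
  have : Finite Q' :=
    Finite.of_injective (Subgroup.inclusion hQ'Q) (Subgroup.inclusion_injective _)
  have hQ'p : IsPGroup q Q' := hQ.to_le hQ'Q
  have hssQ' : ∀ a ∈ Q', ∃ m : ℕ, a ^ m = 1 ∧ (m : K) ≠ 0 := fun a ha => hssQ a (hQ'Q ha)
  by_cases hab : ∀ g ∈ Q', ∀ h ∈ Q', g * h = h * g
  · left
    exact abelian_bound p Q' hab hssQ' x hQ'x n hxP (by rw [hydef]; exact hQ'y) r hr
  push Not at hab
  have hncQ : ∃ g ∈ Q, ∃ h ∈ Q, g * h ≠ h * g := by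
    obtain ⟨g, hg, h, hh, hne⟩ := hab
    exact ⟨g, hQ'Q hg, h, hQ'Q hh, hne⟩
  have hQ'x' := conj_inv_mem Q' x hQ'x hP0 hxP
  have hQ'yc : ∀ g ∈ Q', y * g * y⁻¹ ∈ Q' := by
    rw [← hydef]
    exact conj_pow_mem Q' x hQ'x _
  obtain ⟨hcl2, hfpf, hcenZ⟩ := minimal_struct p q hpq Q' hQ'p x y hxy hyp hQ'x hQ'x' hQ'yc hab
    hQ'min hQ'y
  -- the centre
  let Z : Subgroup (W ≃ₗ[K] W) := Q' ⊓ Subgroup.centralizer (Q' : Set (W ≃ₗ[K] W))
  have hZmem : ∀ z, z ∈ Z ↔ z ∈ Q' ∧ ∀ k ∈ Q', k * z = z * k := by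
    intro z
    show z ∈ Q' ⊓ Subgroup.centralizer (Q' : Set (W ≃ₗ[K] W)) ↔ _
    rw [Subgroup.mem_inf, Subgroup.mem_centralizer_iff]
    rfl
  have hZcomm : ∀ a ∈ Z, ∀ b ∈ Z, a * b = b * a :=
    fun a ha b hb => ((hZmem b).mp hb).2 a ((hZmem a).mp ha).1
  have hZss : ∀ a ∈ Z, ∃ m : ℕ, a ^ m = 1 ∧ (m : K) ≠ 0 :=
    fun a ha => hssQ' a ((hZmem a).mp ha).1
  have hZx : ∀ z ∈ Z, x * z * x⁻¹ ∈ Z := by
    intro z hzZ
    obtain ⟨hz, hzc⟩ := (hZmem z).mp hzZ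
    rw [hZmem]
    refine ⟨hQ'x z hz, ?_⟩
    intro k hk
    have := hzc _ (hQ'x' k hk)
    calc k * (x * z * x⁻¹) = x * ((x⁻¹ * k * x) * z) * x⁻¹ := by group
      _ = x * (z * (x⁻¹ * k * x)) * x⁻¹ := by rw [this]
      _ = x * z * x⁻¹ * k := by group
  have hZx' := conj_inv_mem Z x hZx hP0 hxP
  have hZy : ∀ z ∈ Z, y * z = z * y := by
    intro z hz
    have h1 := hcenZ z ((hZmem z).mp hz).1 (fun k hk => (((hZmem z).mp hz).2 k hk).symm)
    calc y * z = (y * z * y⁻¹) * y := by group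
      _ = z * y := by rw [h1]
  -- choose a weight
  obtain ⟨g₀, hg₀, hg₀y⟩ := hQ'y
  have hexχ : ∃ χ : Z → K, ∃ w ∈ wt Z χ, (y * g₀ * y⁻¹) w ≠ g₀ w := by
    by_contra hall
    push Not at hall
    apply hg₀y
    have htop : (⊤ : Submodule K W) ≤ LinearMap.eqLocus (toE (y * g₀ * y⁻¹)) (toE g₀) := by
      rw [← iSup_wt Z hZcomm hZss]
      exact iSup_le (fun χ w hw => hall χ w hw)
    ext w
    exact htop (Submodule.mem_top (x := w))
  obtain ⟨χ, w₀, hw₀, hw₀ne⟩ := hexχ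
  -- stability
  have hQ'V : ∀ g ∈ Q', ∀ v ∈ wt Z χ, g v ∈ wt Z χ := by
    intro g hg v hv
    rw [mem_wt] at hv ⊢
    intro z
    have hz := (hZmem z).mp z.2
    have h1 : (z : W ≃ₗ[K] W) (g v) = g ((z : W ≃ₗ[K] W) v) := by
      rw [← LinearEquiv.mul_apply, ← LinearEquiv.mul_apply, hz.2 g hg]
    rw [h1, hv z, map_smul]
  have hQ'S : ∀ g ∈ Q', g ∈ stab (wt Z χ) := fun g hg =>
    mem_stab_of (hQ'V g hg) (hQ'V g⁻¹ (inv_mem hg))
  have hyV : ∀ v ∈ wt Z χ, y v ∈ wt Z χ := by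
    intro v hv
    rw [mem_wt] at hv ⊢
    intro z
    have h1 : (z : W ≃ₗ[K] W) (y v) = y ((z : W ≃ₗ[K] W) v) := by
      rw [← LinearEquiv.mul_apply, ← LinearEquiv.mul_apply, hZy z z.2]
    rw [h1, hv z, map_smul]
  have hyV' : ∀ v ∈ wt Z χ, y⁻¹ v ∈ wt Z χ := by
    intro v hv
    rw [mem_wt] at hv ⊢
    intro z
    have h0 : (z : W ≃ₗ[K] W) * y⁻¹ = y⁻¹ * z := by
      have := hZy z z.2
      calc (z : W ≃ₗ[K] W) * y⁻¹ = y⁻¹ * (y * z) * y⁻¹ := by group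
        _ = y⁻¹ * (z * y) * y⁻¹ := by rw [this]
        _ = y⁻¹ * z := by group
    have h1 : (z : W ≃ₗ[K] W) (y⁻¹ v) = y⁻¹ ((z : W ≃ₗ[K] W) v) := by
      rw [← LinearEquiv.mul_apply, ← LinearEquiv.mul_apply, h0]
    rw [h1, hv z, map_smul]
  have hyS : y ∈ stab (wt Z χ) := mem_stab_of hyV hyV'
  -- the period
  have hpery : Function.IsPeriodicPt (fun V : Submodule K W => V.map (toE x)) (p ^ (n - 1))
      (wt Z χ) := by
    show (fun V : Submodule K W => V.map (toE x))^[p ^ (n - 1)] (wt Z χ) = wt Z χ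
    rw [iterate_map, hydef]
    exact hyS
  obtain ⟨k, hk, htk⟩ := (Nat.dvd_prime_pow hp).mp hpery.minimalPeriod_dvd
  have hper : ∀ j, 0 < j → j < p ^ k → (wt Z χ).map (toE (x ^ j)) ≠ wt Z χ := by
    intro j hj0 hjt h
    have h1 : Function.IsPeriodicPt (fun V : Submodule K W => V.map (toE x)) j (wt Z χ) := by
      show (fun V : Submodule K W => V.map (toE x))^[j] (wt Z χ) = wt Z χ
      rw [iterate_map]
      exact h
    have := h1.eq_zero_of_lt_minimalPeriod (by rw [htk]; exact hjt)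
    omega
  have hxt : x ^ (p ^ k) ∈ stab (wt Z χ) := by
    have h1 := Function.isPeriodicPt_minimalPeriod (fun V : Submodule K W => V.map (toE x))
      (wt Z χ)
    rw [htk] at h1
    have h2 : (fun V : Submodule K W => V.map (toE x))^[p ^ k] (wt Z χ) = wt Z χ := h1
    rw [iterate_map] at h2
    exact h2
  by_cases htop : wt Z χ = ⊤
  · -- the critical configuration
    have hZsc : ∀ z ∈ Q', (∀ k ∈ Q', z * k = k * z) → ∃ c : K, ∀ w : W, z w = c • w := by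
      intro z hz hzc
      have hzZ : z ∈ Z := (hZmem z).mpr ⟨hz, fun k hk => (hzc k hk).symm⟩
      refine ⟨χ ⟨z, hzZ⟩, ?_⟩
      intro w
      have hw : w ∈ wt Z χ := by rw [htop]; exact Submodule.mem_top
      exact (mem_wt.mp hw) ⟨z, hzZ⟩
    have hfin := final_config p Q' hab hcl2 hZsc x hQ'x n hn hxP (by rw [hydef]; exact hfpf) r hr
    rcases hfin with h | ⟨h1, h2⟩
    · exact Or.inl h
    · right
      refine ⟨hncQ, ?_⟩
      obtain ⟨e, he⟩ := (IsPGroup.iff_card (p := q)).mp (hQ'p.to_quotient (Subgroup.center Q'))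
      rw [h2] at he
      have hdvd : p ^ n - 1 ∣ q ^ e := by
        rw [← he, sq]
        exact dvd_mul_right _ _
      obtain ⟨m, _, hm⟩ := (Nat.dvd_prime_pow hq).mp hdvd
      have hm1 : 1 ≤ m := by
        by_contra h0
        have hm0 : m = 0 := by omega
        rw [hm0, pow_zero] at hm
        rw [hm] at h2
        have hidx : (Subgroup.center Q').index = 1 := by
          show Nat.card (Q' ⧸ Subgroup.center Q') = 1
          rw [h2]; norm_num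
        have hcen := Subgroup.index_eq_one.mp hidx
        obtain ⟨g, hg, h, hh, hne⟩ := hab
        apply hne
        have hgc : (⟨g, hg⟩ : Q') ∈ Subgroup.center Q' := by rw [hcen]; trivial
        have := Subgroup.mem_center_iff.mp hgc ⟨h, hh⟩
        exact (congrArg Subtype.val this).symm
      refine ⟨n, m, hn, le_rfl, hm1, hm, ?_⟩
      rw [Nat.sub_self, pow_zero, one_mul]
      exact h1
  · -- descent to the weight space
    have hlt : finrank K (wt Z χ) < d := by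
      rw [← hd]
      exact Submodule.finrank_lt htop
    have hkn : k ≤ n - 1 := hk
    have ht0 : 0 < p ^ k := Nat.pos_of_ne_zero (pow_ne_zero _ hp.ne_zero)
    let ρ := res (wt Z χ)
    let Q₁ : Subgroup (wt Z χ ≃ₗ[K] wt Z χ) := (Q'.subgroupOf (stab (wt Z χ))).map ρ
    let x₁ : stab (wt Z χ) := ⟨x ^ (p ^ k), hxt⟩
    have hQ₁mem : ∀ g₁, g₁ ∈ Q₁ ↔ ∃ s : stab (wt Z χ), (s : W ≃ₗ[K] W) ∈ Q' ∧ ρ s = g₁ := by
      intro g₁
      show g₁ ∈ (Q'.subgroupOf (stab (wt Z χ))).map ρ ↔ _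
      rw [Subgroup.mem_map]
      constructor
      · rintro ⟨s, hs, rfl⟩
        exact ⟨s, Subgroup.mem_subgroupOf.mp hs, rfl⟩
      · rintro ⟨s, hs, rfl⟩
        exact ⟨s, Subgroup.mem_subgroupOf.mpr hs, rfl⟩
    have hfinQ₁ : Finite Q₁ := by
      have h1 : Finite (Q'.subgroupOf (stab (wt Z χ))) := by
        apply Finite.of_injective
          (fun s : Q'.subgroupOf (stab (wt Z χ)) => (⟨((s : stab (wt Z χ)) : W ≃ₗ[K] W),
            Subgroup.mem_subgroupOf.mp s.2⟩ : Q'))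
        intro s s' hss'
        apply Subtype.ext
        apply Subtype.ext
        have h := congrArg Subtype.val hss'
        exact h
      apply Finite.of_surjective
        (fun s : Q'.subgroupOf (stab (wt Z χ)) =>
          (⟨ρ (s : stab (wt Z χ)), Subgroup.mem_map_of_mem ρ s.2⟩ :
            ((Q'.subgroupOf (stab (wt Z χ))).map ρ : Subgroup _)))
      rintro ⟨g₁, hg₁⟩
      obtain ⟨s, hs, rfl⟩ := Subgroup.mem_map.mp hg₁
      exact ⟨⟨s, hs⟩, rfl⟩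
    have hQ₁p : IsPGroup q Q₁ := (hQ'p.comap_subtype).map ρ
    have hx₁n : ∀ g₁ ∈ Q₁, ρ x₁ * g₁ * (ρ x₁)⁻¹ ∈ Q₁ := by
      intro g₁ hg₁
      obtain ⟨s, hs, rfl⟩ := (hQ₁mem g₁).mp hg₁
      rw [hQ₁mem]
      refine ⟨x₁ * s * x₁⁻¹, ?_, ?_⟩
      · show x ^ (p ^ k) * (s : W ≃ₗ[K] W) * (x ^ (p ^ k))⁻¹ ∈ Q'
        exact conj_pow_mem Q' x hQ'x _ _ hs
      · rw [map_mul, map_mul, map_inv]
    have hx₁P : (ρ x₁) ^ (p ^ (n - k)) = 1 := by
      rw [← map_pow]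
      have : x₁ ^ (p ^ (n - k)) = 1 := by
        apply Subtype.ext
        show (x ^ (p ^ k)) ^ (p ^ (n - k)) = 1
        rw [← pow_mul, ← pow_add]
        have : k + (n - k) = n := by omega
        rw [this, hxP]
      rw [this, map_one]
    have hx₁y : ((x₁ : stab (wt Z χ)) : W ≃ₗ[K] W) ^ (p ^ (n - k - 1)) = y := by
      show (x ^ (p ^ k)) ^ (p ^ (n - k - 1)) = y
      rw [← pow_mul, ← pow_add, ← hydef]
      congr 2
      omega
    have hy₁ : ∃ g₁ ∈ Q₁, (ρ x₁) ^ (p ^ (n - k - 1)) * g₁ * ((ρ x₁) ^ (p ^ (n - k - 1)))⁻¹ ≠ g₁ := by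
      refine ⟨ρ ⟨g₀, hQ'S g₀ hg₀⟩, (hQ₁mem _).mpr ⟨⟨g₀, hQ'S g₀ hg₀⟩, hg₀, rfl⟩, ?_⟩
      intro heq
      apply hw₀ne
      rw [← map_pow, ← map_inv, ← map_mul, ← map_mul] at heq
      have h1 := congrArg (fun e : wt Z χ ≃ₗ[K] wt Z χ => ((e ⟨w₀, hw₀⟩ : wt Z χ) : W)) heq
      have h2 : ((x₁ ^ (p ^ (n - k - 1)) * ⟨g₀, hQ'S g₀ hg₀⟩ * (x₁ ^ (p ^ (n - k - 1)))⁻¹
          : stab (wt Z χ)) : W ≃ₗ[K] W) = y * g₀ * y⁻¹ := by
        push_cast
        rw [hx₁y]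
      have h3 : (((x₁ ^ (p ^ (n - k - 1)) * ⟨g₀, hQ'S g₀ hg₀⟩ * (x₁ ^ (p ^ (n - k - 1)))⁻¹
          : stab (wt Z χ)) : W ≃ₗ[K] W)) w₀ = g₀ w₀ := h1
      rw [h2] at h3
      exact h3
    have hr₁ : (toE (ρ x₁) - 1) ^ (r / p ^ k) = 0 := by
      apply LinearMap.ext
      intro v
      apply Subtype.ext
      rw [res_sub_one_pow]
      have := descent_zero p Z hZcomm hZss x hZx hZx' χ k hper hxt r hr (v : W) v.2
      rw [this]
      rfl
    have hnk : 1 ≤ n - k := by omega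
    have hres := ih (finrank K (wt Z χ)) hlt (wt Z χ) rfl Q₁ hQ₁p (ρ x₁) hx₁n (n - k) hnk hx₁P
      hy₁ (r / p ^ k) hr₁
    rcases hres with h | ⟨_, n₀, m, h1, h2, h3, h4, h5⟩
    · left
      have h' := (Nat.le_div_iff_mul_le ht0).mp h
      rw [← pow_add] at h'
      have : n - k + k = n := by omega
      rwa [this] at h'
    · right
      refine ⟨hncQ, n₀, m, h1, by omega, h3, h4, ?_⟩
      have h6 : p ^ k * (p ^ (n - k - n₀) * (p ^ n₀ - 1)) ≤ p ^ k * (r / p ^ k) :=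
        Nat.mul_le_mul_left _ h5
      have h7 : p ^ k * (r / p ^ k) ≤ r := Nat.mul_div_le r (p ^ k)
      have h8 : p ^ (n - n₀) = p ^ k * p ^ (n - k - n₀) := by
        rw [← pow_add]
        congr 1
        omega
      rw [h8, mul_assoc]
      exact h6.trans h7

end Cfsg.Agent.Lib.Helper1.HHCoreB
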