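import Mathlib
import Cfsg.Agent.Lib.Helper1.HHGrp

/-!
# Group theory for the derived-length form of Hall--Higman (the case `p = 3`)

A `3`-group `B` normalizing a `2`-group `T`, with a normal subgroup `A` of `B` of exponent `3`:
minimal `B`-invariant subgroups of `T` not centralized by `A`.
-/

namespace Cfsg.Agent.Lib.Helper1.HHGrp2

open Cfsg.Agent.Lib.Helper1.HHGrp

variable {G : Type*} [Group G]

/-- If `a` centralizes the commutator `d = a t a⁻¹ t⁻¹` and the orders of `a` and `d` are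
coprime, then `a` centralizes `t`. -/
theorem conj_eq_of_fixed_comm (a t : G) {n m : ℕ} (hcop : Nat.Coprime n m) (ha : a ^ n = 1)
    (hd : a * (a * t * a⁻¹ * t⁻¹) * a⁻¹ = a * t * a⁻¹ * t⁻¹)
    (hm : (a * t * a⁻¹ * t⁻¹) ^ m = 1) : a * t * a⁻¹ = t := by
  generalize hddef : a * t * a⁻¹ * t⁻¹ = d at hd hm
  have hatd : a * t * a⁻¹ = d * t := by rw [← hddef]; group
  have hcomm : Commute a d := by
    show a * d = d * a
    calc a * d = (a * d * a⁻¹) * a := by group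
      _ = d * a := by rw [hd]
  have hpow : ∀ k : ℕ, a ^ k * t * (a ^ k)⁻¹ = d ^ k * t := by
    intro k
    induction k with
    | zero => simp
    | succ k ih =>
      calc a ^ (k + 1) * t * (a ^ (k + 1))⁻¹ = a * (a ^ k * t * (a ^ k)⁻¹) * a⁻¹ := by
            rw [pow_succ']; group
        _ = a * (d ^ k * t) * a⁻¹ := by rw [ih]
        _ = (a * d ^ k * a⁻¹) * (a * t * a⁻¹) := by group
        _ = d ^ k * (d * t) := by
            rw [hatd]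
            congr 1
            have := (hcomm.pow_right k).eq
            calc a * d ^ k * a⁻¹ = d ^ k * a * a⁻¹ := by rw [this]
              _ = d ^ k := by group
        _ = d ^ (k + 1) * t := by rw [pow_succ, mul_assoc]
  have h1 := hpow n
  rw [ha] at h1
  have hdn : d ^ n = 1 := by
    have : t = d ^ n * t := by simpa using h1
    exact (mul_eq_right.mp this.symm)
  have ho1 : orderOf d ∣ n := orderOf_dvd_of_pow_eq_one hdn
  have ho2 : orderOf d ∣ m := orderOf_dvd_of_pow_eq_one hm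
  have ho : orderOf d = 1 := Nat.eq_one_of_dvd_coprimes hcop ho1 ho2
  have hd1 : d = 1 := orderOf_eq_one_iff.mp ho
  rw [hatd, hd1, one_mul]

/-- A minimal `B`-invariant subgroup of `T` not centralized by `A`. -/
theorem exists_minimal_B (A B T : Subgroup G) [Finite T]
    (hBT : ∀ b ∈ B, ∀ t ∈ T, b * t * b⁻¹ ∈ T) (hAT : ∃ a ∈ A, ∃ t ∈ T, a * t * a⁻¹ ≠ t) :
    ∃ T₁ : Subgroup G, T₁ ≤ T ∧ (∀ b ∈ B, ∀ t ∈ T₁, b * t * b⁻¹ ∈ T₁) ∧
      (∃ a ∈ A, ∃ t ∈ T₁, a * t * a⁻¹ ≠ t) ∧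
      ∀ R : Subgroup G, R < T₁ → (∀ b ∈ B, ∀ t ∈ R, b * t * b⁻¹ ∈ R) →
        ∀ a ∈ A, ∀ t ∈ R, a * t * a⁻¹ = t := by
  obtain ⟨N, hN⟩ : ∃ N, Nat.card T = N := ⟨_, rfl⟩
  induction N using Nat.strong_induction_on generalizing T with
  | _ N ih =>
    by_cases hmin : ∀ R : Subgroup G, R < T → (∀ b ∈ B, ∀ t ∈ R, b * t * b⁻¹ ∈ R) →
        ∀ a ∈ A, ∀ t ∈ R, a * t * a⁻¹ = t
    · exact ⟨T, le_rfl, hBT, hAT, hmin⟩
    · push Not at hmin
      obtain ⟨R, hRT, hRB, a, ha, t, ht, hne⟩ := hmin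
      have : Finite R :=
        Finite.of_injective (Subgroup.inclusion hRT.le) (Subgroup.inclusion_injective _)
      have hcard : Nat.card R < Nat.card T := by
        by_contra h
        push Not at h
        exact hRT.ne (Subgroup.eq_of_le_of_card_ge hRT.le h)
      obtain ⟨T₁, h1, h2, h3, h4⟩ := ih (Nat.card R) (hN ▸ hcard) R hRB ⟨a, ha, t, ht, hne⟩ rfl
      exact ⟨T₁, h1.trans hRT.le, h2, h3, h4⟩

set_option maxHeartbeats 800000 in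
/-- Structure of a minimal configuration. -/
theorem struct_B (A B T : Subgroup G) [Finite T] (hT : IsPGroup 2 T)
    (hA3 : ∀ a ∈ A, a ^ 3 = 1) (hAB : A ≤ B)
    (hAn : ∀ b ∈ B, ∀ a ∈ A, b * a * b⁻¹ ∈ A)
    (hBT : ∀ b ∈ B, ∀ t ∈ T, b * t * b⁻¹ ∈ T)
    (hnc : ∃ a ∈ A, ∃ t ∈ T, a * t * a⁻¹ ≠ t)
    (hnab : ∃ g ∈ T, ∃ h ∈ T, g * h ≠ h * g)
    (hmin : ∀ R : Subgroup G, R < T → (∀ b ∈ B, ∀ t ∈ R, b * t * b⁻¹ ∈ R) →
        ∀ a ∈ A, ∀ t ∈ R, a * t * a⁻¹ = t) :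
    (T ≤ Subgroup.closure {d | ∃ a ∈ A, ∃ t ∈ T, d = a * t * a⁻¹ * t⁻¹}) ∧
    (∀ g ∈ T, ∀ h ∈ T, ∀ k ∈ T, (g * h * g⁻¹ * h⁻¹) * k = k * (g * h * g⁻¹ * h⁻¹)) ∧
    (∀ g ∈ T, ∀ h ∈ T, ∀ a ∈ A, a * (g * h * g⁻¹ * h⁻¹) * a⁻¹ = g * h * g⁻¹ * h⁻¹) ∧
    (∀ c ∈ T, (∀ a ∈ A, a * c * a⁻¹ = c) → ∀ k ∈ T, c * k = k * c) ∧
    (∀ z ∈ T, (∀ k ∈ T, z * k = k * z) → ∀ a ∈ A, a * z * a⁻¹ = z) := by
  classical
  have hpow2 : ∀ t ∈ T, ∃ j : ℕ, t ^ (2 ^ j) = 1 := by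
    intro t ht
    obtain ⟨j, hj⟩ := hT ⟨t, ht⟩
    exact ⟨j, by simpa using congrArg Subtype.val hj⟩
  have hAT : ∀ a ∈ A, ∀ t ∈ T, a * t * a⁻¹ ∈ T := fun a ha => hBT a (hAB ha)
  have hcom_mem : ∀ a ∈ A, ∀ t ∈ T, a * t * a⁻¹ * t⁻¹ ∈ T :=
    fun a ha t ht => mul_mem (hAT a ha t ht) (inv_mem ht)
  let S : Set G := {d | ∃ a ∈ A, ∃ t ∈ T, d = a * t * a⁻¹ * t⁻¹}
  let D : Subgroup G := Subgroup.closure S
  have hDT : D ≤ T := by
    rw [Subgroup.closure_le]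
    rintro _ ⟨a, ha, t, ht, rfl⟩
    exact hcom_mem a ha t ht
  have hDB : ∀ b ∈ B, ∀ d ∈ D, b * d * b⁻¹ ∈ D := by
    intro b hb
    apply conj_closure
    rintro _ ⟨a, ha, t, ht, rfl⟩
    apply Subgroup.subset_closure
    refine ⟨b * a * b⁻¹, hAn b hb a ha, b * t * b⁻¹, hBT b hb t ht, ?_⟩
    group
  have hDeq : D = T := by
    by_contra hne
    have hlt : D < T := lt_of_le_of_ne hDT hne
    have hcen := hmin D hlt hDB
    obtain ⟨a, ha, t, ht, hat⟩ := hnc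
    apply hat
    have hd : a * t * a⁻¹ * t⁻¹ ∈ D := Subgroup.subset_closure ⟨a, ha, t, ht, rfl⟩
    obtain ⟨j, hj⟩ := hpow2 _ (hDT hd)
    exact conj_eq_of_fixed_comm a t (Nat.Coprime.pow_right j (by norm_num)) (hA3 a ha)
      (hcen a ha _ hd) hj
  -- central lemma
  have hcentral : ∀ R : Subgroup G, R < T → (∀ b ∈ B, ∀ t ∈ R, b * t * b⁻¹ ∈ R) →
      (∀ k ∈ T, ∀ m ∈ R, k * m * k⁻¹ ∈ R) → ∀ m ∈ R, ∀ k ∈ T, k * m = m * k := by
    intro R hRT hRB hRn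
    have hcen := hmin R hRT hRB
    have hDle : D ≤ Subgroup.centralizer (R : Set G) := by
      rw [Subgroup.closure_le]
      rintro _ ⟨a, ha, g, hg, rfl⟩
      rw [SetLike.mem_coe, Subgroup.mem_centralizer_iff]
      intro m hm
      have hm' : g⁻¹ * m * g ∈ R := by
        have := hRn g⁻¹ (inv_mem hg) m hm
        rwa [inv_inv] at this
      have e1 : a⁻¹ * (g⁻¹ * m * g) * a = g⁻¹ * m * g := by
        calc a⁻¹ * (g⁻¹ * m * g) * a = a⁻¹ * (a * (g⁻¹ * m * g) * a⁻¹) * a := by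
              rw [hcen a ha _ hm']
          _ = g⁻¹ * m * g := by group
      have key : (a * g * a⁻¹ * g⁻¹) * m * (a * g * a⁻¹ * g⁻¹)⁻¹ = m := by
        calc (a * g * a⁻¹ * g⁻¹) * m * (a * g * a⁻¹ * g⁻¹)⁻¹
            = a * (g * (a⁻¹ * (g⁻¹ * m * g) * a) * g⁻¹) * a⁻¹ := by group
          _ = a * (g * (g⁻¹ * m * g) * g⁻¹) * a⁻¹ := by rw [e1]
          _ = a * m * a⁻¹ := by group
          _ = m := hcen a ha m hm
      calc m * (a * g * a⁻¹ * g⁻¹)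
          = ((a * g * a⁻¹ * g⁻¹) * m * (a * g * a⁻¹ * g⁻¹)⁻¹) * (a * g * a⁻¹ * g⁻¹) := by
            rw [key]
        _ = (a * g * a⁻¹ * g⁻¹) * m := by group
    intro m hm k hk
    have hkD : k ∈ D := by rw [hDeq]; exact hk
    have := Subgroup.mem_centralizer_iff.mp (hDle hkD) m hm
    exact this.symm
  -- the commutator subgroup
  have hle : ⁅T, T⁆ ≤ T := by
    rw [Subgroup.commutator_le]
    intro g hg h hh
    rw [commutatorElement_def]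
    exact mul_mem (mul_mem (mul_mem hg hh) (inv_mem hg)) (inv_mem hh)
  have hne : ⁅T, T⁆ ≠ T := by
    intro heq
    obtain ⟨a, ha, t, ht, hat⟩ := hnc
    have : Nontrivial T := by
      refine ⟨⟨t, ht⟩, 1, ?_⟩
      intro h
      have ht1 : t = 1 := congrArg Subtype.val h
      apply hat
      rw [ht1]; group
    have : Group.IsNilpotent T := hT.isNilpotent
    have h1 := Group.IsSolvable.commutator_lt_top_of_nontrivial T
    have h2 := Subgroup.map_subtype_commutator T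
    rw [heq] at h2
    have h3 : (commutator T).map T.subtype = (⊤ : Subgroup T).map T.subtype := by
      rw [h2, ← MonoidHom.range_eq_map, Subgroup.range_subtype]
    have h4 := Subgroup.map_injective T.subtype_injective h3
    exact h1.ne h4
  have hlt : ⁅T, T⁆ < T := lt_of_le_of_ne hle hne
  have hcomB : ∀ b ∈ B, ∀ t ∈ ⁅T, T⁆, b * t * b⁻¹ ∈ ⁅T, T⁆ :=
    fun b hb => conj_commutator T b (hBT b hb)
  have hcmem : ∀ g ∈ T, ∀ h ∈ T, g * h * g⁻¹ * h⁻¹ ∈ ⁅T, T⁆ := by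
    intro g hg h hh
    rw [← commutatorElement_def]
    exact Subgroup.commutator_mem_commutator hg hh
  have hcenC := hcentral ⁅T, T⁆ hlt hcomB
    (fun k hk => conj_commutator T k (fun g hg => mul_mem (mul_mem hk hg) (inv_mem hk)))
  have hC1 : ∀ g ∈ T, ∀ h ∈ T, ∀ k ∈ T, (g * h * g⁻¹ * h⁻¹) * k = k * (g * h * g⁻¹ * h⁻¹) :=
    fun g hg h hh k hk => (hcenC _ (hcmem g hg h hh) k hk).symm
  have hC2 : ∀ g ∈ T, ∀ h ∈ T, ∀ a ∈ A, a * (g * h * g⁻¹ * h⁻¹) * a⁻¹ = g * h * g⁻¹ * h⁻¹ :=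
    fun g hg h hh a ha => hmin ⁅T, T⁆ hlt hcomB a ha _ (hcmem g hg h hh)
  have hgen : T ≤ Subgroup.closure {d | ∃ a ∈ A, ∃ t ∈ T, d = a * t * a⁻¹ * t⁻¹} := by
    intro t ht
    have h : t ∈ D := by rw [hDeq]; exact ht
    exact h
  refine ⟨hgen, hC1, hC2, ?_, ?_⟩
  · -- fixed points of `A` are central
    intro c hc hcA k hk
    have hDle : D ≤ Subgroup.centralizer ({c} : Set G) := by
      rw [Subgroup.closure_le]
      rintro _ ⟨a, ha, g, hg, rfl⟩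
      rw [SetLike.mem_coe, Subgroup.mem_centralizer_iff]
      intro m hm
      rw [Set.mem_singleton_iff] at hm
      subst hm
      -- δ = g⁻¹ m g m⁻¹
      have hδc : ∀ k' ∈ T, (g⁻¹ * m * g⁻¹⁻¹ * m⁻¹) * k' = k' * (g⁻¹ * m * g⁻¹⁻¹ * m⁻¹) :=
        hC1 g⁻¹ (inv_mem hg) m hc
      have hδa : a⁻¹ * (g⁻¹ * m * g⁻¹⁻¹ * m⁻¹) * a⁻¹⁻¹ = g⁻¹ * m * g⁻¹⁻¹ * m⁻¹ :=
        hC2 g⁻¹ (inv_mem hg) m hc a⁻¹ (inv_mem ha)
      have hma : a⁻¹ * m * a = m := by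
        have := hcA a⁻¹ (inv_mem ha)
        rwa [inv_inv] at this
      generalize hδ : g⁻¹ * m * g⁻¹⁻¹ * m⁻¹ = δ at hδc hδa
      have e1 : g⁻¹ * m * g = δ * m := by rw [← hδ]; group
      have e2 : a⁻¹ * δ * a = δ := by simpa using hδa
      have e3 : g * δ * g⁻¹ = δ := by
        have := hδc g hg
        calc g * δ * g⁻¹ = g * (δ * g⁻¹) := by group
          _ = g * (g⁻¹ * δ) := by
              congr 1
              have h := hδc g⁻¹ (inv_mem hg)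
              exact h
          _ = δ := by group
      have e4 : g * m * g⁻¹ = δ⁻¹ * m := by
        have : m = g * (δ * m) * g⁻¹ := by rw [← e1]; group
        calc g * m * g⁻¹ = δ⁻¹ * ((g * δ * g⁻¹) * (g * m * g⁻¹)) := by rw [e3]; group
          _ = δ⁻¹ * (g * (δ * m) * g⁻¹) := by group
          _ = δ⁻¹ * m := by rw [← this]
      have key : (a * g * a⁻¹ * g⁻¹) * m * (a * g * a⁻¹ * g⁻¹)⁻¹ = m := by
        calc (a * g * a⁻¹ * g⁻¹) * m * (a * g * a⁻¹ * g⁻¹)⁻¹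
            = a * (g * (a⁻¹ * (g⁻¹ * m * g) * a) * g⁻¹) * a⁻¹ := by group
          _ = a * (g * (a⁻¹ * (δ * m) * a) * g⁻¹) * a⁻¹ := by rw [e1]
          _ = a * (g * ((a⁻¹ * δ * a) * (a⁻¹ * m * a)) * g⁻¹) * a⁻¹ := by group
          _ = a * (g * (δ * m) * g⁻¹) * a⁻¹ := by rw [e2, hma]
          _ = a * ((g * δ * g⁻¹) * (g * m * g⁻¹)) * a⁻¹ := by group
          _ = a * (δ * (δ⁻¹ * m)) * a⁻¹ := by rw [e3, e4]
          _ = a * m * a⁻¹ := by group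
          _ = m := hcA a ha
      calc m * (a * g * a⁻¹ * g⁻¹)
          = ((a * g * a⁻¹ * g⁻¹) * m * (a * g * a⁻¹ * g⁻¹)⁻¹) * (a * g * a⁻¹ * g⁻¹) := by
            rw [key]
        _ = (a * g * a⁻¹ * g⁻¹) * m := by group
    have hkD : k ∈ D := by rw [hDeq]; exact hk
    have := Subgroup.mem_centralizer_iff.mp (hDle hkD) c (Set.mem_singleton c)
    exact this
  · -- the centre is centralized by `A`
    let Z : Subgroup G := T ⊓ Subgroup.centralizer (T : Set G)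
    have hZmem : ∀ z, z ∈ Z ↔ z ∈ T ∧ ∀ k ∈ T, k * z = z * k := by
      intro z
      show z ∈ T ⊓ Subgroup.centralizer (T : Set G) ↔ _
      rw [Subgroup.mem_inf, Subgroup.mem_centralizer_iff]
      rfl
    have hZT : Z ≤ T := inf_le_left
    have hZne : Z ≠ T := by
      intro heq
      obtain ⟨g, hg, h, hh, hgh⟩ := hnab
      apply hgh
      have hgZ : g ∈ Z := by rw [heq]; exact hg
      exact (((hZmem g).mp hgZ).2 h hh).symm
    have hZB : ∀ b ∈ B, ∀ z ∈ Z, b * z * b⁻¹ ∈ Z := by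
      intro b hb z hzZ
      obtain ⟨hz, hzc⟩ := (hZmem z).mp hzZ
      rw [hZmem]
      refine ⟨hBT b hb z hz, ?_⟩
      intro k hk
      have hk' : b⁻¹ * k * b ∈ T := by
        have := hBT b⁻¹ (inv_mem hb) k hk
        rwa [inv_inv] at this
      have := hzc _ hk'
      calc k * (b * z * b⁻¹) = b * ((b⁻¹ * k * b) * z) * b⁻¹ := by group
        _ = b * (z * (b⁻¹ * k * b)) * b⁻¹ := by rw [this]
        _ = b * z * b⁻¹ * k := by group
    have hcen := hmin Z (lt_of_le_of_ne hZT hZne) hZB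
    intro z hz hzc a ha
    apply hcen a ha
    rw [hZmem]
    exact ⟨hz, fun k hk => (hzc k hk).symm⟩

/-- If the `B`-conjugates of `a₁` all act on `T` like `a₁`, then in a minimal configuration
`T = [T, a₁]` and `a₁` acts fixed-point-freely modulo the centre. -/
theorem gen_central (A B T : Subgroup G) [Finite T] (hT : IsPGroup 2 T)
    (hA3 : ∀ a ∈ A, a ^ 3 = 1) (hAB : A ≤ B)
    (hBT : ∀ b ∈ B, ∀ t ∈ T, b * t * b⁻¹ ∈ T)
    (hmin : ∀ R : Subgroup G, R < T → (∀ b ∈ B, ∀ t ∈ R, b * t * b⁻¹ ∈ R) →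
        ∀ a ∈ A, ∀ t ∈ R, a * t * a⁻¹ = t)
    (hC1 : ∀ g ∈ T, ∀ h ∈ T, ∀ k ∈ T, (g * h * g⁻¹ * h⁻¹) * k = k * (g * h * g⁻¹ * h⁻¹))
    (hC2 : ∀ g ∈ T, ∀ h ∈ T, ∀ a ∈ A, a * (g * h * g⁻¹ * h⁻¹) * a⁻¹ = g * h * g⁻¹ * h⁻¹)
    (a₁ : G) (ha₁ : a₁ ∈ A) (hnc₁ : ∃ t ∈ T, a₁ * t * a₁⁻¹ ≠ t)
    (hcen : ∀ b ∈ B, ∀ t ∈ T, (b * a₁ * b⁻¹) * t * (b * a₁ * b⁻¹)⁻¹ = a₁ * t * a₁⁻¹) :
    ∀ g ∈ T, (∀ k ∈ T, (a₁ * g * a₁⁻¹ * g⁻¹) * k = k * (a₁ * g * a₁⁻¹ * g⁻¹)) →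
      ∀ k ∈ T, g * k = k * g := by
  classical
  have hpow2 : ∀ t ∈ T, ∃ j : ℕ, t ^ (2 ^ j) = 1 := by
    intro t ht
    obtain ⟨j, hj⟩ := hT ⟨t, ht⟩
    exact ⟨j, by simpa using congrArg Subtype.val hj⟩
  have haT : ∀ t ∈ T, a₁ * t * a₁⁻¹ ∈ T := hBT a₁ (hAB ha₁)
  let S : Set G := {d | ∃ s ∈ T, d = a₁ * s * a₁⁻¹ * s⁻¹}
  let D : Subgroup G := Subgroup.closure S
  have hDT : D ≤ T := by
    rw [Subgroup.closure_le]
    rintro _ ⟨s, hs, rfl⟩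
    exact mul_mem (haT s hs) (inv_mem hs)
  have hDB : ∀ b ∈ B, ∀ d ∈ D, b * d * b⁻¹ ∈ D := by
    intro b hb
    apply conj_closure
    rintro _ ⟨s, hs, rfl⟩
    apply Subgroup.subset_closure
    refine ⟨b * s * b⁻¹, hBT b hb s hs, ?_⟩
    rw [← hcen b hb _ (hBT b hb s hs)]
    group
  have hDeq : D = T := by
    by_contra hne
    have hlt : D < T := lt_of_le_of_ne hDT hne
    have hcenD := hmin D hlt hDB
    obtain ⟨t, ht, hat⟩ := hnc₁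
    apply hat
    have hd : a₁ * t * a₁⁻¹ * t⁻¹ ∈ D := Subgroup.subset_closure ⟨t, ht, rfl⟩
    obtain ⟨j, hj⟩ := hpow2 _ (hDT hd)
    exact conj_eq_of_fixed_comm a₁ t (Nat.Coprime.pow_right j (by norm_num)) (hA3 a₁ ha₁)
      (hcenD a₁ ha₁ _ hd) hj
  intro g hg hz k hk
  have hDle : D ≤ Subgroup.centralizer ({g} : Set G) := by
    rw [Subgroup.closure_le]
    rintro _ ⟨s, hs, rfl⟩
    rw [SetLike.mem_coe, Subgroup.mem_centralizer_iff]
    intro m hm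
    rw [Set.mem_singleton_iff] at hm
    subst hm
    have hu : a₁ * s * a₁⁻¹ ∈ T := haT s hs
    have hδc := hC1 m hg s hs
    have hδa := hC2 m hg s hs a₁ ha₁
    have hmu : m * (a₁ * s * a₁⁻¹) * m⁻¹ ∈ T := mul_mem (mul_mem hg hu) (inv_mem hg)
    have hz1 := hz _ hmu
    generalize hzdef : a₁ * m * a₁⁻¹ * m⁻¹ = z at hz hz1
    have e0 : a₁ * m * a₁⁻¹ = z * m := by rw [← hzdef]; group
    generalize hudef : a₁ * s * a₁⁻¹ = u at hu hmu hz1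
    have e2 : a₁ * (m * s * m⁻¹ * s⁻¹) * a₁⁻¹ = (z * m) * u * (z * m)⁻¹ * u⁻¹ := by
      rw [← e0, ← hudef]; group
    have e3 : (z * m) * u * (z * m)⁻¹ * u⁻¹ = m * u * m⁻¹ * u⁻¹ := by
      calc (z * m) * u * (z * m)⁻¹ * u⁻¹ = (z * (m * u * m⁻¹)) * z⁻¹ * u⁻¹ := by group
        _ = ((m * u * m⁻¹) * z) * z⁻¹ * u⁻¹ := by rw [hz1]
        _ = m * u * m⁻¹ * u⁻¹ := by group
    have e4 : m * u * m⁻¹ * u⁻¹ = m * s * m⁻¹ * s⁻¹ := by
      rw [← e3, ← e2, hδa]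
    generalize hδ : m * s * m⁻¹ * s⁻¹ = δ at hδc hδa e4
    have e5 : m * u * m⁻¹ = δ * u := by rw [← e4]; group
    have e6 : m * s * m⁻¹ = δ * s := by rw [← hδ]; group
    have hus : u * s⁻¹ ∈ T := mul_mem hu (inv_mem hs)
    have e7 : δ * (u * s⁻¹) = (u * s⁻¹) * δ := hδc _ hus
    have key : m * (u * s⁻¹) * m⁻¹ = u * s⁻¹ := by
      calc m * (u * s⁻¹) * m⁻¹ = (m * u * m⁻¹) * (m * s * m⁻¹)⁻¹ := by group
        _ = (δ * u) * (δ * s)⁻¹ := by rw [e5, e6]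
        _ = (δ * (u * s⁻¹)) * δ⁻¹ := by group
        _ = ((u * s⁻¹) * δ) * δ⁻¹ := by rw [e7]
        _ = u * s⁻¹ := by group
    calc m * (u * s⁻¹) = (m * (u * s⁻¹) * m⁻¹) * m := by group
      _ = (u * s⁻¹) * m := by rw [key]
  have hkD : k ∈ D := by rw [hDeq]; exact hk
  have := Subgroup.mem_centralizer_iff.mp (hDle hkD) g (Set.mem_singleton g)
  exact this

end Cfsg.Agent.Lib.Helper1.HHGrp2
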