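import Mathlib
import Cfsg.Agent.Lib.Helper1.HHW
import Cfsg.Agent.Lib.Helper1.HHRes
import Cfsg.Agent.Lib.Helper1.HHGrp2
import Cfsg.Agent.Lib.Helper1.HHFinal
import Cfsg.Agent.Lib.Helper62.HHG5
import Cfsg.Agent.Lib.Helper14.HHG3

/-!
# The derived-length form of Hall--Higman: the linear core for `p = 3`
-/

namespace Cfsg.Agent.Lib.Helper1.HHDer3

open Module Cfsg.Agent.Lib.Helper1.HHW Cfsg.Agent.Lib.Helper1.HHRes
  Cfsg.Agent.Lib.Helper1.HHGrp2 Cfsg.Agent.Lib.Helper1.HHFinal Cfsg.Agent.Lib.Helper62.HHG5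
  Cfsg.Agent.Lib.Helper14.HHG3

universe u v

section Res

variable {K : Type*} [Field K] {W : Type*} [AddCommGroup W] [Module K W]

/-- Restriction of a subgroup of `GL(W)` to a submodule (only the part stabilizing it). -/
def resGrp (V : Submodule K W) (X : Subgroup (W ≃ₗ[K] W)) : Subgroup (V ≃ₗ[K] V) :=
  (X.subgroupOf (stab V)).map (res V)

theorem mem_resGrp {V : Submodule K W} {X : Subgroup (W ≃ₗ[K] W)} {g₁ : V ≃ₗ[K] V} :
    g₁ ∈ resGrp V X ↔ ∃ s : stab V, (s : W ≃ₗ[K] W) ∈ X ∧ res V s = g₁ := by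
  unfold resGrp
  rw [Subgroup.mem_map]
  constructor
  · rintro ⟨s, hs, rfl⟩
    exact ⟨s, Subgroup.mem_subgroupOf.mp hs, rfl⟩
  · rintro ⟨s, hs, rfl⟩
    exact ⟨s, Subgroup.mem_subgroupOf.mpr hs, rfl⟩

theorem finite_resGrp (V : Submodule K W) (X : Subgroup (W ≃ₗ[K] W)) [Finite X] :
    Finite (resGrp V X) := by
  have h1 : Finite (X.subgroupOf (stab V)) := by
    apply Finite.of_injective
      (fun s : X.subgroupOf (stab V) => (⟨((s : stab V) : W ≃ₗ[K] W),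
        Subgroup.mem_subgroupOf.mp s.2⟩ : X))
    intro s s' hss'
    apply Subtype.ext
    apply Subtype.ext
    have h := congrArg Subtype.val hss'
    exact h
  apply Finite.of_surjective
    (fun s : X.subgroupOf (stab V) =>
      (⟨res V (s : stab V), Subgroup.mem_map_of_mem (res V) s.2⟩ :
        ((X.subgroupOf (stab V)).map (res V) : Subgroup _)))
  rintro ⟨g₁, hg₁⟩
  obtain ⟨s, hs, rfl⟩ := Subgroup.mem_map.mp hg₁
  exact ⟨⟨s, hs⟩, rfl⟩

theorem isPGroup_resGrp (V : Submodule K W) {X : Subgroup (W ≃ₗ[K] W)} {q : ℕ}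
    (hX : IsPGroup q X) : IsPGroup q (resGrp V X) :=
  (hX.comap_subtype).map (res V)

theorem resGrp_le_commutator (V : Submodule K W) (A B : Subgroup (W ≃ₗ[K] W))
    (hB : B ≤ stab V) (hA : A ≤ ⁅B, B⁆) : resGrp V A ≤ ⁅resGrp V B, resGrp V B⁆ := by
  unfold resGrp
  rw [← Subgroup.map_commutator]
  apply Subgroup.map_mono
  rw [← Subgroup.map_le_map_iff_of_injective (Subgroup.subtype_injective (stab V)),
    Subgroup.map_commutator, Subgroup.map_subgroupOf_eq_of_le hB]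
  rintro _ ⟨s, hs, rfl⟩
  exact hA (Subgroup.mem_subgroupOf.mp hs)

theorem res_sub_one (V : Submodule K W) (g : stab V) (v : V) :
    (((toE (res V g) - 1) v : V) : W) = (toE (g : W ≃ₗ[K] W) - 1) (v : W) := rfl

end Res

section Moved

variable {K : Type*} [Field K] {W : Type*} [AddCommGroup W] [Module K W]

/-- If `b` (of `3`-power order) moves the weight space `wt Z χ`, and `(a - 1)(b - 1)² = 0`,
where all `b`-conjugates of `a` stabilize the weight space, then `a` is trivial on it. -/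
theorem triv_of_moved [FiniteDimensional K W]
    (Z : Subgroup (W ≃ₗ[K] W)) (hZcomm : ∀ a ∈ Z, ∀ b ∈ Z, a * b = b * a)
    (hZss : ∀ a ∈ Z, ∃ m : ℕ, a ^ m = 1 ∧ (m : K) ≠ 0) (χ : Z → K)
    (b : W ≃ₗ[K] W) (hb : ∀ z ∈ Z, b * z * b⁻¹ ∈ Z) (hb' : ∀ z ∈ Z, b⁻¹ * z * b ∈ Z)
    (m : ℕ) (hbm : b ^ (3 ^ m) = 1) (hmove : (wt Z χ).map (toE b) ≠ wt Z χ)
    (a : W ≃ₗ[K] W) (haV : ∀ j : ℕ, ∀ w ∈ wt Z χ, ((b ^ j)⁻¹ * a * b ^ j) w ∈ wt Z χ)
    (hq : (toE a - 1) * ((toE b - 1) * (toE b - 1)) = 0) :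
    ∀ w ∈ wt Z χ, a w = w := by
  intro w hw
  have hper : ∀ j, 0 < j → j < 3 → (wt Z χ).map (toE (b ^ j)) ≠ wt Z χ := by
    intro j hj0 hj3 h
    have hj : j = 1 ∨ j = 2 := by omega
    rcases hj with rfl | rfl
    · rw [pow_one] at h
      exact hmove h
    · have h1 : Function.IsPeriodicPt (fun V : Submodule K W => V.map (toE b)) 2 (wt Z χ) := by
        show (fun V : Submodule K W => V.map (toE b))^[2] (wt Z χ) = wt Z χ
        rw [iterate_map]
        exact h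
      have h2 : Function.IsPeriodicPt (fun V : Submodule K W => V.map (toE b)) (3 ^ m)
          (wt Z χ) := by
        show (fun V : Submodule K W => V.map (toE b))^[3 ^ m] (wt Z χ) = wt Z χ
        rw [iterate_map, hbm]
        exact Submodule.map_id _
      have h3 := h1.gcd h2
      have h4 : Nat.gcd 2 (3 ^ m) = 1 := Nat.Coprime.pow_right m (by norm_num)
      rw [h4] at h3
      exact hmove h3
  let u : ℕ → W := fun j => ((b ^ j)⁻¹ * a * b ^ j) w - w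
  have hu : ∀ j, u j ∈ wt Z χ := fun j => Submodule.sub_mem _ (haV j w hw) hw
  let v : ℕ → W := fun j => if j = 1 then -(u 1 + u 1) else u j
  have hv : ∀ j, v j ∈ wt Z χ := by
    intro j
    show (if j = 1 then -(u 1 + u 1) else u j) ∈ wt Z χ
    split_ifs
    · exact Submodule.neg_mem _ (Submodule.add_mem _ (hu 1) (hu 1))
    · exact hu j
  have hbu : ∀ j, (b ^ j) (u j) = a ((b ^ j) w) - (b ^ j) w := by
    intro j
    show (b ^ j) (((b ^ j)⁻¹ * a * b ^ j) w - w) = _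
    rw [map_sub, LinearEquiv.mul_apply, LinearEquiv.mul_apply, apply_inv_apply]
  have h0 := congrArg (fun f : Module.End K W => f w) hq
  have h0' : a (b (b w)) - a (b w) - (a (b w) - a w) - (b (b w) - b w - (b w - w)) = 0 := by
    have : ((toE a - 1) * ((toE b - 1) * (toE b - 1))) w
        = a (b (b w)) - a (b w) - (a (b w) - a w) - (b (b w) - b w - (b w - w)) := by
      simp only [Module.End.mul_apply, LinearMap.sub_apply, Module.End.one_apply, toE_apply,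
        map_sub]
      abel
    rw [← this]
    exact h0
  have hsum : ∑ j ∈ Finset.range 3, (b ^ j) (v j) = 0 := by
    rw [Finset.sum_range_succ, Finset.sum_range_succ, Finset.sum_range_one]
    have e0 : v 0 = u 0 := rfl
    have e1 : v 1 = -(u 1 + u 1) := rfl
    have e2 : v 2 = u 2 := rfl
    rw [e0, e1, e2, map_neg, map_add, hbu 0, hbu 1, hbu 2]
    have p2 : (b ^ 2) w = b (b w) := by rw [pow_two]; rfl
    have p1 : (b ^ 1) w = b w := by rw [pow_one]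
    have p0 : (b ^ 0) w = w := by rw [pow_zero]; rfl
    rw [p0, p1, p2, ← h0']
    abel
  have := translates_indep Z hZcomm hZss b hb hb' χ 3 hper v hv hsum 0 (by norm_num)
  have h5 : u 0 = 0 := this
  have h6 : a w - w = 0 := by
    have : u 0 = a w - w := by
      show ((b ^ 0)⁻¹ * a * b ^ 0) w - w = a w - w
      simp
    rw [← this]
    exact h5
  exact sub_eq_zero.mp h6

end Moved

set_option maxHeartbeats 3200000 in
/-- **Linear core, `p = 3`.**  A `3`-group `B ≤ GL(W)` (characteristic `3`) normalizing a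
`2`-group `T`; if `A ≤ [B, B]` is normalized by `B`, has exponent `3`, acts quadratically and
`(a - 1)(b - 1)² = 0` for `a ∈ A`, `b ∈ B`, then `A` centralizes `T`. -/
theorem quad3 {K : Type u} [Field K] [IsAlgClosed K] [CharP K 3] :
    ∀ (d : ℕ) (W : Type v) [AddCommGroup W] [Module K W] [FiniteDimensional K W],
    finrank K W = d →
    ∀ (A B T : Subgroup (W ≃ₗ[K] W)) [Finite B] [Finite T], IsPGroup 3 B → IsPGroup 2 T →
    (∀ b ∈ B, ∀ t ∈ T, b * t * b⁻¹ ∈ T) →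
    A ≤ ⁅B, B⁆ → (∀ b ∈ B, ∀ a ∈ A, b * a * b⁻¹ ∈ A) →
    (∀ a ∈ A, a ^ 3 = 1) →
    (∀ a ∈ A, (toE a - 1) * (toE a - 1) = 0) →
    (∀ a ∈ A, ∀ b ∈ B, (toE a - 1) * ((toE b - 1) * (toE b - 1)) = 0) →
    ∀ a ∈ A, ∀ t ∈ T, a * t * a⁻¹ = t := by
  intro d
  induction d using Nat.strong_induction_on with
  | _ d ih =>
  intro W _ _ _ hd A B T _ _ hB hT hBT hAB' hAn hA3 hq1 hq2
  classical
  have hp3 : Fact (Nat.Prime 3) := ⟨by norm_num⟩
  by_contra hcon
  push Not at hcon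
  have hBBle : ⁅B, B⁆ ≤ B := by
    rw [Subgroup.commutator_le]
    intro g hg h hh
    rw [commutatorElement_def]
    exact mul_mem (mul_mem (mul_mem hg hh) (inv_mem hg)) (inv_mem hh)
  have hAB : A ≤ B := hAB'.trans hBBle
  obtain ⟨T₁, hT₁T, hBT₁, hnc, hmin⟩ := exists_minimal_B A B T hBT hcon
  have hfinT₁ : Finite T₁ :=
    Finite.of_injective (Subgroup.inclusion hT₁T) (Subgroup.inclusion_injective _)
  have hT₁ : IsPGroup 2 T₁ := hT.to_le hT₁T
  have hpow2 : ∀ t ∈ T₁, ∃ j : ℕ, t ^ (2 ^ j) = 1 := by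
    intro t ht
    obtain ⟨j, hj⟩ := hT₁ ⟨t, ht⟩
    exact ⟨j, by simpa using congrArg Subtype.val hj⟩
  have hssT₁ : ∀ t ∈ T₁, ∃ m : ℕ, t ^ m = 1 ∧ (m : K) ≠ 0 := by
    intro t ht
    obtain ⟨j, hj⟩ := hpow2 t ht
    refine ⟨2 ^ j, hj, ?_⟩
    rw [Nat.cast_pow]
    apply pow_ne_zero
    intro h0
    have := (CharP.cast_eq_zero_iff K 3 2).mp h0
    omega
  have hAT₁ : ∀ a ∈ A, ∀ t ∈ T₁, a * t * a⁻¹ ∈ T₁ := fun a ha => hBT₁ a (hAB ha)
  have hsq : ∀ a ∈ A, (toE a - 1) ^ 2 = 0 := fun a ha => by rw [sq]; exact hq1 a ha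
  -- `T₁` is nonabelian
  have hnab : ∃ g ∈ T₁, ∃ h ∈ T₁, g * h ≠ h * g := by
    by_contra hab
    push Not at hab
    obtain ⟨a, ha, t, ht, hat⟩ := hnc
    have h3 := abelian_bound 3 T₁ hab hssT₁ a (hAT₁ a ha) 1 (by rw [pow_one]; exact hA3 a ha)
      ⟨t, ht, by simpa using hat⟩ 2 (hsq a ha)
    omega
  obtain ⟨hgen, hC1, hC2, hC3, hC4⟩ := struct_B A B T₁ hT₁ hA3 hAB hAn hBT₁ hnc hnab hmin
  -- the centre
  let Z : Subgroup (W ≃ₗ[K] W) := T₁ ⊓ Subgroup.centralizer (T₁ : Set (W ≃ₗ[K] W))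
  have hZmem : ∀ z, z ∈ Z ↔ z ∈ T₁ ∧ ∀ k ∈ T₁, k * z = z * k := by
    intro z
    show z ∈ T₁ ⊓ Subgroup.centralizer (T₁ : Set (W ≃ₗ[K] W)) ↔ _
    rw [Subgroup.mem_inf, Subgroup.mem_centralizer_iff]
    rfl
  have hZcomm : ∀ a ∈ Z, ∀ b ∈ Z, a * b = b * a :=
    fun a ha b hb => ((hZmem b).mp hb).2 a ((hZmem a).mp ha).1
  have hZss : ∀ a ∈ Z, ∃ m : ℕ, a ^ m = 1 ∧ (m : K) ≠ 0 :=
    fun a ha => hssT₁ a ((hZmem a).mp ha).1
  have hZB : ∀ b ∈ B, ∀ z ∈ Z, b * z * b⁻¹ ∈ Z := by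
    intro b hb z hzZ
    obtain ⟨hz, hzc⟩ := (hZmem z).mp hzZ
    rw [hZmem]
    refine ⟨hBT₁ b hb z hz, ?_⟩
    intro k hk
    have hk' : b⁻¹ * k * b ∈ T₁ := by
      have := hBT₁ b⁻¹ (inv_mem hb) k hk
      rwa [inv_inv] at this
    have := hzc _ hk'
    calc k * (b * z * b⁻¹) = b * ((b⁻¹ * k * b) * z) * b⁻¹ := by group
      _ = b * (z * (b⁻¹ * k * b)) * b⁻¹ := by rw [this]
      _ = b * z * b⁻¹ * k := by group
  have hZB' : ∀ b ∈ B, ∀ z ∈ Z, b⁻¹ * z * b ∈ Z := by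
    intro b hb z hz
    have := hZB b⁻¹ (inv_mem hb) z hz
    rwa [inv_inv] at this
  have hZA : ∀ a ∈ A, ∀ z ∈ Z, a * z = z * a := by
    intro a ha z hz
    have h1 := hC4 z ((hZmem z).mp hz).1 (fun k hk => (((hZmem z).mp hz).2 k hk).symm) a ha
    calc a * z = (a * z * a⁻¹) * a := by group
      _ = z * a := by rw [h1]
  -- choose a weight
  obtain ⟨a₀, ha₀, t₀, ht₀, hat₀⟩ := hnc
  have hexχ : ∃ χ : Z → K, ∃ w ∈ wt Z χ, (a₀ * t₀ * a₀⁻¹) w ≠ t₀ w := by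
    by_contra hall
    push Not at hall
    apply hat₀
    have htop : (⊤ : Submodule K W) ≤ LinearMap.eqLocus (toE (a₀ * t₀ * a₀⁻¹)) (toE t₀) := by
      rw [← iSup_wt Z hZcomm hZss]
      exact iSup_le (fun χ w hw => hall χ w hw)
    ext w
    exact htop (Submodule.mem_top (x := w))
  obtain ⟨χ, w₀, hw₀, hw₀ne⟩ := hexχ
  -- stability of the weight space
  have hTV : ∀ g ∈ T₁, ∀ v ∈ wt Z χ, g v ∈ wt Z χ := by
    intro g hg v hv
    rw [mem_wt] at hv ⊢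
    intro z
    have hz := (hZmem z).mp z.2
    have h1 : (z : W ≃ₗ[K] W) (g v) = g ((z : W ≃ₗ[K] W) v) := by
      rw [← LinearEquiv.mul_apply, ← LinearEquiv.mul_apply, hz.2 g hg]
    rw [h1, hv z, map_smul]
  have hAV : ∀ a ∈ A, ∀ v ∈ wt Z χ, a v ∈ wt Z χ := by
    intro a ha v hv
    rw [mem_wt] at hv ⊢
    intro z
    have h1 : (z : W ≃ₗ[K] W) (a v) = a ((z : W ≃ₗ[K] W) v) := by
      rw [← LinearEquiv.mul_apply, ← LinearEquiv.mul_apply, hZA a ha z z.2]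
    rw [h1, hv z, map_smul]
  have hBV : ∀ b ∈ B, (wt Z χ).map (toE b) = wt Z χ := by
    intro b hb
    by_contra hne
    obtain ⟨m, hm⟩ := hB ⟨b, hb⟩
    have hbm : b ^ (3 ^ m) = 1 := by simpa using congrArg Subtype.val hm
    have hAtriv : ∀ a ∈ A, ∀ w ∈ wt Z χ, a w = w := by
      intro a ha
      apply triv_of_moved Z hZcomm hZss χ b (hZB b hb) (hZB' b hb) m hbm hne a ?_ (hq2 a ha b hb)
      intro j w hw
      have hmem : (b ^ j)⁻¹ * a * b ^ j ∈ A := by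
        have := hAn (b ^ j)⁻¹ (inv_mem (pow_mem hb j)) a ha
        rwa [inv_inv] at this
      exact hAV _ hmem w hw
    have hTtriv : ∀ g ∈ T₁, ∀ w ∈ wt Z χ, g w = w := by
      let F : Subgroup (W ≃ₗ[K] W) :=
        { carrier := {g | ∀ w ∈ wt Z χ, g w = w}
          one_mem' := fun w _ => rfl
          mul_mem' := by
            intro g h hg hh w hw
            rw [LinearEquiv.mul_apply, hh w hw, hg w hw]
          inv_mem' := by
            intro g hg w hw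
            have := hg w hw
            calc g⁻¹ w = g⁻¹ (g w) := by rw [this]
              _ = w := inv_apply_apply g w }
      have hle : Subgroup.closure {d | ∃ a ∈ A, ∃ t ∈ T₁, d = a * t * a⁻¹ * t⁻¹} ≤ F := by
        rw [Subgroup.closure_le]
        rintro _ ⟨a, ha, t, ht, rfl⟩ w hw
        have h1 : t⁻¹ w ∈ wt Z χ := hTV _ (inv_mem ht) w hw
        have h2 : a⁻¹ (t⁻¹ w) = t⁻¹ w := hAtriv _ (inv_mem ha) _ h1
        rw [LinearEquiv.mul_apply, LinearEquiv.mul_apply, LinearEquiv.mul_apply, h2,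
          apply_inv_apply, hAtriv a ha w hw]
      exact fun g hg => hle (hgen hg)
    apply hw₀ne
    rw [hTtriv _ (hAT₁ a₀ ha₀ t₀ ht₀) w₀ hw₀, hTtriv t₀ ht₀ w₀ hw₀]
  have hBS : B ≤ stab (wt Z χ) := fun b hb => hBV b hb
  have hTS : T₁ ≤ stab (wt Z χ) := fun g hg =>
    mem_stab_of (hTV g hg) (hTV g⁻¹ (inv_mem hg))
  have hAS : A ≤ stab (wt Z χ) := hAB.trans hBS
  by_cases htop : wt Z χ = ⊤
  swap
  · -- descent to the weight space
    have hlt : finrank K (wt Z χ) < d := by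
      rw [← hd]
      exact Submodule.finrank_lt htop
    have hfinB' := finite_resGrp (wt Z χ) B
    have hfinT' := finite_resGrp (wt Z χ) T₁
    have hres := ih (finrank K (wt Z χ)) hlt (wt Z χ) rfl (resGrp (wt Z χ) A)
      (resGrp (wt Z χ) B) (resGrp (wt Z χ) T₁) (isPGroup_resGrp _ hB) (isPGroup_resGrp _ hT₁)
      (by
        rintro b' hb' t' ht'
        obtain ⟨sb, hsb, rfl⟩ := mem_resGrp.mp hb'
        obtain ⟨st, hst, rfl⟩ := mem_resGrp.mp ht'
        rw [mem_resGrp]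
        refine ⟨sb * st * sb⁻¹, hBT₁ _ hsb _ hst, ?_⟩
        rw [map_mul, map_mul, map_inv])
      (resGrp_le_commutator _ A B hBS hAB')
      (by
        rintro b' hb' a' ha'
        obtain ⟨sb, hsb, rfl⟩ := mem_resGrp.mp hb'
        obtain ⟨sa, hsa, rfl⟩ := mem_resGrp.mp ha'
        rw [mem_resGrp]
        refine ⟨sb * sa * sb⁻¹, hAn _ hsb _ hsa, ?_⟩
        rw [map_mul, map_mul, map_inv])
      (by
        rintro a' ha'
        obtain ⟨sa, hsa, rfl⟩ := mem_resGrp.mp ha'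
        rw [← map_pow]
        have : sa ^ 3 = 1 := by
          apply Subtype.ext
          exact hA3 _ hsa
        rw [this, map_one])
      (by
        rintro a' ha'
        obtain ⟨sa, hsa, rfl⟩ := mem_resGrp.mp ha'
        apply LinearMap.ext
        intro v
        apply Subtype.ext
        rw [Module.End.mul_apply, res_sub_one, res_sub_one]
        have := congrArg (fun f : Module.End K W => f (v : W)) (hq1 _ hsa)
        exact this)
      (by
        rintro a' ha' b' hb'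
        obtain ⟨sa, hsa, rfl⟩ := mem_resGrp.mp ha'
        obtain ⟨sb, hsb, rfl⟩ := mem_resGrp.mp hb'
        apply LinearMap.ext
        intro v
        apply Subtype.ext
        rw [Module.End.mul_apply, Module.End.mul_apply, res_sub_one, res_sub_one, res_sub_one]
        have := congrArg (fun f : Module.End K W => f (v : W)) (hq2 _ hsa _ hsb)
        exact this)
      (res (wt Z χ) ⟨a₀, hAS ha₀⟩) (mem_resGrp.mpr ⟨⟨a₀, hAS ha₀⟩, ha₀, rfl⟩)
      (res (wt Z χ) ⟨t₀, hTS ht₀⟩) (mem_resGrp.mpr ⟨⟨t₀, hTS ht₀⟩, ht₀, rfl⟩)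
    apply hw₀ne
    rw [← map_inv, ← map_mul, ← map_mul] at hres
    have h1 := congrArg (fun e : wt Z χ ≃ₗ[K] wt Z χ => ((e ⟨w₀, hw₀⟩ : wt Z χ) : W)) hres
    exact h1
  -- the critical configuration: the centre acts by scalars
  have hZsc : ∀ z ∈ T₁, (∀ k ∈ T₁, z * k = k * z) → ∃ c : K, ∀ w : W, z w = c • w := by
    intro z hz hzc
    have hzZ : z ∈ Z := (hZmem z).mpr ⟨hz, fun k hk => (hzc k hk).symm⟩
    refine ⟨χ ⟨z, hzZ⟩, ?_⟩
    intro w
    have hw : w ∈ wt Z χ := by rw [htop]; exact Submodule.mem_top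
    exact (mem_wt.mp hw) ⟨z, hzZ⟩
  obtain ⟨a₁, ha₁, hnc₁, hcen₁⟩ := exists_central_act 3 A B T₁ hB hAB hAn hBT₁
    ⟨a₀, ha₀, t₀, ht₀, hat₀⟩
  have hfpf := gen_central A B T₁ hT₁ hA3 hAB hBT₁ hmin hC1 hC2 a₁ ha₁ hnc₁ hcen₁
  have hfin := final_config 3 T₁ hnab hC1 hZsc a₁ (hAT₁ a₁ ha₁) 1 le_rfl
    (by rw [pow_one]; exact hA3 a₁ ha₁) (by simpa using hfpf) 2 (hsq a₁ ha₁)
  rcases hfin with h | ⟨_, hcard⟩
  · omega
  have hcard4 : Nat.card (T₁ ⧸ Subgroup.center T₁) = 4 := by rw [hcard]; norm_num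
  have hG5 := comm_trivial_of_card_four B T₁ hB hBT₁ hcard4
  apply hat₀
  have hd : ∀ k ∈ T₁, (a₀ * t₀ * a₀⁻¹ * t₀⁻¹) * k = k * (a₀ * t₀ * a₀⁻¹ * t₀⁻¹) :=
    hG5 a₀ (hAB' ha₀) t₀ ht₀
  have hdT : a₀ * t₀ * a₀⁻¹ * t₀⁻¹ ∈ T₁ := mul_mem (hAT₁ a₀ ha₀ t₀ ht₀) (inv_mem ht₀)
  obtain ⟨j, hj⟩ := hpow2 _ hdT
  exact conj_eq_of_fixed_comm a₀ t₀ (Nat.Coprime.pow_right j (by norm_num)) (hA3 a₀ ha₀)
    (hC4 _ hdT hd a₀ ha₀) hj

end Cfsg.Agent.Lib.Helper1.HHDer3
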