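import Mathlib
import Cfsg.Agent.Lib.Helper1.HHW

/-!
# Reductions for Hall--Higman Theorem B: invariant Sylow subgroups and base change
-/

namespace Cfsg.Agent.Lib.Helper1.HHRed

open Module Cfsg.Agent.Lib.Helper1.HHW

/-- Let `N` be a normal `p'`-subgroup of a finite group, `x` a `p`-element, and `y` an element
not centralizing `N`.  Then some `x`-invariant `q`-subgroup (`q ≠ p`) is not centralized
by `y`. -/
theorem exists_inv_qsub {G : Type*} [Group G] [Finite G] (p : ℕ) [Fact p.Prime]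
    (N : Subgroup G) [N.Normal] (hN : (Nat.card N).Coprime p) (x y : G)
    (n : ℕ) (hx : x ^ (p ^ n) = 1) (hy : ∃ g ∈ N, y * g * y⁻¹ ≠ g) :
    ∃ q : ℕ, q.Prime ∧ q ≠ p ∧ ∃ S : Subgroup G, IsPGroup q S ∧ (∀ g ∈ S, x * g * x⁻¹ ∈ S) ∧
      ∃ g ∈ S, y * g * y⁻¹ ≠ g := by
  classical
  have hp := (Fact.out : p.Prime)
  have hpN : ¬ p ∣ Nat.card N := (Nat.Prime.coprime_iff_not_dvd hp).mp hN.symm
  let C : Subgroup N :=
    { carrier := {g : N | y * (g : G) * y⁻¹ = g}
      one_mem' := by simp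
      mul_mem' := by
        intro a b ha hb
        have ha' : y * (a : G) * y⁻¹ = a := ha
        have hb' : y * (b : G) * y⁻¹ = b := hb
        show y * ((a * b : N) : G) * y⁻¹ = ((a * b : N) : G)
        rw [Subgroup.coe_mul]
        calc y * ((a : G) * b) * y⁻¹ = (y * a * y⁻¹) * (y * b * y⁻¹) := by group
          _ = (a : G) * b := by rw [ha', hb']
      inv_mem' := by
        intro a ha
        have ha' : y * (a : G) * y⁻¹ = a := ha
        show y * ((a⁻¹ : N) : G) * y⁻¹ = ((a⁻¹ : N) : G)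
        rw [Subgroup.coe_inv]
        calc y * (a : G)⁻¹ * y⁻¹ = (y * a * y⁻¹)⁻¹ := by group
          _ = (a : G)⁻¹ := by rw [ha'] }
  have hCmem : ∀ g : N, g ∈ C ↔ y * (g : G) * y⁻¹ = g := fun g => Iff.rfl
  have hCtop : C ≠ ⊤ := by
    intro h
    obtain ⟨g, hg, hne⟩ := hy
    apply hne
    have : (⟨g, hg⟩ : N) ∈ C := by rw [h]; trivial
    exact (hCmem _).mp this
  have hidx : C.index ≠ 1 := fun h => hCtop (Subgroup.index_eq_one.mp h)
  obtain ⟨q, hq, hqdvd⟩ := Nat.exists_prime_and_dvd hidx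
  have hqp : q ≠ p := by
    rintro rfl
    exact hpN (hqdvd.trans (Subgroup.index_dvd_card C))
  have : Fact q.Prime := ⟨hq⟩
  -- the `p`-group generated by conjugation by `x`
  let φ : MulAut N := MulAut.conjNormal x
  let P : Subgroup (MulAut N) := Subgroup.zpowers φ
  have hφ : φ ^ (p ^ n) = 1 := by
    show (MulAut.conjNormal x) ^ (p ^ n) = 1
    rw [← map_pow, hx, map_one]
  have hP : IsPGroup p P := by
    rintro ⟨a, ha⟩
    obtain ⟨j, rfl⟩ := Subgroup.mem_zpowers_iff.mp ha
    refine ⟨n, ?_⟩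
    apply Subtype.ext
    show (φ ^ j) ^ (p ^ n) = 1
    rw [← zpow_natCast, ← zpow_mul, mul_comm, zpow_mul, zpow_natCast, hφ, one_zpow]
  have hcard : ¬ p ∣ Nat.card (Sylow q N) := by
    intro h
    obtain ⟨S₀⟩ : Nonempty (Sylow q N) := inferInstance
    exact hpN ((h.trans (Sylow.card_dvd_index S₀)).trans (Subgroup.index_dvd_card _))
  obtain ⟨S, hS⟩ := hP.nonempty_fixed_point_of_prime_not_dvd_card (Sylow q N) hcard
  have hSφ : φ • S = S := hS ⟨φ, Subgroup.mem_zpowers φ⟩
  refine ⟨q, hq, hqp, (S : Subgroup N).map N.subtype, S.isPGroup'.map N.subtype, ?_, ?_⟩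
  · rintro _ ⟨s, hs, rfl⟩
    have h1 : φ • s ∈ (φ • S : Sylow q N) := by
      show φ • s ∈ ((φ • S : Sylow q N) : Subgroup N)
      rw [Sylow.pointwise_smul_def]
      exact Subgroup.smul_mem_pointwise_smul _ _ _ hs
    rw [hSφ] at h1
    exact ⟨φ • s, h1, rfl⟩
  · by_contra hall
    push Not at hall
    have hle : (S : Subgroup N) ≤ C := by
      intro s hs
      rw [hCmem]
      exact hall _ ⟨s, hs, rfl⟩
    exact S.not_dvd_index (hqdvd.trans (Subgroup.index_dvd_of_le hle))

section BaseChange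

variable (F K V : Type*) [Field F] [Field K] [Algebra F K] [AddCommGroup V] [Module F V]

/-- Base change of linear automorphisms, as a monoid hom. -/
noncomputable def bc :
    (V ≃ₗ[F] V) →* (TensorProduct F K V ≃ₗ[K] TensorProduct F K V) where
  toFun e := e.baseChange F K V V
  map_one' := LinearEquiv.baseChange_one F K V
  map_mul' := LinearEquiv.baseChange_mul F K V

theorem toE_bc (e : V ≃ₗ[F] V) :
    toE (bc F K V e) = Module.End.baseChangeHom F K V (toE e) := rfl

theorem bc_injective : Function.Injective (bc F K V) := by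
  intro e e' h
  have h1 : toE (bc F K V e) = toE (bc F K V e') := by rw [h]
  rw [toE_bc, toE_bc] at h1
  have h2 : LinearMap.baseChangeHom F K V V (toE e) = LinearMap.baseChangeHom F K V V (toE e') := h1
  exact toE_injective (LinearMap.baseChangeHom_injective F V K h2)

theorem bc_sub_one_pow (e : V ≃ₗ[F] V) (r : ℕ) (h : (toE e - 1) ^ r = 0) :
    (toE (bc F K V e) - 1) ^ r = 0 := by
  have h1 : toE (bc F K V e) - 1 = Module.End.baseChangeHom F K V (toE e - 1) := by
    rw [toE_bc, map_sub, map_one]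
  rw [h1, ← map_pow, h, map_zero]

end BaseChange

end Cfsg.Agent.Lib.Helper1.HHRed
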