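import Mathlib
import Cfsg.Agent.Lib.Helper1.HHCoreB
import Cfsg.Agent.Lib.Helper1.HHRed
import Cfsg.Agent.Lib.Helper1.HHDer3
import Cfsg.Agent.Lib.Helper86.ElemAb

/-!
# The derived-length form of Hall--Higman

`hh_derived`: a `p`-group `B` (`p` odd) of automorphisms of an elementary abelian `p`-group `V`,
acting faithfully on a `p'`-group `N` of automorphisms of `V` that it normalizes, such that
`[B, B]` acts quadratically on `V` and centralizes `[V, B, B]`, is abelian.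
-/

namespace Cfsg.Agent.Lib.Helper1.HHDer

open Module Cfsg.Agent.Lib.Helper1.HHW Cfsg.Agent.Lib.Helper1.HHRed
  Cfsg.Agent.Lib.Helper1.HHCoreB Cfsg.Agent.Lib.Helper1.HHDer3 Cfsg.Agent.Lib.Helper1.HHGrp

universe u v

/-- Invariant Sylow subgroups of a normal `p'`-subgroup under a `p`-subgroup. -/
theorem exists_inv_qsub_normal {G : Type*} [Group G] (p : ℕ) [Fact p.Prime]
    (N : Subgroup G) [N.Normal] [Finite N] (hN : (Nat.card N).Coprime p)
    (B : Subgroup G) (hB : IsPGroup p B) (y : G) (hy : ∃ g ∈ N, y * g * y⁻¹ ≠ g) :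
    ∃ q : ℕ, q.Prime ∧ q ≠ p ∧ ∃ S : Subgroup G, S ≤ N ∧ IsPGroup q S ∧
      (∀ b ∈ B, ∀ g ∈ S, b * g * b⁻¹ ∈ S) ∧ ∃ g ∈ S, y * g * y⁻¹ ≠ g := by
  classical
  have hp := (Fact.out : p.Prime)
  have hpN : ¬ p ∣ Nat.card N := (Nat.Prime.coprime_iff_not_dvd hp).mp hN.symm
  let C : Subgroup N :=
    { carrier := {g : N | y * (g : G) * y⁻¹ = g}
      one_mem' := by simp
      mul_mem' := by
        intro a b ha hb
        have ha' : y * (a : G) * y⁻¹ = a := ha
        have hb' : y * (b : G) * y⁻¹ = b := hb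
        show y * ((a * b : N) : G) * y⁻¹ = ((a * b : N) : G)
        rw [Subgroup.coe_mul]
        calc y * ((a : G) * b) * y⁻¹ = (y * a * y⁻¹) * (y * b * y⁻¹) := by group
          _ = (a : G) * b := by rw [ha', hb']
      inv_mem' := by
        intro a ha
        have ha' : y * (a : G) * y⁻¹ = a := ha
        show y * ((a⁻¹ : N) : G) * y⁻¹ = ((a⁻¹ : N) : G)
        rw [Subgroup.coe_inv]
        calc y * (a : G)⁻¹ * y⁻¹ = (y * a * y⁻¹)⁻¹ := by group
          _ = (a : G)⁻¹ := by rw [ha'] }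
  have hCmem : ∀ g : N, g ∈ C ↔ y * (g : G) * y⁻¹ = g := fun g => Iff.rfl
  have hCtop : C ≠ ⊤ := by
    intro h
    obtain ⟨g, hg, hne⟩ := hy
    apply hne
    have : (⟨g, hg⟩ : N) ∈ C := by rw [h]; trivial
    exact (hCmem _).mp this
  have hidx : C.index ≠ 1 := fun h => hCtop (Subgroup.index_eq_one.mp h)
  obtain ⟨q, hq, hqdvd⟩ := Nat.exists_prime_and_dvd hidx
  have hqp : q ≠ p := by
    rintro rfl
    exact hpN (hqdvd.trans (Subgroup.index_dvd_card C))
  have : Fact q.Prime := ⟨hq⟩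
  let P : Subgroup (MulAut N) := B.map (MulAut.conjNormal : G →* MulAut N)
  have hP : IsPGroup p P := hB.map _
  have hcard : ¬ p ∣ Nat.card (Sylow q N) := by
    intro h
    obtain ⟨S₀⟩ : Nonempty (Sylow q N) := inferInstance
    exact hpN ((h.trans (Sylow.card_dvd_index S₀)).trans (Subgroup.index_dvd_card _))
  obtain ⟨S, hS⟩ := hP.nonempty_fixed_point_of_prime_not_dvd_card (Sylow q N) hcard
  refine ⟨q, hq, hqp, (S : Subgroup N).map N.subtype, ?_, S.isPGroup'.map N.subtype, ?_, ?_⟩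
  · rintro _ ⟨s, _, rfl⟩
    exact s.2
  · rintro b hb _ ⟨s, hs, rfl⟩
    have hφ : (MulAut.conjNormal b : MulAut N) • S = S :=
      hS ⟨MulAut.conjNormal b, Subgroup.mem_map_of_mem _ hb⟩
    have h1 : (MulAut.conjNormal b : MulAut N) • s ∈ ((MulAut.conjNormal b : MulAut N) • S : Sylow q N) := by
      show (MulAut.conjNormal b : MulAut N) • s ∈
        (((MulAut.conjNormal b : MulAut N) • S : Sylow q N) : Subgroup N)
      rw [Sylow.pointwise_smul_def]
      exact Subgroup.smul_mem_pointwise_smul _ _ _ hs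
    rw [hφ] at h1
    exact ⟨(MulAut.conjNormal b : MulAut N) • s, h1, rfl⟩
  · by_contra hall
    push Not at hall
    have hle : (S : Subgroup N) ≤ C := by
      intro s hs
      rw [hCmem]
      exact hall _ ⟨s, hs, rfl⟩
    exact S.not_dvd_index (hqdvd.trans (Subgroup.index_dvd_of_le hle))

/-- Invariant Sylow subgroups of a `p'`-subgroup normalized by a `p`-subgroup. -/
theorem exists_inv_qsub_B {G : Type*} [Group G] (p : ℕ) [Fact p.Prime]
    (N B : Subgroup G) [Finite N] (hN : (Nat.card N).Coprime p) (hB : IsPGroup p B)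
    (hBN : ∀ b ∈ B, ∀ n ∈ N, b * n * b⁻¹ ∈ N) (y : G) (hyB : y ∈ B)
    (hy : ∃ g ∈ N, y * g * y⁻¹ ≠ g) :
    ∃ q : ℕ, q.Prime ∧ q ≠ p ∧ ∃ S : Subgroup G, S ≤ N ∧ IsPGroup q S ∧
      (∀ b ∈ B, ∀ g ∈ S, b * g * b⁻¹ ∈ S) ∧ ∃ g ∈ S, y * g * y⁻¹ ≠ g := by
  have hNM : N ≤ Subgroup.normalizer (N : Set G) := Subgroup.le_normalizer
  have hBM : B ≤ Subgroup.normalizer (N : Set G) := by
    intro b hb
    rw [Subgroup.mem_normalizer_iff]
    intro n
    constructor
    · exact hBN b hb n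
    · intro h
      have := hBN b⁻¹ (inv_mem hb) _ h
      have e : b⁻¹ * (b * n * b⁻¹) * b⁻¹⁻¹ = n := by group
      rwa [e] at this
  have hfin : Finite (N.subgroupOf (Subgroup.normalizer (N : Set G))) :=
    Finite.of_equiv _ (Subgroup.subgroupOfEquivOfLe hNM).symm.toEquiv
  have hcardN : (Nat.card (N.subgroupOf (Subgroup.normalizer (N : Set G)))).Coprime p := by
    rw [Nat.card_congr (Subgroup.subgroupOfEquivOfLe hNM).toEquiv]
    exact hN
  obtain ⟨g, hg, hgy⟩ := hy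
  obtain ⟨q, hq, hqp, S', hS'N, hS', hS'B, g', hg', hg'y⟩ :=
    exists_inv_qsub_normal p (N.subgroupOf (Subgroup.normalizer (N : Set G))) hcardN
      (B.subgroupOf (Subgroup.normalizer (N : Set G))) hB.comap_subtype
      (⟨y, hBM hyB⟩ : Subgroup.normalizer (N : Set G))
      ⟨⟨g, hNM hg⟩, Subgroup.mem_subgroupOf.mpr hg, fun h => hgy (congrArg Subtype.val h)⟩
  refine ⟨q, hq, hqp, S'.map (Subgroup.normalizer (N : Set G)).subtype, ?_, hS'.map _, ?_, ?_⟩
  · rintro _ ⟨s, hs, rfl⟩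
    exact Subgroup.mem_subgroupOf.mp (hS'N hs)
  · rintro b hb _ ⟨s, hs, rfl⟩
    exact ⟨⟨b, hBM hb⟩ * s * ⟨b, hBM hb⟩⁻¹, hS'B ⟨b, hBM hb⟩ (Subgroup.mem_subgroupOf.mpr hb) s hs,
      rfl⟩
  · exact ⟨g', ⟨g', hg', rfl⟩, fun h => hg'y (Subtype.ext h)⟩

set_option maxHeartbeats 1600000 in
/-- **Linear core, `p` odd.** A `p`-group `B ≤ GL(W)` (characteristic `p`) acting faithfully on a
`p'`-group `N ≤ GL(W)` that it normalizes; if `[B, B]` acts quadratically and
`(a - 1)(b - 1)² = 0` for `a ∈ [B, B]`, `b ∈ B`, then `[B, B] = 1`. -/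
theorem quad_general (p : ℕ) [Fact p.Prime] (hp2 : p ≠ 2) {K : Type u} [Field K] [IsAlgClosed K]
    [CharP K p] (W : Type v) [AddCommGroup W] [Module K W] [FiniteDimensional K W]
    (N B : Subgroup (W ≃ₗ[K] W)) [Finite N] [Finite B] (hN : (Nat.card N).Coprime p)
    (hB : IsPGroup p B)
    (hBN : ∀ b ∈ B, ∀ n ∈ N, b * n * b⁻¹ ∈ N)
    (hfaith : ∀ b ∈ B, (∀ n ∈ N, b * n = n * b) → b = 1)
    (hq1 : ∀ a ∈ ⁅B, B⁆, (toE a - 1) * (toE a - 1) = 0)
    (hq2 : ∀ a ∈ ⁅B, B⁆, ∀ b ∈ B, (toE a - 1) * ((toE b - 1) * (toE b - 1)) = 0) :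
    ∀ a ∈ ⁅B, B⁆, a = 1 := by
  classical
  have hp := (Fact.out : p.Prime)
  have hp3 : 3 ≤ p := by have := hp.two_le; omega
  have hBBle : ⁅B, B⁆ ≤ B := by
    rw [Subgroup.commutator_le]
    intro g hg h hh
    rw [commutatorElement_def]
    exact mul_mem (mul_mem (mul_mem hg hh) (inv_mem hg)) (inv_mem hh)
  have key : ∀ a ∈ ⁅B, B⁆, a ≠ 1 → p = 3 ∧ a ^ 3 = 1 ∧ ∃ T : Subgroup (W ≃ₗ[K] W), T ≤ N ∧
      IsPGroup 2 T ∧ (∀ b ∈ B, ∀ t ∈ T, b * t * b⁻¹ ∈ T) ∧ ∃ t ∈ T, a * t * a⁻¹ ≠ t := by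
    intro a ha ha1
    have haB : a ∈ B := hBBle ha
    obtain ⟨k, hk⟩ := hB ⟨a, haB⟩
    have hak : a ^ (p ^ k) = 1 := by simpa using congrArg Subtype.val hk
    obtain ⟨n, hnk, hn⟩ := (Nat.dvd_prime_pow hp).mp (orderOf_dvd_of_pow_eq_one hak)
    have hn1 : 1 ≤ n := by
      by_contra h0
      have : n = 0 := by omega
      rw [this, pow_zero] at hn
      exact ha1 (orderOf_eq_one_iff.mp hn)
    have haP : a ^ (p ^ n) = 1 := by rw [← hn]; exact pow_orderOf_eq_one a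
    have hy1 : a ^ (p ^ (n - 1)) ≠ 1 := by
      intro h
      have h1 := orderOf_dvd_of_pow_eq_one h
      rw [hn] at h1
      have h2 := Nat.le_of_dvd (Nat.pos_of_ne_zero (pow_ne_zero _ hp.ne_zero)) h1
      have h3 : p ^ (n - 1) < p ^ n := Nat.pow_lt_pow_right hp.one_lt (by omega)
      omega
    have hyB : a ^ (p ^ (n - 1)) ∈ B := pow_mem haB _
    have hyN : ∃ g ∈ N, a ^ (p ^ (n - 1)) * g * (a ^ (p ^ (n - 1)))⁻¹ ≠ g := by
      by_contra hall
      push Not at hall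
      apply hy1
      apply hfaith _ hyB
      intro g hg
      have := hall g hg
      calc a ^ (p ^ (n - 1)) * g
          = (a ^ (p ^ (n - 1)) * g * (a ^ (p ^ (n - 1)))⁻¹) * a ^ (p ^ (n - 1)) := by group
        _ = g * a ^ (p ^ (n - 1)) := by rw [this]
    obtain ⟨q, hq, hqp, S, hSN, hS, hSB, g, hg, hgy⟩ :=
      exists_inv_qsub_B p N B hN hB hBN _ hyB hyN
    have : Fact q.Prime := ⟨hq⟩
    have hfinS : Finite S :=
      Finite.of_injective (Subgroup.inclusion hSN) (Subgroup.inclusion_injective _)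
    have hsq : (toE a - 1) ^ 2 = 0 := by rw [sq]; exact hq1 a ha
    have hc := core p q hqp.symm (finrank K W) W rfl S hS a (hSB a haB) n hn1 haP ⟨g, hg, hgy⟩ 2
      hsq
    rcases hc with h | ⟨_, n₀, m, h1, h2, h3, h4, h5⟩
    · exfalso
      have : p ^ 1 ≤ p ^ n := Nat.pow_le_pow_right hp.pos hn1
      rw [pow_one] at this
      omega
    · have h6 : 0 < p ^ (n - n₀) := Nat.pos_of_ne_zero (pow_ne_zero _ hp.ne_zero)
      have h7 : p ^ n₀ - 1 ≤ 2 := le_trans (Nat.le_mul_of_pos_left _ h6) h5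
      have h8 : p ^ 1 ≤ p ^ n₀ := Nat.pow_le_pow_right hp.pos h1
      rw [pow_one] at h8
      have hp_eq : p = 3 := by omega
      subst hp_eq
      have hn₀ : n₀ = 1 := by
        by_contra hne
        have h9 : 2 ≤ n₀ := by omega
        have h10 : 3 ^ 2 ≤ 3 ^ n₀ := Nat.pow_le_pow_right (by norm_num) h9
        omega
      subst hn₀
      have hn' : n = 1 := by
        by_contra hne
        have h9 : 1 ≤ n - 1 := by omega
        have h10 : 3 ^ 1 ≤ 3 ^ (n - 1) := Nat.pow_le_pow_right (by norm_num) h9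
        have h11 : 3 ^ (n - 1) * (3 ^ 1 - 1) = 3 ^ (n - 1) * 2 := by norm_num
        rw [h11] at h5
        omega
      subst hn'
      have hq2' : q = 2 := by
        have h9 : q ^ m = 2 := by rw [← h4]; norm_num
        have hdvd : q ∣ 2 := by rw [← h9]; exact dvd_pow_self q (by omega)
        exact (Nat.prime_dvd_prime_iff_eq hq Nat.prime_two).mp hdvd
      subst hq2'
      refine ⟨rfl, by simpa using haP, S, hSN, hS, hSB, g, hg, by simpa using hgy⟩
  intro a ha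
  by_contra ha1
  obtain ⟨hp_eq, ha3, T, hTN, hT, hTB, t, ht, hat⟩ := key a ha ha1
  subst hp_eq
  have hfinT : Finite T :=
    Finite.of_injective (Subgroup.inclusion hTN) (Subgroup.inclusion_injective _)
  have hA3 : ∀ a' ∈ ⁅B, B⁆, a' ^ 3 = 1 := by
    intro a' ha'
    by_cases h1 : a' = 1
    · rw [h1, one_pow]
    · exact (key a' ha' h1).2.1
  have hAn : ∀ b ∈ B, ∀ a' ∈ ⁅B, B⁆, b * a' * b⁻¹ ∈ ⁅B, B⁆ :=
    fun b hb => conj_commutator B b (fun g hg => mul_mem (mul_mem hb hg) (inv_mem hb))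
  exact hat (quad3 (finrank K W) W rfl ⁅B, B⁆ B T hB hT hTB le_rfl hAn hA3 hq1 hq2 a ha t ht)

section elemAb

open Cfsg.Agent.Lib.Helper86.ElemAb

theorem lin_sub_one_apply {V : Type*} [CommGroup V] (p : ℕ) [Fact p.Prime]
    [Module (ZMod p) (Additive V)]
    (α : MulAut V) (x : Additive V) :
    (toE (autEquivLin (H := V) (p := p) α) - 1) x
      = Additive.ofMul (α (Additive.toMul x) * (Additive.toMul x)⁻¹) := by
  rw [LinearMap.sub_apply, Module.End.one_apply, toE_apply]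
  show Additive.ofMul (α (Additive.toMul x)) - x = _
  conv_lhs => rw [← ofMul_toMul x, toMul_ofMul, ← ofMul_div, div_eq_mul_inv]

set_option maxHeartbeats 800000 in
theorem hh_derived_aux {V : Type*} [CommGroup V] [Finite V] (p : ℕ) [Fact p.Prime] (hp2 : p ≠ 2)
    [Module (ZMod p) (Additive V)]
    (N B : Subgroup (MulAut V)) (hN : (Nat.card N).Coprime p) (hB : IsPGroup p B)
    (hBN : ∀ b ∈ B, ∀ n ∈ N, b * n * b⁻¹ ∈ N)
    (hfaith : ∀ b ∈ B, (∀ n ∈ N, b * n = n * b) → b = 1)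
    (h1 : ∀ a ∈ ⁅B, B⁆, ∀ a' ∈ ⁅B, B⁆, ∀ v : V, a (a' v * v⁻¹) = a' v * v⁻¹)
    (h2 : ∀ a ∈ ⁅B, B⁆, ∀ b ∈ B, ∀ b' ∈ B, ∀ v : V,
      a (b (b' v * v⁻¹) * (b' v * v⁻¹)⁻¹) = b (b' v * v⁻¹) * (b' v * v⁻¹)⁻¹) :
    ⁅B, B⁆ = ⊥ := by
  classical
  have hfinV : Finite (Additive V) := inferInstanceAs (Finite V)
  have hfinM : Module.Finite (ZMod p) (Additive V) := Module.Finite.of_finite
  have hfinAut : Finite (MulAut V) :=
    Finite.of_injective (fun α : MulAut V => (α : V → V)) (fun α β h => MulEquiv.ext (congrFun h))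
  let Θ : MulAut V →* (TensorProduct (ZMod p) (AlgebraicClosure (ZMod p)) (Additive V)
      ≃ₗ[AlgebraicClosure (ZMod p)] TensorProduct (ZMod p) (AlgebraicClosure (ZMod p)) (Additive V)) :=
    (bc (ZMod p) (AlgebraicClosure (ZMod p)) (Additive V)).comp
      (autEquivLin (H := V) (p := p)).toMonoidHom
  have hΘ : Function.Injective Θ :=
    (bc_injective (ZMod p) (AlgebraicClosure (ZMod p)) (Additive V)).comp
      (autEquivLin (H := V) (p := p)).injective
  have hΘE : ∀ α : MulAut V, toE (Θ α) - 1 =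
      Module.End.baseChangeHom (ZMod p) (AlgebraicClosure (ZMod p)) (Additive V)
        (toE (autEquivLin (H := V) (p := p) α) - 1) := by
    intro α
    rw [map_sub, map_one]
    rfl
  have hfinN : Finite (N.map Θ) :=
    Finite.of_equiv _ (N.equivMapOfInjective Θ hΘ).toEquiv
  have hfinB : Finite (B.map Θ) :=
    Finite.of_equiv _ (B.equivMapOfInjective Θ hΘ).toEquiv
  have hN' : (Nat.card (N.map Θ)).Coprime p := by
    rw [← Nat.card_congr (N.equivMapOfInjective Θ hΘ).toEquiv]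
    exact hN
  have hBN' : ∀ b ∈ B.map Θ, ∀ n ∈ N.map Θ, b * n * b⁻¹ ∈ N.map Θ := by
    rintro _ ⟨b, hb, rfl⟩ _ ⟨n, hn, rfl⟩
    rw [← map_inv, ← map_mul, ← map_mul]
    exact Subgroup.mem_map_of_mem Θ (hBN b hb n hn)
  have hfaith' : ∀ b ∈ B.map Θ, (∀ n ∈ N.map Θ, b * n = n * b) → b = 1 := by
    rintro _ ⟨b, hb, rfl⟩ h
    have : b = 1 := hfaith b hb (fun n hn => hΘ (by
      rw [map_mul, map_mul]
      exact h _ (Subgroup.mem_map_of_mem Θ hn)))
    rw [this, map_one]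
  have hcomm : ⁅B.map Θ, B.map Θ⁆ = (⁅B, B⁆).map Θ := (Subgroup.map_commutator B B Θ).symm
  have hq1 : ∀ a ∈ ⁅B.map Θ, B.map Θ⁆, (toE a - 1) * (toE a - 1) = 0 := by
    intro a' ha'
    rw [hcomm] at ha'
    obtain ⟨a, ha, rfl⟩ := ha'
    rw [hΘE, ← map_mul]
    have : (toE (autEquivLin (H := V) (p := p) a) - 1) * (toE (autEquivLin (H := V) (p := p) a) - 1)
        = 0 := by
      apply LinearMap.ext
      intro x
      rw [Module.End.mul_apply, lin_sub_one_apply p a x, lin_sub_one_apply, toMul_ofMul,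
        h1 a ha a ha, mul_inv_cancel]
      rfl
    rw [this, map_zero]
  have hq2 : ∀ a ∈ ⁅B.map Θ, B.map Θ⁆, ∀ b ∈ B.map Θ,
      (toE a - 1) * ((toE b - 1) * (toE b - 1)) = 0 := by
    intro a' ha' b' hb'
    rw [hcomm] at ha'
    obtain ⟨a, ha, rfl⟩ := ha'
    obtain ⟨b, hb, rfl⟩ := hb'
    rw [hΘE, hΘE, ← map_mul, ← map_mul]
    have : (toE (autEquivLin (H := V) (p := p) a) - 1) *
        ((toE (autEquivLin (H := V) (p := p) b) - 1) * (toE (autEquivLin (H := V) (p := p) b) - 1))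
        = 0 := by
      apply LinearMap.ext
      intro x
      rw [Module.End.mul_apply, Module.End.mul_apply, lin_sub_one_apply p b x, lin_sub_one_apply,
        lin_sub_one_apply, toMul_ofMul, toMul_ofMul, h2 a ha b hb b hb, mul_inv_cancel]
      rfl
    rw [this, map_zero]
  have hres := quad_general p hp2 (K := AlgebraicClosure (ZMod p))
    (TensorProduct (ZMod p) (AlgebraicClosure (ZMod p)) (Additive V)) (N.map Θ) (B.map Θ) hN'
    (hB.map Θ) hBN' hfaith' hq1 hq2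
  rw [Subgroup.eq_bot_iff_forall]
  intro a ha
  apply hΘ
  rw [map_one]
  apply hres
  rw [hcomm]
  exact Subgroup.mem_map_of_mem Θ ha

/-- **Hall--Higman, derived-length form.** `V` an elementary abelian `p`-group (`p` odd), `N` a
`p'`-group and `B` a `p`-group of automorphisms of `V`, `B` normalizing `N` and acting faithfully
on it.  If `[B, B]` centralizes `[V, [B, B]]` and `[V, B, B]`, then `B` is abelian. -/
theorem hh_derived {V : Type*} [Group V] [Finite V] (p : ℕ) [Fact p.Prime] (hp2 : p ≠ 2)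
    (hVc : ∀ a b : V, a * b = b * a) (hVp : ∀ a : V, a ^ p = 1)
    (N B : Subgroup (MulAut V)) (hN : (Nat.card N).Coprime p) (hB : IsPGroup p B)
    (hBN : ∀ b ∈ B, ∀ n ∈ N, b * n * b⁻¹ ∈ N)
    (hfaith : ∀ b ∈ B, (∀ n ∈ N, b * n = n * b) → b = 1)
    (h1 : ∀ a ∈ ⁅B, B⁆, ∀ a' ∈ ⁅B, B⁆, ∀ v : V, a (a' v * v⁻¹) = a' v * v⁻¹)
    (h2 : ∀ a ∈ ⁅B, B⁆, ∀ b ∈ B, ∀ b' ∈ B, ∀ v : V,
      a (b (b' v * v⁻¹) * (b' v * v⁻¹)⁻¹) = b (b' v * v⁻¹) * (b' v * v⁻¹)⁻¹) :
    ⁅B, B⁆ = ⊥ := by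
  let i1 : CommGroup V := { (inferInstance : Group V) with mul_comm := hVc }
  let i2 : Module (ZMod p) (Additive V) := AddCommGroup.zmodModule (by
    intro x
    show Additive.ofMul (Additive.toMul x ^ p) = 0
    rw [hVp]; rfl)
  exact hh_derived_aux p hp2 N B hN hB hBN hfaith h1 h2

end elemAb

end Cfsg.Agent.Lib.Helper1.HHDer
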