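import Mathlib
import Cfsg.Agent.S0059
import Cfsg.Agent.Lib.Helper30.PiHall

set_option autoImplicit false

/-!
# Invariant Sylow subgroups under a coprime abelian complement

`G = L ⋊ H` finite, `L` normal, `H` abelian, `|L|`, `|H|` coprime, `q` a prime not dividing `|H|`
(`Setup L H q`).  Via Glauberman's lemma (`Cfsg.Agent.S0059`):

* `exists_inv_le`: every subgroup `M ⊇ H` has an `H`-invariant Sylow `q`-subgroup;
* `exists_inv_ge`: every `H`-invariant `q`-subgroup lies in an `H`-invariant Sylow `q`-subgroup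
  of `G`;
* `inv_conj'`: two `H`-invariant Sylow `q`-subgroups of `G` are conjugate under `C_L(H)`;
* `exists_conj_mem`: if `P` is an `H`-invariant Sylow `q`-subgroup and `y ∈ H`, every
  `q`-element of `C_G(y)` is `C_G(y)`-conjugate into `P`.
-/

namespace Cfsg.Agent.Lib.Helper1.InvSyl

open Cfsg.Agent.Lib.Helper30.PiHall

universe u

section TypeLevel

variable {M : Type u} [Group M] [Finite M]

omit [Finite M] in
/-- Sylow `q`-subgroups lie in a normal subgroup of index prime to `q` -/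
theorem sylow_le_of_index (K : Subgroup M) [K.Normal] (q : ℕ) [Fact q.Prime]
    (hq : ¬ q ∣ K.index) (S : Sylow q M) : (S : Subgroup M) ≤ K := by
  intro x hx
  obtain ⟨k, hk⟩ := (IsPGroup.iff_orderOf.mp S.isPGroup') ⟨x, hx⟩
  have hk' : orderOf x = q ^ k := by rw [← hk, Subgroup.orderOf_mk]
  have h2 : orderOf (QuotientGroup.mk' K x) ∣ q ^ k := by
    rw [← hk']; exact orderOf_map_dvd _ x
  have h3 : orderOf (QuotientGroup.mk' K x) ∣ K.index := by
    rw [Subgroup.index_eq_card]; exact orderOf_dvd_natCard _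
  have hcop : Nat.Coprime (q ^ k) K.index :=
    Nat.Coprime.pow_left _ ((Nat.Prime.coprime_iff_not_dvd Fact.out).mpr hq)
  have h4 : orderOf (QuotientGroup.mk' K x) = 1 := Nat.eq_one_of_dvd_coprimes hcop h2 h3
  rw [orderOf_eq_one_iff] at h4
  exact (QuotientGroup.eq_one_iff x).mp h4

theorem trans_sylow (K : Subgroup M) [K.Normal] (q : ℕ) [Fact q.Prime]
    (hq : ¬ q ∣ K.index) (S S' : Sylow q M) : ∃ k ∈ K, k • S = S' := by
  have h1 := sylow_le_of_index K q hq S
  have h2 := sylow_le_of_index K q hq S'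
  obtain ⟨k, hk⟩ := MulAction.exists_smul_eq K (S.subtype h1) (S'.subtype h2)
  refine ⟨k, k.2, ?_⟩
  rw [Sylow.smul_subtype] at hk
  exact Sylow.subtype_injective hk

omit [Finite M] in
theorem conj_mem_of_smul_eq {q : ℕ} [Fact q.Prime] {S S' : Sylow q M} {g : M} (h : g • S = S')
    {x : M} (hx : x ∈ (S : Subgroup M)) : g * x * g⁻¹ ∈ (S' : Subgroup M) := by
  rw [← h, Sylow.coe_subgroup_smul]
  have := Subgroup.smul_mem_pointwise_smul x (MulAut.conj g) (S : Subgroup M) hx
  simpa [MulAut.smul_def] using this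

theorem exists_inv (K H : Subgroup M) [K.Normal] (hc : Subgroup.IsComplement' K H)
    (hcop : (Nat.card K).Coprime (Nat.card H)) (hab : ∀ x ∈ H, ∀ y ∈ H, x * y = y * x)
    (q : ℕ) [Fact q.Prime] (hq : ¬ q ∣ Nat.card H) :
    ∃ S : Sylow q M, ∀ h ∈ H, h • S = S := by
  have hsolv : Group.IsSolvable H :=
    Group.isSolvable_of_comm (fun a b => Subtype.ext (hab a a.2 b b.2))
  have hidx : K.index = Nat.card H := hc.symm.index_eq_card
  obtain ⟨S₀⟩ : Nonempty (Sylow q M) := inferInstance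
  exact Cfsg.Agent.S0059.glauberman_exists K H hc hcop (Or.inr hsolv)
    (fun S S' => trans_sylow K q (by rw [hidx]; exact hq) S S') S₀

theorem inv_conj (K H : Subgroup M) [K.Normal] (hc : Subgroup.IsComplement' K H)
    (hcop : (Nat.card K).Coprime (Nat.card H)) (hab : ∀ x ∈ H, ∀ y ∈ H, x * y = y * x)
    (q : ℕ) [Fact q.Prime] (hq : ¬ q ∣ Nat.card H) (S S' : Sylow q M)
    (hS : ∀ h ∈ H, h • S = S) (hS' : ∀ h ∈ H, h • S' = S') :
    ∃ k ∈ K ⊓ Subgroup.centralizer (H : Set M), k • S = S' := by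
  have hsolv : Group.IsSolvable H :=
    Group.isSolvable_of_comm (fun a b => Subtype.ext (hab a a.2 b b.2))
  have hidx : K.index = Nat.card H := hc.symm.index_eq_card
  exact Cfsg.Agent.S0059.glauberman_conj K H hc hcop (Or.inr hsolv)
    (fun S S' => trans_sylow K q (by rw [hidx]; exact hq) S S') S S' hS hS'

end TypeLevel

section SubgroupLevel

variable {G : Type u} [Group G] [Finite G]

/-- `Q` is normalized by `H` -/
def Inv (H Q : Subgroup G) : Prop := ∀ h ∈ H, ∀ x ∈ Q, h * x * h⁻¹ ∈ Q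

/-- `G = L ⋊ H` with `H` abelian, coprime orders, `q` a prime not dividing `|H|` -/
structure Setup (L H : Subgroup G) (q : ℕ) : Prop where
  normal : L.Normal
  compl : Subgroup.IsComplement' L H
  cop : (Nat.card L).Coprime (Nat.card H)
  ab : ∀ x ∈ H, ∀ y ∈ H, x * y = y * x
  prime : q.Prime
  ndvd : ¬ q ∣ Nat.card H

theorem Inv.le_normalizer {H Q : Subgroup G} (h : Inv H Q) :
    H ≤ Subgroup.normalizer (Q : Set G) :=
  fun g hg => Subgroup.mem_normalizer_fintype (fun x hx => h g hg x hx)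

/-- every subgroup containing `H` has an `H`-invariant Sylow `q`-subgroup -/
theorem exists_inv_le {L H : Subgroup G} {q : ℕ} (hS : Setup L H q) (M : Subgroup G)
    (hHM : H ≤ M) :
    ∃ Q : Subgroup G, Q ≤ M ∧ Nat.card Q = q ^ (Nat.card M).factorization q ∧ Inv H Q := by
  have := hS.normal
  have : Fact q.Prime := ⟨hS.prime⟩
  have hc : Subgroup.IsComplement' (L.subgroupOf M) (H.subgroupOf M) :=
    Cfsg.Agent.S0001.compl_subgroupOf hS.compl M (Or.inr hHM)
  have hcard : Nat.card (H.subgroupOf M) = Nat.card H :=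
    Cfsg.Agent.S0001.card_subgroupOf_of_le hHM
  have hcop : (Nat.card (L.subgroupOf M)).Coprime (Nat.card (H.subgroupOf M)) := by
    rw [hcard]
    exact hS.cop.coprime_dvd_left (Cfsg.Agent.S0001.card_subgroupOf_dvd L M)
  have hab : ∀ x ∈ H.subgroupOf M, ∀ y ∈ H.subgroupOf M, x * y = y * x := by
    intro x hx y hy
    exact Subtype.ext (hS.ab x hx y hy)
  obtain ⟨S, hSinv⟩ := exists_inv (L.subgroupOf M) (H.subgroupOf M) hc hcop hab q
    (by rw [hcard]; exact hS.ndvd)
  refine ⟨(S : Subgroup M).map M.subtype, Subgroup.map_subtype_le _, ?_, ?_⟩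
  · rw [Subgroup.card_subtype]; exact Sylow.card_eq_multiplicity S
  · intro h hh x hx
    obtain ⟨x', hx', rfl⟩ := Subgroup.mem_map.mp hx
    have h1 := hSinv ⟨h, hHM hh⟩ (Subgroup.mem_subgroupOf.mpr hh)
    have h2 := conj_mem_of_smul_eq h1 hx'
    exact Subgroup.mem_map.mpr ⟨_, h2, rfl⟩

/-- two `H`-invariant Sylow `q`-subgroups are conjugate under `C_L(H)` -/
theorem inv_conj' {L H : Subgroup G} {q : ℕ} (hS : Setup L H q) (P P' : Subgroup G)
    (hP : Nat.card P = q ^ (Nat.card G).factorization q)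
    (hP' : Nat.card P' = q ^ (Nat.card G).factorization q)
    (hi : Inv H P) (hi' : Inv H P') :
    ∃ c ∈ L, (∀ h ∈ H, c * h = h * c) ∧ ∀ x ∈ P, c * x * c⁻¹ ∈ P' := by
  have := hS.normal
  have : Fact q.Prime := ⟨hS.prime⟩
  let S : Sylow q G := Sylow.ofCard P hP
  let S' : Sylow q G := Sylow.ofCard P' hP'
  have h1 : ∀ h ∈ H, h • S = S := fun h hh =>
    Sylow.smul_eq_iff_mem_normalizer.mpr (hi.le_normalizer hh)
  have h2 : ∀ h ∈ H, h • S' = S' := fun h hh =>
    Sylow.smul_eq_iff_mem_normalizer.mpr (hi'.le_normalizer hh)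
  obtain ⟨k, hk, hkS⟩ := inv_conj L H hS.compl hS.cop hS.ab q hS.ndvd S S' h1 h2
  refine ⟨k, hk.1, ?_, ?_⟩
  · intro h hh
    exact (Subgroup.mem_centralizer_iff.mp hk.2 h hh).symm
  · intro x hx
    exact conj_mem_of_smul_eq hkS hx

/-- every `H`-invariant `q`-subgroup lies in an `H`-invariant Sylow `q`-subgroup -/
theorem exists_inv_ge {L H : Subgroup G} {q : ℕ} (hS : Setup L H q) :
    ∀ (n : ℕ) (Q : Subgroup G), IsPGroup q Q → Inv H Q → Nat.card G - Nat.card Q = n →
      ∃ P : Subgroup G, Q ≤ P ∧ Nat.card P = q ^ (Nat.card G).factorization q ∧ Inv H P := by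
  have : Fact q.Prime := ⟨hS.prime⟩
  intro n
  induction n using Nat.strong_induction_on with
  | _ n ih =>
    intro Q hQ hi hn
    have hHN : H ≤ Subgroup.normalizer (Q : Set G) := hi.le_normalizer
    obtain ⟨S, hSN, hScard, hSi⟩ := exists_inv_le hS (Subgroup.normalizer (Q : Set G)) hHN
    have hQS : Q ≤ S := by
      obtain ⟨g, hg, hgQ⟩ := conj_into (Subgroup.normalizer (Q : Set G)) hS.prime
        Subgroup.le_normalizer hSN hQ hScard
      intro x hx
      have h1 : g⁻¹ * x * g ∈ Q := (Subgroup.mem_normalizer_iff''.mp hg x).mp hx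
      have h2 := hgQ _ h1
      have h3 : g * (g⁻¹ * x * g) * g⁻¹ = x := by group
      rwa [h3] at h2
    have hSq : IsPGroup q S := IsPGroup.of_card hScard
    by_cases hlt : Nat.card Q < Nat.card S
    · have hle : Nat.card S ≤ Nat.card G := Subgroup.card_le_card_group S
      obtain ⟨P, hSP, hPc, hPi⟩ := ih (Nat.card G - Nat.card S) (by omega) S hSq hSi rfl
      exact ⟨P, hQS.trans hSP, hPc, hPi⟩
    · have hEq : Q = S := Subgroup.eq_of_le_of_card_ge hQS (not_lt.mp hlt)
      refine ⟨Q, le_rfl, ?_, hi⟩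
      set v' := (Nat.card (Subgroup.normalizer (Q : Set G))).factorization q with hv'
      have hQc : Nat.card Q = q ^ v' := by rw [hEq]; exact hScard
      by_contra hne
      have hv'le : v' ≤ (Nat.card G).factorization q :=
        (Nat.factorization_le_iff_dvd Nat.card_pos.ne' Nat.card_pos.ne').mpr
          (Subgroup.card_subgroup_dvd_card _) q
      have hv'lt : v' < (Nat.card G).factorization q :=
        lt_of_le_of_ne hv'le (fun e => hne (by rw [hQc, e]))
      have hdvd : q ^ (v' + 1) ∣ Nat.card G :=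
        (hS.prime.pow_dvd_iff_le_factorization Nat.card_pos.ne').mpr hv'lt
      have h3 := Sylow.prime_dvd_card_quotient_normalizer hdvd hQc
      have h4 := Subgroup.card_eq_card_quotient_mul_card_subgroup
        (Q.comap (Subgroup.normalizer (Q : Set G)).subtype)
      have h5 : Nat.card (Q.comap (Subgroup.normalizer (Q : Set G)).subtype) = Nat.card Q :=
        Cfsg.Agent.S0001.card_subgroupOf_of_le Subgroup.le_normalizer
      have h6 : q ^ (v' + 1) ∣ Nat.card (Subgroup.normalizer (Q : Set G)) := by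
        rw [h4, h5, hQc, pow_succ, mul_comm]
        exact Nat.mul_dvd_mul_right h3 _
      have h7 := (hS.prime.pow_dvd_iff_le_factorization Nat.card_pos.ne').mp h6
      omega

/-- `q`-elements of `C_G(y)`, `y ∈ H`, are `C_G(y)`-conjugate into an `H`-invariant Sylow -/
theorem exists_conj_mem {L H : Subgroup G} {q : ℕ} (hS : Setup L H q) (P : Subgroup G)
    (hP : Nat.card P = q ^ (Nat.card G).factorization q) (hi : Inv H P) (y : G) (hy : y ∈ H)
    (u : G) (hu : ∃ k : ℕ, orderOf u = q ^ k) (huy : u * y = y * u) :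
    ∃ c : G, c * y = y * c ∧ c * u * c⁻¹ ∈ P := by
  have : Fact q.Prime := ⟨hS.prime⟩
  set M := Subgroup.centralizer ({y} : Set G) with hM
  have hmemM : ∀ g : G, g * y = y * g → g ∈ M := by
    intro g hg
    rw [hM, Subgroup.mem_centralizer_iff]
    intro z hz
    rw [Set.mem_singleton_iff] at hz
    rw [hz]; exact hg.symm
  have hHM : H ≤ M := fun h hh => hmemM h (hS.ab h hh y hy)
  obtain ⟨Q, hQM, hQc, hQi⟩ := exists_inv_le hS M hHM
  have hQq : IsPGroup q Q := IsPGroup.of_card hQc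
  obtain ⟨P', hQP', hP'c, hP'i⟩ := exists_inv_ge hS _ Q hQq hQi rfl
  obtain ⟨c₀, _, hc₀H, hc₀P⟩ := inv_conj' hS P' P hP'c hP hP'i hi
  have hc₀M : c₀ ∈ M := hmemM c₀ (hc₀H y hy)
  have hQ₁M : cj c₀ Q ≤ M := by
    intro x hx
    obtain ⟨z, hz, rfl⟩ := mem_cj.mp hx
    exact M.mul_mem (M.mul_mem hc₀M (hQM hz)) (M.inv_mem hc₀M)
  have hQ₁P : cj c₀ Q ≤ P := by
    intro x hx
    obtain ⟨z, hz, rfl⟩ := mem_cj.mp hx
    exact hc₀P z (hQP' hz)
  have hQ₁c : Nat.card (cj c₀ Q) = q ^ (Nat.card M).factorization q := by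
    rw [card_cj]; exact hQc
  have huM : Subgroup.zpowers u ≤ M := by
    rw [Subgroup.zpowers_le]
    exact hmemM u huy
  have huq : IsPGroup q (Subgroup.zpowers u) := by
    obtain ⟨k, hk⟩ := hu
    exact IsPGroup.of_card (by rw [Nat.card_zpowers]; exact hk)
  obtain ⟨g, hgM, hg⟩ := conj_into M hS.prime huM hQ₁M huq hQ₁c
  refine ⟨g, ?_, hQ₁P (hg u (Subgroup.mem_zpowers u))⟩
  exact (Subgroup.mem_centralizer_iff.mp hgM y (Set.mem_singleton y)).symm

end SubgroupLevel

end Cfsg.Agent.Lib.Helper1.InvSyl
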