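import Cfsg.Agent.Lib.Helper1.M24BlkLSChk

/-!
# S5006 piece LSOUND, chunk 0: every entry of `L0` is the packed table of an element of `M24`
of square 1 (kernel check, in slices of 200 entries to keep the memory of the kernel small).
-/

set_option autoImplicit false
set_option maxRecDepth 1000000
set_option Elab.async false

namespace Cfsg.Agent.Lib.Helper1.M24BlkLS0

open Cfsg.Agent.Lib.Helper1.M24BlkLSChk Cfsg.Agent.Lib.Helper3.M24InvD
  Cfsg.Agent.Lib.Helper3.M24BlkStmt

theorem ok0 : ((L0.drop (200 * 0)).take 200).all chkF = true := by decide +kernel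
theorem ok1 : ((L0.drop (200 * 1)).take 200).all chkF = true := by decide +kernel
theorem ok2 : ((L0.drop (200 * 2)).take 200).all chkF = true := by decide +kernel
theorem ok3 : ((L0.drop (200 * 3)).take 200).all chkF = true := by decide +kernel
theorem ok4 : ((L0.drop (200 * 4)).take 200).all chkF = true := by decide +kernel
theorem ok5 : ((L0.drop (200 * 5)).take 200).all chkF = true := by decide +kernel
theorem ok6 : ((L0.drop (200 * 6)).take 200).all chkF = true := by decide +kernel
theorem ok7 : ((L0.drop (200 * 7)).take 200).all chkF = true := by decide +kernel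
theorem ok8 : ((L0.drop (200 * 8)).take 200).all chkF = true := by decide +kernel
theorem ok9 : ((L0.drop (200 * 9)).take 200).all chkF = true := by decide +kernel

theorem len : L0.length ≤ 200 * 10 := by decide +kernel

theorem all_ok : L0.all chkF = true := by
  apply all_of_slices chkF L0 200 10 (by norm_num) _ len
  intro j hj
  interval_cases j
  exacts [ok0, ok1, ok2, ok3, ok4, ok5, ok6, ok7, ok8, ok9]

theorem main : ∀ U ∈ L0, InvOK U := all_sound all_ok

end Cfsg.Agent.Lib.Helper1.M24BlkLS0
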