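import Cfsg.Agent.Lib.Helper3.M24BlkStmt

/-!
# S5006 piece LSOUND: a fast kernel checker for packed tables of elements of `M24` of square 1.

`chkF U` checks, on the packed table `U` (five bits per entry), that the table is an involution
of the 24 points and that the forward images of the 23 generator masks of the Golay code are
code words; `chkF_sound` gives an element of `M24` of square 1 with packed table `U`.
-/

set_option autoImplicit false

namespace Cfsg.Agent.Lib.Helper1.M24BlkLSChk

open Cfsg Cfsg.Agent.Lib.Helper7.GolayBase Cfsg.Agent.Lib.Helper7.GolayCode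
  Cfsg.Agent.Lib.Helper7.GolayPerm Cfsg.Agent.Lib.Helper7.M24Mem
  Cfsg.Agent.Lib.Helper86.TabGrp
  Cfsg.Agent.Lib.Helper35.PermTab Cfsg.Agent.Lib.Helper3.M24Blk
  Cfsg.Agent.Lib.Helper3.M24BlkStmt

/-- unpacking a packed table -/
def unp (U : Nat) : List Nat := (List.range 24).map (fun i => dg U i)

/-- forward image of the mask `m` under the packed table `U` (first `n` points) -/
def imgL (U m : Nat) : Nat → Nat :=
  Nat.rec 0 (fun i ih => Nat.lor ih (Nat.shiftLeft (Nat.land (Nat.shiftRight m i) 1) (dg U i)))

/-- involution check on the packed table (first `n` points) -/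
def invL (U : Nat) : Nat → Bool :=
  Nat.rec true
    (fun i ih => cond (Nat.blt (dg U i) 24) (cond (Nat.beq (dg U (dg U i)) i) ih false) false)

/-- `reduce`, forcing the intermediate values -/
def red : List Nat → Nat → Nat :=
  List.rec (motive := fun _ => Nat → Nat) (fun m => m)
    (fun b _ ih m => frc (cond (Nat.blt (Nat.xor m b) m) (Nat.xor m b) m) ih)

/-- the images of the generator masks are code words -/
def m24R (U : Nat) : Bool := qrMasks.all (fun m => Nat.beq (red echelon (imgL U m 24)) 0)

/-- the check -/
def chkF (U : Nat) : Bool :=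
  cond (invL U 24) (cond (m24R U) (Nat.beq (pk (unp U)) U) false) false

theorem cond_false_right {a b : Bool} (h : cond a b false = true) : a = true ∧ b = true := by
  cases a <;> cases b <;> simp_all

theorem red_eq (bs : List Nat) (m : Nat) : red bs m = reduce bs m := by
  induction bs generalizing m with
  | nil => rfl
  | cons b bs ih =>
    show frc (cond (Nat.blt (Nat.xor m b) m) (Nat.xor m b) m) (red bs) = _
    rw [frc_eq, ih]
    show reduce bs (cond (Nat.blt (Nat.xor m b) m) (Nat.xor m b) m) =
      reduce bs (if m ^^^ b < m then m ^^^ b else m)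
    congr 1
    by_cases h : m ^^^ b < m
    · rw [if_pos h]
      have : Nat.blt (Nat.xor m b) m = true := by
        rw [Nat.blt_eq]; exact h
      rw [this]; rfl
    · rw [if_neg h]
      have : Nat.blt (Nat.xor m b) m = false := by
        rw [Bool.eq_false_iff, Ne, Nat.blt_eq]; exact h
      rw [this]; rfl

theorem invL_spec (U : Nat) : ∀ n, invL U n = true →
    ∀ i, i < n → dg U i < 24 ∧ dg U (dg U i) = i := by
  intro n
  induction n with
  | zero => intro _ i hi; omega
  | succ n ih =>
    intro h i hi
    have h' : cond (Nat.blt (dg U n) 24) (cond (Nat.beq (dg U (dg U n)) n) (invL U n) false)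
        false = true := h
    obtain ⟨h1, h''⟩ := cond_false_right h'
    obtain ⟨h2, h3⟩ := cond_false_right h''
    rcases Nat.lt_succ_iff_lt_or_eq.1 hi with hlt | rfl
    · exact ih h3 i hlt
    · exact ⟨by rw [Nat.blt_eq] at h1; exact h1, Nat.eq_of_beq_eq_true h2⟩

theorem bit_val (m n : Nat) : (m >>> n) &&& 1 = if m.testBit n = true then 1 else 0 := by
  rw [Nat.and_one_is_mod, Nat.shiftRight_eq_div_pow, Nat.testBit_eq_decide_div_mod_eq]
  rcases Nat.mod_two_eq_zero_or_one (m / 2 ^ n) with h | h <;> simp [h]

theorem imgL_succ (U m n : Nat) :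
    imgL U m (n + 1) = imgL U m n ||| (((m >>> n) &&& 1) <<< dg U n) := rfl

theorem imgL_testBit (U m : Nat) : ∀ n k, (imgL U m n).testBit k = true ↔
    ∃ i, i < n ∧ m.testBit i = true ∧ dg U i = k := by
  intro n
  induction n with
  | zero =>
    intro k
    have : imgL U m 0 = 0 := rfl
    rw [this, Nat.zero_testBit]
    constructor
    · intro h; exact absurd h (by decide)
    · rintro ⟨i, hi, -⟩; omega
  | succ n ih =>
    intro k
    rw [imgL_succ, Nat.testBit_or, Bool.or_eq_true, ih k, bit_val]
    constructor
    · rintro (⟨i, hi, h1, h2⟩ | h)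
      · exact ⟨i, by omega, h1, h2⟩
      · by_cases hb : m.testBit n = true
        · rw [if_pos hb, Nat.one_shiftLeft, Nat.testBit_two_pow] at h
          exact ⟨n, by omega, hb, of_decide_eq_true h⟩
        · rw [if_neg hb, Nat.zero_shiftLeft, Nat.zero_testBit] at h
          exact absurd h (by decide)
    · rintro ⟨i, hi, h1, h2⟩
      rcases Nat.lt_succ_iff_lt_or_eq.1 hi with hlt | rfl
      · exact Or.inl ⟨i, hlt, h1, h2⟩
      · right
        rw [if_pos h1, Nat.one_shiftLeft, Nat.testBit_two_pow]
        exact decide_eq_true h2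

theorem unp_length (U : Nat) : (unp U).length = 24 := by simp [unp]

theorem unp_getD (U : Nat) {i : Nat} (hi : i < 24) : (unp U).getD i 0 = dg U i := by
  simp [unp, List.getD_eq_getElem?_getD, hi]

theorem invOK_unp {U : Nat} (h : invL U 24 = true) : invOK (unp U) (unp U) = true := by
  have hs := invL_spec U 24 h
  simp only [invOK, Bool.and_eq_true, beq_iff_eq, List.all_eq_true, List.mem_range,
    decide_eq_true_eq]
  refine ⟨⟨unp_length U, unp_length U⟩, fun i hi => ?_⟩
  have h1 := hs i hi
  rw [unp_getD U hi, unp_getD U h1.1]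
  exact ⟨⟨⟨h1.1, h1.2⟩, h1.1⟩, h1.2⟩

theorem chkF_sound {U : Nat} (h : chkF U = true) : InvOK U := by
  obtain ⟨hinv, h'⟩ := cond_false_right h
  obtain ⟨hm, h''⟩ := cond_false_right h'
  have hpk : pk (unp U) = U := Nat.eq_of_beq_eq_true h''
  have hs := invL_spec U 24 hinv
  have hok := invOK_unp hinv
  have hrep : Rep (ofT (unp U) (unp U) hok) (unp U) :=
    Cfsg.Agent.Lib.Helper86.TabGrp.rep_ofT (unp U) (unp U) hok
  have hrep' : Rep (ofT (unp U) (unp U) hok)⁻¹ (unp U) :=
    Cfsg.Agent.Lib.Helper86.TabGrp.rep_ofT_inv (unp U) (unp U) hok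
  have hidx : ∀ p : GolayPt, idx (ofT (unp U) (unp U) hok p) = dg U (idx p) := by
    intro p
    rw [← hrep.2 p, unp_getD U (idx_lt p)]
  have hmem : ofT (unp U) (unp U) hok ∈ Cfsg.M24 := by
    apply mem_M24_of_masks _ (fun τ => imgL U (qrM τ) 24)
    · intro τ p
      rw [← wd_qrM]
      unfold wd
      rw [hidx p]
      have hiff : (imgL U (qrM τ) 24).testBit (dg U (idx p)) = true ↔
          (qrM τ).testBit (idx p) = true := by
        rw [imgL_testBit]
        constructor
        · rintro ⟨i, hi, h1, h2⟩
          have e : i = idx p := by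
            rw [← (hs i hi).2, h2, (hs (idx p) (idx_lt p)).2]
          rw [← e]; exact h1
        · intro h1
          exact ⟨idx p, idx_lt p, h1, rfl⟩
      by_cases hb : (qrM τ).testBit (idx p) = true
      · rw [if_pos hb, if_pos (hiff.2 hb)]
      · rw [if_neg hb, if_neg (fun hc => hb (hiff.1 hc))]
    · intro τ
      have hlen : qrMasks.length = 23 := rfl
      have hτ : τ.val < qrMasks.length := by rw [hlen]; exact ZMod.val_lt τ
      have hmem : qrM τ ∈ qrMasks := by
        unfold qrM
        rw [List.getD_eq_getElem _ _ hτ]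
        exact List.getElem_mem hτ
      have h1 := List.all_eq_true.mp hm _ hmem
      have h2 : red echelon (imgL U (qrM τ) 24) = 0 := Nat.eq_of_beq_eq_true h1
      show (reduce echelon (imgL U (qrM τ) 24) == 0) = true
      rw [← red_eq, h2]
      rfl
  refine ⟨⟨ofT (unp U) (unp U) hok, hmem⟩, ?_, ?_⟩
  · apply Subtype.ext
    show ofT (unp U) (unp U) hok * ofT (unp U) (unp U) hok = 1
    have he := hrep.ext hrep'
    nth_rewrite 2 [he]
    exact mul_inv_cancel _
  · show pk (tab (ofT (unp U) (unp U) hok)) = U
    rw [← eq_tab_of_rep hrep]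
    exact hpk

theorem all_sound {l : List Nat} (h : l.all chkF = true) : ∀ U ∈ l, InvOK U := by
  intro U hU
  exact chkF_sound (List.all_eq_true.mp h U hU)

/-- a list all of whose slices of length `n` pass a test passes the test -/
theorem all_of_slices (p : Nat → Bool) (l : List Nat) (n c : Nat) (hn : 0 < n)
    (h : ∀ j, j < c → ((l.drop (n * j)).take n).all p = true) (hlen : l.length ≤ n * c) :
    l.all p = true := by
  rw [List.all_eq_true]
  intro x hx
  obtain ⟨i, hi, rfl⟩ := List.mem_iff_getElem.1 hx
  have hj : i / n < c := by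
    rw [Nat.div_lt_iff_lt_mul hn]
    calc i < l.length := hi
      _ ≤ n * c := hlen
      _ = c * n := Nat.mul_comm n c
  have hdm : n * (i / n) + i % n = i := Nat.div_add_mod i n
  have hr : i % n < n := Nat.mod_lt i hn
  have hmem : l[i] ∈ (l.drop (n * (i / n))).take n := by
    rw [List.mem_iff_getElem]
    refine ⟨i % n, ?_, ?_⟩
    · rw [List.length_take, List.length_drop]
      omega
    · rw [List.getElem_take, List.getElem_drop]
      congr 1
  exact List.all_eq_true.mp (h (i / n) hj) _ hmem

end Cfsg.Agent.Lib.Helper1.M24BlkLSChk
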