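import Cfsg.Agent.Lib.Helper1.M24BlkLS0
import Cfsg.Agent.Lib.Helper1.M24BlkLS1
import Cfsg.Agent.Lib.Helper1.M24BlkLS2
import Cfsg.Agent.Lib.Helper1.M24BlkLS3
import Cfsg.Agent.Lib.Helper1.M24BlkLS4
import Cfsg.Agent.Lib.Helper1.M24BlkLS5
import Cfsg.Agent.Lib.Helper1.M24BlkLS6
import Cfsg.Agent.Lib.Helper1.M24BlkLS7
import Cfsg.Agent.Lib.Helper1.M24BlkLS8
import Cfsg.Agent.Lib.Helper1.M24BlkLS9
import Cfsg.Agent.Lib.Helper1.M24BlkLS10
import Cfsg.Agent.Lib.Helper1.M24BlkLS11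
import Cfsg.Agent.Lib.Helper1.M24BlkLS12
import Cfsg.Agent.Lib.Helper1.M24BlkLS13
import Cfsg.Agent.Lib.Helper1.M24BlkLS14
import Cfsg.Agent.Lib.Helper1.M24BlkLS15
import Cfsg.Agent.Lib.Helper1.M24BlkLS16
import Cfsg.Agent.Lib.Helper1.M24BlkLS17
import Cfsg.Agent.Lib.Helper1.M24BlkLS18
import Cfsg.Agent.Lib.Helper1.M24BlkLS19
import Cfsg.Agent.Lib.Helper1.M24BlkLS20
import Cfsg.Agent.Lib.Helper1.M24BlkLS21

/-!
# S5006 piece LSOUND: every entry of `LL` is the packed table of an element of `M24` of square 1.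
-/

set_option autoImplicit false

namespace Cfsg.Agent.Lib.Helper1.M24BlkLSOUND

open Cfsg.Agent.Lib.Helper1.M24BlkLSChk Cfsg.Agent.Lib.Helper3.M24InvD
  Cfsg.Agent.Lib.Helper3.M24BlkStmt

theorem main : LSoundStmt := by
  intro U hU
  rw [LL, List.mem_flatten] at hU
  obtain ⟨l, hl, hU⟩ := hU
  simp only [chunks, List.mem_cons, List.mem_nil_iff, or_false] at hl
  rcases hl with rfl | rfl | rfl | rfl | rfl | rfl | rfl | rfl | rfl | rfl | rfl | rfl | rfl | rfl | rfl | rfl | rfl | rfl | rfl | rfl | rfl | rfl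
  · exact Cfsg.Agent.Lib.Helper1.M24BlkLS0.main U hU
  · exact Cfsg.Agent.Lib.Helper1.M24BlkLS1.main U hU
  · exact Cfsg.Agent.Lib.Helper1.M24BlkLS2.main U hU
  · exact Cfsg.Agent.Lib.Helper1.M24BlkLS3.main U hU
  · exact Cfsg.Agent.Lib.Helper1.M24BlkLS4.main U hU
  · exact Cfsg.Agent.Lib.Helper1.M24BlkLS5.main U hU
  · exact Cfsg.Agent.Lib.Helper1.M24BlkLS6.main U hU
  · exact Cfsg.Agent.Lib.Helper1.M24BlkLS7.main U hU
  · exact Cfsg.Agent.Lib.Helper1.M24BlkLS8.main U hU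
  · exact Cfsg.Agent.Lib.Helper1.M24BlkLS9.main U hU
  · exact Cfsg.Agent.Lib.Helper1.M24BlkLS10.main U hU
  · exact Cfsg.Agent.Lib.Helper1.M24BlkLS11.main U hU
  · exact Cfsg.Agent.Lib.Helper1.M24BlkLS12.main U hU
  · exact Cfsg.Agent.Lib.Helper1.M24BlkLS13.main U hU
  · exact Cfsg.Agent.Lib.Helper1.M24BlkLS14.main U hU
  · exact Cfsg.Agent.Lib.Helper1.M24BlkLS15.main U hU
  · exact Cfsg.Agent.Lib.Helper1.M24BlkLS16.main U hU
  · exact Cfsg.Agent.Lib.Helper1.M24BlkLS17.main U hU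
  · exact Cfsg.Agent.Lib.Helper1.M24BlkLS18.main U hU
  · exact Cfsg.Agent.Lib.Helper1.M24BlkLS19.main U hU
  · exact Cfsg.Agent.Lib.Helper1.M24BlkLS20.main U hU
  · exact Cfsg.Agent.Lib.Helper1.M24BlkLS21.main U hU

end Cfsg.Agent.Lib.Helper1.M24BlkLSOUND
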