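import Mathlib
import Cfsg.Agent.Lib.Helper44.NegPairs
import Cfsg.Agent.Lib.Helper45.OMiStmt
import Cfsg.Agent.Lib.Helper82.OPNEGSQNOFIX

/-!
# S5991 / NEGSQNOFIXM (call by helper45)

An isometry `x` of the minus form with `x * x = -1` stabilises no nondegenerate subspace `W` of
odd dimension: the determinant `δ` of `x` on `W` satisfies `δ² = 1` (isometry of a nondegenerate
form) and `δ² = det (-1) = (-1) ^ dim W = -1`.  (Port of `Helper82.OPNEGSQNOFIX`.)
-/

set_option autoImplicit false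

universe u

open scoped Matrix

namespace Cfsg.Agent.Lib.Helper1.OMiNEGSQNOFIXM

open Cfsg.Agent.Lib.Helper45.OMiStmt Cfsg.Agent.Lib.Helper44.NegPairs
open Cfsg.Agent.Lib.Helper82.OPNEGSQNOFIX (two_ne_zero_of_odd det_sq_of_isometry)

theorem main : NegSqNoFixM.{u} := by
  intro F _ _ hodd d m a b hm x hx hxx W hWm hW hst
  classical
  have h2 : (2 : F) ≠ 0 := two_ne_zero_of_odd F hodd
  have hQ : ∀ u : M d → F, Cfsg.quadFormMinus (d - 1) F a b ((x : Matrix (M d) (M d) F) *ᵥ u)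
      = Cfsg.quadFormMinus (d - 1) F a b u := fun u => hx u u
  have hinv : ∀ w ∈ W, Matrix.toLin' (x : Matrix (M d) (M d) F) w ∈ W :=
    fun w hw => hst (Submodule.mem_map_of_mem hw)
  obtain ⟨A, hA⟩ : ∃ A : ↥W →ₗ[F] ↥W, ∀ w : ↥W,
      ((A w : ↥W) : M d → F) = (x : Matrix (M d) (M d) F) *ᵥ (w : M d → F) :=
    ⟨(Matrix.toLin' (x : Matrix (M d) (M d) F)).restrict hinv, fun w => by
      rw [LinearMap.coe_restrict_apply, Matrix.toLin'_apply]⟩
  obtain ⟨B, hB⟩ : ∃ B : LinearMap.BilinForm F ↥W, ∀ u v : ↥W,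
      B u v = QuadraticMap.polar (Cfsg.quadFormMinus (d - 1) F a b) (u : M d → F)
        (v : M d → F) :=
    ⟨LinearMap.BilinForm.restrict (QuadraticMap.polarBilin (minusQ (d - 1) F a b)) W,
      fun u v => rfl⟩
  have hnd : B.Nondegenerate := by
    constructor
    · intro u hu
      by_contra hu0
      have hu0' : (u : M d → F) ≠ 0 := fun h => hu0 (Subtype.ext h)
      obtain ⟨-, ⟨y, hy, hyu⟩⟩ := hW u u.2 hu0'
      apply hyu
      have h1 := hu ⟨y, hy⟩
      rw [hB] at h1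
      exact h1
    · intro v hv
      by_contra hv0
      have hv0' : (v : M d → F) ≠ 0 := fun h => hv0 (Subtype.ext h)
      obtain ⟨⟨y, hy, hyv⟩, -⟩ := hW v v.2 hv0'
      apply hyv
      have h1 := hv ⟨y, hy⟩
      rw [hB] at h1
      exact h1
  have hiso : ∀ u v : ↥W, B (A u) (A v) = B u v := by
    intro u v
    rw [hB, hB, hA, hA]
    unfold QuadraticMap.polar
    rw [← Matrix.mulVec_add, hQ, hQ, hQ]
  have hdet1 := det_sq_of_isometry B hnd A hiso
  have hAA : A ∘ₗ A = (-1 : F) • LinearMap.id := by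
    apply LinearMap.ext
    intro w
    apply Subtype.ext
    rw [LinearMap.comp_apply, hA, hA, Matrix.mulVec_mulVec, hxx, Matrix.neg_mulVec,
      Matrix.one_mulVec, LinearMap.smul_apply, LinearMap.id_apply, neg_smul, one_smul]
    rfl
  have hdet2 : LinearMap.det A * LinearMap.det A = -1 := by
    rw [← map_mul, Module.End.mul_eq_comp, hAA, LinearMap.det_smul, LinearMap.det_id, mul_one,
      hWm, Odd.neg_one_pow hm]
  rw [hdet1] at hdet2
  apply h2
  have h6 : (2 : F) = 1 - (-1) := by ring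
  rw [h6, ← hdet2]
  ring

end Cfsg.Agent.Lib.Helper1.OMiNEGSQNOFIXM
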