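import Mathlib
import Cfsg.Agent.Lib.Helper44.NegPairs
import Cfsg.Agent.Lib.Helper45.OMiStmt
import Cfsg.Agent.Lib.Helper82.OPNEGSQNOFIX
import Cfsg.Agent.Lib.Helper85.OPPFIXA

/-!
# S5991 / PFIXAM (call by helper45): an isometry `x` of the minus form with `(x - 1) V ≤ Fix x`
stabilising a nondegenerate subspace of odd dimension `m` has `dim (x - 1) V ≤ d - 1`, and
`m ≡ 1 (mod 4)` in case of equality.  (Port of `Helper85.OPPFIXA` via its abstract `core`.)
-/

set_option autoImplicit false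

universe u

open scoped Matrix

namespace Cfsg.Agent.Lib.Helper1.OMiPFIXAM

open Module QuadraticMap
open Cfsg.Agent.Lib.Helper44.QSpace Cfsg.Agent.Lib.Helper44.NegPairs
open Cfsg.Agent.Lib.Helper44.WittND Cfsg.Agent.Lib.Helper44.WittND2
open Cfsg.Agent.Lib.Helper45.OMiStmt

theorem main : PFixAM.{u} := by
  intro F _ _ hodd d m hd a b hab hmodd x hx hNN W hWm hWnd hStab
  have h2 : (2 : F) ≠ 0 := Cfsg.Agent.Lib.Helper82.OPNEGSQNOFIX.two_ne_zero_of_odd F hodd
  have hS : Sep (minusQ (d - 1) F a b) := sep_minusQ h2 (d - 1) a b hab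
  have hA : ∀ v, minusQ (d - 1) F a b (Matrix.toLin' (x : Matrix (M d) (M d) F) v)
      = minusQ (d - 1) F a b v := by
    intro v
    rw [Matrix.toLin'_apply]
    exact hx v v
  have hWnd' : NDsub (minusQ (d - 1) F a b) W := by
    intro y hy hyz
    by_contra hy0
    obtain ⟨-, z, hz, hz0⟩ := hWnd y hy hy0
    exact hz0 (hyz z hz)
  have hAW : ∀ w ∈ W, Matrix.toLin' (x : Matrix (M d) (M d) F) w ∈ W := by
    intro w hw
    exact hStab (Submodule.mem_map_of_mem hw)
  have hV : finrank F (M d → F) = 2 * d := by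
    rw [Module.finrank_fintype_fun_eq_card, Fintype.card_sum, Fintype.card_sum, Fintype.card_fin,
      Fintype.card_fin]
    omega
  exact Cfsg.Agent.Lib.Helper85.OPPFIXA.core h2 (minusQ (d - 1) F a b) hS
    (Matrix.toLin' (x : Matrix (M d) (M d) F)) hA hNN W hWnd' hAW m hWm hmodd d hV

end Cfsg.Agent.Lib.Helper1.OMiPFIXAM
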