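import Mathlib
import Cfsg.Agent.Lib.Helper16.P2pStmt

/-!
# S4707, piece PRE1: for a primitive group of degree `2p` with `|N_G(P)| = 2p`, the Sylow
`p`-subgroup `P` has order `p`, is not normal, and lies in every non-trivial normal subgroup.
-/

set_option autoImplicit false

namespace Cfsg.Agent.Lib.Helper1.P2pPRE1

open Cfsg Subgroup MulAction

universe u

/-- The degree of a transitive action divides the order of the group. -/
theorem card_dvd_of_pretransitive (M X : Type*) [Group M] [MulAction M X] [Nonempty X]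
    [IsPretransitive M X] : Nat.card X ∣ Nat.card M := by
  obtain ⟨x⟩ := ‹Nonempty X›
  rw [← MulAction.index_stabilizer_of_transitive (G := M) (x := x)]
  exact Subgroup.index_dvd_card _

/-- A non-trivial normal subgroup of a primitive permutation group is transitive. -/
theorem pretransitive_of_normal {α : Type*} (G : Subgroup (Equiv.Perm α))
    [IsPreprimitive G α] (K : Subgroup G) (hK : K.Normal) (hne : K ≠ ⊥) :
    IsPretransitive K α := by
  have := hK
  apply IsQuasiPreprimitive.isPretransitive_of_normal (G := G) (N := K)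
  intro hfix
  apply hne
  rw [Subgroup.eq_bot_iff_forall]
  intro k hk
  apply Subtype.ext
  apply Equiv.ext
  intro a
  have ha : a ∈ fixedPoints K α := by rw [hfix]; exact Set.mem_univ a
  have := ha ⟨k, hk⟩
  exact this

/-- [PRE1] the order of `P`, and the normal subgroups. -/
theorem main : Cfsg.Agent.Lib.Helper16.P2pStmt.Pre1.{u} := by
  intro α _ _ p hpF hp3 hcard G hprim P hN
  have hp : p.Prime := hpF.out
  have : Nonempty α := by
    apply Fintype.card_pos_iff.mp
    rw [hcard]
    have := hp.pos
    omega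
  have hcardα : Nat.card α = 2 * p := by rw [Nat.card_eq_fintype_card, hcard]
  -- `2p ∣ |G|`
  have hG : 2 * p ∣ Nat.card G := by
    rw [← hcardα]
    exact card_dvd_of_pretransitive G α
  have hpG : p ∣ Nat.card G := dvd_trans (dvd_mul_left p 2) hG
  -- `|P| = p`
  have hPcard : Nat.card (P : Subgroup G) = p := by
    obtain ⟨n, hn⟩ := (IsPGroup.iff_card).mp P.2
    have h1 : Nat.card (P : Subgroup G) ∣ 2 * p := by
      rw [← hN]
      exact Subgroup.card_dvd_of_le le_normalizer
    have h2 : p ∣ Nat.card (P : Subgroup G) := P.dvd_card_of_dvd_card hpG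
    rw [hn] at h1 h2 ⊢
    have hn1 : n ≠ 0 := by
      rintro rfl
      rw [pow_zero] at h2
      exact hp.one_lt.ne' (Nat.dvd_one.mp h2)
    have hn2 : n < 2 := by
      by_contra hcon
      have h3 : p ^ 2 ∣ 2 * p := dvd_trans (pow_dvd_pow p (by omega)) h1
      rw [pow_two, mul_comm 2 p] at h3
      have h4 : p ∣ 2 := (Nat.mul_dvd_mul_iff_left hp.pos).mp h3
      have := Nat.le_of_dvd (by norm_num) h4
      omega
    have hn3 : n = 1 := by omega
    rw [hn3, pow_one]
  -- normal subgroups
  have hK : ∀ K : Subgroup G, K.Normal → K ≠ ⊥ → (P : Subgroup G) ≤ K := by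
    intro K hKn hKne
    have := pretransitive_of_normal G K hKn hKne
    have hpK : p ∣ Nat.card K := by
      have : 2 * p ∣ Nat.card K := by
        rw [← hcardα]
        exact card_dvd_of_pretransitive K α
      exact dvd_trans (dvd_mul_left p 2) this
    obtain ⟨x, hx⟩ := exists_prime_orderOf_dvd_card' p hpK
    have hxo : orderOf (x : G) = p := by rw [Subgroup.orderOf_coe]; exact hx
    have hpg : IsPGroup p (Subgroup.zpowers (x : G)) := by
      rw [IsPGroup.iff_card]
      exact ⟨1, by rw [Nat.card_zpowers, hxo, pow_one]⟩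
    obtain ⟨Q, hQ⟩ := hpg.exists_le_sylow
    obtain ⟨g, hg⟩ := MulAction.exists_smul_eq G Q P
    have hQcard : Nat.card (Q : Subgroup G) = p := by
      rw [Sylow.card_eq_multiplicity] at hPcard ⊢
      exact hPcard
    have hQeq : Subgroup.zpowers (x : G) = (Q : Subgroup G) := by
      apply Subgroup.eq_of_le_of_card_ge hQ
      rw [Nat.card_zpowers, hxo, hQcard]
    have hQK : (Q : Subgroup G) ≤ K := by
      rw [← hQeq, Subgroup.zpowers_le]
      exact x.2
    intro y hy
    have hy' : y ∈ ((g • Q : Sylow p G) : Subgroup G) := by rw [hg]; exact hy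
    rw [Sylow.coe_subgroup_smul, Subgroup.mem_pointwise_smul_iff_inv_smul_mem] at hy'
    have h1 : (MulAut.conj g)⁻¹ • y ∈ K := hQK hy'
    have h2 : (MulAut.conj g)⁻¹ • y = g⁻¹ * y * g := by
      rw [MulAut.smul_def, MulAut.conj_inv_apply]
    rw [h2] at h1
    have h3 := hKn.conj_mem _ h1 g
    have h4 : g * (g⁻¹ * y * g) * g⁻¹ = y := by group
    rw [h4] at h3
    exact h3
  refine ⟨hPcard, ?_, hK⟩
  -- `P` is not normal
  intro hPn
  have hPne : (P : Subgroup G) ≠ ⊥ := by
    intro h
    rw [h, Subgroup.card_bot] at hPcard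
    exact hp.one_lt.ne hPcard
  have := pretransitive_of_normal G (P : Subgroup G) hPn hPne
  have h1 : 2 * p ∣ Nat.card (P : Subgroup G) := by
    rw [← hcardα]
    exact card_dvd_of_pretransitive (P : Subgroup G) α
  rw [hPcard] at h1
  have := Nat.le_of_dvd hp.pos h1
  have := hp.pos
  omega

end Cfsg.Agent.Lib.Helper1.P2pPRE1
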