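import Mathlib
import Cfsg.Agent.Lib.Helper16.P2pStmt
import Cfsg.Agent.S0180
import Cfsg.Agent.Lib.Helper80.Integrality
import Cfsg.Agent.Lib.Helper78.GaloisPQ

/-!
# S4707, piece RAT: a character fixed by all the power maps `g ↦ g ^ k`, `k` prime to `|G|`,
has integer values.
-/

set_option autoImplicit false

namespace Cfsg.Agent.Lib.Helper1.P2pRAT

open Cfsg Polynomial

universe u

/-- Rationality, with an explicit cyclotomic field. -/
theorem rational_aux {G : Type*} [Group G] [Finite G] {V : Type*} [AddCommGroup V]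
    [Module ℂ V] [FiniteDimensional ℂ V] (ρ : Representation ℂ G V)
    (hpow : ∀ k : ℕ, k.Coprime (Nat.card G) → ∀ g : G, ρ.character (g ^ k) = ρ.character g)
    (g : G) (e : ℕ) (he : e = Nat.card G) [NeZero e]
    (L : Type) [Field L] [Algebra ℚ L] [IsCyclotomicExtension {e} ℚ L] :
    ∃ q : ℚ, ρ.character g = (q : ℂ) := by
  have he0 : 0 < e := NeZero.pos e
  have hζL : IsPrimitiveRoot (IsCyclotomicExtension.zeta e ℚ L) e :=
    IsCyclotomicExtension.zeta_spec e ℚ L
  set ζL := IsCyclotomicExtension.zeta e ℚ L with hζLdef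
  have hirr : Irreducible (cyclotomic e ℚ) := cyclotomic.irreducible_rat he0
  have hζ : IsPrimitiveRoot (Complex.exp (2 * Real.pi * Complex.I / e)) e :=
    Complex.isPrimitiveRoot_exp e he0.ne'
  let φ : L →ₐ[ℚ] ℂ :=
    (hζL.embeddingsEquivPrimitiveRoots ℂ hirr).symm
      ⟨Complex.exp (2 * Real.pi * Complex.I / e), (mem_primitiveRoots he0).mpr hζ⟩
  have hφinj : Function.Injective φ := φ.toRingHom.injective
  have hge : g ^ e = 1 := by rw [he]; exact pow_card_eq_one'
  obtain ⟨x, hx⟩ := Cfsg.Agent.S0180.key ρ g e hge (φ : L →+* ℂ) ζL hζL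
  have hx1 : φ x = ρ.character g := by
    have := hx (RingHom.id L) 1 (by rw [pow_one]; rfl)
    rw [pow_one] at this
    exact this
  have : IsGalois ℚ L := IsCyclotomicExtension.isGalois {e} ℚ L
  have : FiniteDimensional ℚ L := IsCyclotomicExtension.finiteDimensional {e} ℚ L
  have hfix : ∀ σ : L ≃ₐ[ℚ] L, σ x = x := by
    intro σ
    have hσζ : IsPrimitiveRoot (σ ζL) e := hζL.map_of_injective σ.injective
    obtain ⟨k, hk, hkeq⟩ := hζL.eq_pow_of_pow_eq_one hσζ.pow_eq_one
    have hkcop : k.Coprime e := by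
      have h1 : IsPrimitiveRoot (ζL ^ k) e := by rw [hkeq]; exact hσζ
      exact (hζL.pow_iff_coprime he0 k).mp h1
    have h1 := hx (σ : L →+* L) k hkeq.symm
    apply hφinj
    rw [hx1]
    have h2 : φ (σ x) = ρ.character (g ^ k) := h1
    rw [h2]
    exact hpow k (he ▸ hkcop) g
  obtain ⟨q, hq⟩ := (IsGalois.mem_range_algebraMap_iff_fixed x).mpr hfix
  refine ⟨q, ?_⟩
  rw [← hx1, ← hq]
  exact φ.commutes q

/-- [RAT] a character fixed by all the power maps `g ↦ g ^ k`, `k` prime to `|G|`, has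
integer values. -/
theorem main : Cfsg.Agent.Lib.Helper16.P2pStmt.Rat.{u} := by
  intro G _ _ ψ hψ hpow g
  obtain ⟨n, ρ, rfl⟩ := hψ
  have he0 : Nat.card G ≠ 0 := Nat.card_pos.ne'
  have : NeZero (Nat.card G) := ⟨he0⟩
  have hcyc : IsCyclotomicExtension {Nat.card G} ℚ (CyclotomicField (Nat.card G) ℚ) :=
    CyclotomicField.isCyclotomicExtension (Nat.card G) ℚ
  obtain ⟨q, hq⟩ := rational_aux ρ hpow g (Nat.card G) rfl (CyclotomicField (Nat.card G) ℚ)
  have hint : IsIntegral ℤ (q : ℂ) := by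
    rw [← hq]
    exact Cfsg.Agent.Lib.Helper80.Integrality.isIntegral_character ρ g
  obtain ⟨z, hz⟩ := Cfsg.Agent.Lib.Helper78.GaloisPQ.int_of_integral_rat q hint
  refine ⟨z, ?_⟩
  rw [hq, hz]
  push_cast
  rfl

end Cfsg.Agent.Lib.Helper1.P2pRAT
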