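import Mathlib
import Cfsg.Agent.Lib.Helper76.PQR
import Cfsg.Agent.Lib.Helper17.Sylow

/-!
# S0998 piece P1: Sylow data in a simple group of order `p * r * q ^ b`
-/

set_option autoImplicit false

namespace Cfsg.Agent.Lib.Helper1.PRQSylow

open Cfsg

universe u

/-- [P1] Sylow data in a simple group of order `p * r * q ^ b`. -/
theorem sylow_data {G : Type u} [Group G] [Finite G] [IsSimpleGroup G] (hG : ¬ IsCyclic G)
    (p q r b : ℕ) (hp : p.Prime) (hq : q.Prime) (hr : r.Prime) (hpq : p ≠ q) (hpr : p ≠ r)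
    (hqr : q ≠ r) (hG' : Nat.card G = p * r * q ^ b) [Fact p.Prime] (P : Sylow p G) :
    Nat.card P = p ∧ Subgroup.centralizer ((P : Subgroup G) : Set G) = (P : Subgroup G) ∧
    ∃ e : ℕ, (Subgroup.centralizer ((P : Subgroup G) : Set G)).relIndex
        (Subgroup.normalizer ((P : Subgroup G) : Set G)) = e ∧ 1 < e ∧ e ∣ p - 1 ∧
        e ∣ r * q ^ b := by
  classical
  have hpm : ¬ p ∣ r * q ^ b := by
    intro h
    rcases (Nat.Prime.dvd_mul hp).mp h with h | h
    · exact hpr ((Nat.prime_dvd_prime_iff_eq hp hr).mp h)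
    · exact hpq ((Nat.prime_dvd_prime_iff_eq hp hq).mp (hp.dvd_of_dvd_pow h))
  have hcard : Nat.card (P : Subgroup G) = p := by
    have := Cfsg.Agent.Lib.Helper17.Sylow.card_sylow_subgroup (p := p) (k := 1)
      (m := r * q ^ b) (by rw [hG']; ring) hpm P
    simpa using this
  have hC : Subgroup.centralizer ((P : Subgroup G) : Set G) = (P : Subgroup G) :=
    Cfsg.Agent.Lib.Helper76.PQR.main r q p 1 b hr hq (Ne.symm hqr) (Ne.symm hpr) (Ne.symm hpq)
      (by rw [hG']; ring) P
  have hnp : ¬ (Nat.card G).Prime := by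
    intro h
    rw [hG'] at h
    have h1 : p ∣ p * r * q ^ b := ⟨r * q ^ b, by ring⟩
    have h2 : r ∣ p * r * q ^ b := ⟨p * q ^ b, by ring⟩
    have e1 := (Nat.prime_dvd_prime_iff_eq hp h).mp h1
    have e2 := (Nat.prime_dvd_prime_iff_eq hr h).mp h2
    exact hpr (e1.trans e2.symm)
  have hnc : ¬ IsMulCommutative G := Cfsg.Agent.Lib.Helper17.Sylow.not_comm_of_not_prime hnp
  have hpd : p ∣ Nat.card G := by
    rw [hG']; exact ⟨r * q ^ b, by ring⟩
  have hcyc : IsCyclic (P : Subgroup G) := isCyclic_of_prime_card hcard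
  have hCN : Subgroup.centralizer ((P : Subgroup G) : Set G) ≤
      Subgroup.normalizer ((P : Subgroup G) : Set G) :=
    Subgroup.centralizer_le_normalizer _
  refine ⟨hcard, hC, _, rfl, ?_, ?_, ?_⟩
  · have hne : (Subgroup.centralizer ((P : Subgroup G) : Set G)).relIndex
        (Subgroup.normalizer ((P : Subgroup G) : Set G)) ≠ 1 := by
      intro h
      exact Cfsg.Agent.Lib.Helper17.Sylow.not_normalizer_le_centralizer hnc hpd P
        (Subgroup.relIndex_eq_one.mp h)
    have hne0 : (Subgroup.centralizer ((P : Subgroup G) : Set G)).relIndex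
        (Subgroup.normalizer ((P : Subgroup G) : Set G)) ≠ 0 := by
      have h1 := Cfsg.Agent.Lib.Helper17.Sylow.card_mul_relIndex hCN
      intro h0
      rw [h0, mul_zero] at h1
      exact (Nat.card_pos (α := Subgroup.normalizer ((P : Subgroup G) : Set G))).ne' h1.symm
    omega
  · have h1 := Cfsg.Agent.Lib.Helper17.Sylow.relIndex_centralizer_normalizer_dvd (P : Subgroup G)
    rw [hcyc.card_mulAut, hcard, Nat.totient_prime hp] at h1
    exact h1
  · have h1 := Cfsg.Agent.Lib.Helper17.Sylow.card_mul_relIndex hCN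
    have hcc : Nat.card (Subgroup.centralizer ((P : Subgroup G) : Set G)) = p := by
      rw [hC]; exact hcard
    rw [hcc] at h1
    have h2 : Nat.card (Subgroup.normalizer ((P : Subgroup G) : Set G)) ∣ Nat.card G :=
      Subgroup.card_subgroup_dvd_card _
    rw [← h1, hG', mul_assoc] at h2
    exact Nat.dvd_of_mul_dvd_mul_left hp.pos h2

end Cfsg.Agent.Lib.Helper1.PRQSylow
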