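import Mathlib
import Cfsg.Agent.Lib.Helper1.PiClasses
import Cfsg.Agent.Lib.Helper1.PiClasses2
import Cfsg.Agent.Lib.Helper1.PGroupKP
import Cfsg.Agent.Lib.Helper30.PiHall

set_option autoImplicit false

/-!
# Bridge for S4104

`abelian_of_lt`: an `s`-group with `|S| < p k(S)`, `p < s`, is abelian.

`card_lt_mul_classes`: if `piPart τ |G| < p * kpi τ G` then every subgroup `R` of order
`r ^ v_r(|G|)` (`r ∈ τ`) has `|R| < p * k(R)`.

`bridge`: the statement S4104 follows from the "star" statement (pairwise commuting Sylow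
subgroups `R r`, `r ∈ τ`, whenever `piPart τ |G| < p * kpi τ G` and `p ≤ r` for all `r ∈ τ`).
-/

namespace Cfsg.Agent.Lib.Helper1.PiBridge

open Cfsg.Agent.Lib.Helper1.PiClasses Cfsg.Agent.Lib.Helper1.PiClasses2

universe u

/-- an `s`-group with `|S| < p k(S)` and `p < s` is abelian -/
theorem abelian_of_lt {S : Type*} [Group S] [Finite S] {s p : ℕ} (hs : s.Prime) (hps : p < s)
    (hS : IsPGroup s S) (h : Nat.card S < p * Nat.card (ConjClasses S)) :
    ∀ x y : S, x * y = y * x := by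
  refine Cfsg.Agent.Lib.Helper30.PiHall.comm_of_many_classes (p := p + 1) hs (by omega)
    (by omega) hS ?_
  have h1 : (p + 1) ^ 2 + (p + 1) - 1 = (p + 1) ^ 2 + p := by omega
  rw [h1]
  have h2 : p * ((p + 1) ^ 2 + p) ≤ (p + 1) ^ 3 := by nlinarith
  have h3 : Nat.card S * ((p + 1) ^ 2 + p)
      < p * Nat.card (ConjClasses S) * ((p + 1) ^ 2 + p) :=
    Nat.mul_lt_mul_of_pos_right h (by positivity)
  calc Nat.card S * ((p + 1) ^ 2 + p)
      < p * Nat.card (ConjClasses S) * ((p + 1) ^ 2 + p) := h3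
    _ = p * ((p + 1) ^ 2 + p) * Nat.card (ConjClasses S) := by ring
    _ ≤ (p + 1) ^ 3 * Nat.card (ConjClasses S) := Nat.mul_le_mul_right _ h2

variable {G : Type u} [Group G]

/-- many τ-classes give many classes in each Sylow `r`-subgroup, `r ∈ τ` -/
theorem card_lt_mul_classes [Finite G] (p : ℕ) (τ : Finset ℕ) (hτ : ∀ r ∈ τ, r.Prime)
    (h : piPart τ (Nat.card G) < p * kpi (↑τ : Set ℕ) G) {r : ℕ} (hr : r ∈ τ) (R : Subgroup G)
    (hR : Nat.card R = r ^ (Nat.card G).factorization r) :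
    Nat.card R < p * Nat.card (ConjClasses R) := by
  have hrp : Fact r.Prime := ⟨hτ r hr⟩
  have h1 := kpi_le_mul_erase (G := G) τ hτ hr
  have h2 := piPart_eq_mul_erase τ hr (Nat.card G)
  have h3 : kpi {r} G ≤ Nat.card (ConjClasses R) :=
    kpi_prime_le_classes (Sylow.ofCard R hR)
  have hE : 0 < piPart (τ.erase r) (Nat.card G) :=
    piPart_pos _ (fun q hq => hτ q (Finset.mem_of_mem_erase hq)) _
  rw [hR]
  by_contra hcon
  push Not at hcon
  have h4 : p * kpi (↑τ : Set ℕ) G
      ≤ p * (kpi {r} G * piPart (τ.erase r) (Nat.card G)) := Nat.mul_le_mul_left p h1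
  have h5 : p * (kpi {r} G * piPart (τ.erase r) (Nat.card G))
      ≤ p * (Nat.card (ConjClasses R) * piPart (τ.erase r) (Nat.card G)) :=
    Nat.mul_le_mul_left p (Nat.mul_le_mul_right _ h3)
  have h6 : p * (Nat.card (ConjClasses R) * piPart (τ.erase r) (Nat.card G))
      ≤ r ^ (Nat.card G).factorization r * piPart (τ.erase r) (Nat.card G) := by
    rw [← mul_assoc]
    exact Nat.mul_le_mul_right _ hcon
  rw [h2] at h
  omega

/-- **Bridge.**  S4104 from the star statement. -/
theorem bridge [Finite G]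
    (hstar : ∀ (p : ℕ), p.Prime → ∀ (τ : Finset ℕ), (∀ r ∈ τ, r.Prime ∧ p ≤ r) →
      piPart τ (Nat.card G) < p * kpi (↑τ : Set ℕ) G →
      ∃ R : ℕ → Subgroup G, (∀ r ∈ τ, Nat.card (R r) = r ^ (Nat.card G).factorization r) ∧
        (∀ r ∈ τ, ∀ s ∈ τ, r ≠ s → ∀ x ∈ R r, ∀ y ∈ R s, x * y = y * x))
    (π : Set ℕ) (hπ : ∀ q ∈ π, q.Prime) (p : ℕ) (hp : p ∈ π) (hmin : ∀ q ∈ π, p ≤ q)
    (m : ℕ) (hm : m ∣ Nat.card G) (hmπ : ∀ q : ℕ, q.Prime → q ∣ m → q ∈ π)
    (hm' : ∀ q ∈ π, ¬ q ∣ Nat.card G / m)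
    (k : ℕ) (hk : k = Nat.card {C : ConjClasses G // ∀ q : ℕ, q.Prime →
      (∃ g : G, ConjClasses.mk g = C ∧ q ∣ orderOf g) → q ∈ π})
    (hmany : m < p * k) :
    ∃ H : Subgroup G, Nat.card H = m ∧ Group.IsNilpotent H ∧ Nat.card (commutator H) ≤ p := by
  classical
  have hpp : p.Prime := hπ p hp
  have hpf : Fact p.Prime := ⟨hpp⟩
  set n := Nat.card G with hn
  have hn0 : n ≠ 0 := Nat.card_pos.ne'
  set τ := tauOf π n with hτdef
  have hτ : ∀ r ∈ τ, r.Prime ∧ p ≤ r := fun r hr =>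
    ⟨prime_of_mem_tauOf hr, hmin r (mem_pi_of_mem_tauOf hr)⟩
  have hτp : ∀ r ∈ τ, r.Prime := fun r hr => (hτ r hr).1
  have hmeq : m = piPart τ n := eq_piPart_tauOf π hn0 hm hmπ hm'
  have hkeq : k = kpi (↑τ : Set ℕ) G := by
    rw [hk, card_stmt_eq_kpi, kpi_eq_kpi_tauOf]
  have h : piPart τ n < p * kpi (↑τ : Set ℕ) G := by
    rw [← hmeq, ← hkeq]; exact hmany
  obtain ⟨R, hRc, hRcomm⟩ := hstar p hpp τ hτ h
  -- the product of the `R r`
  have hcomm : Pairwise fun i j : τ => ∀ x y : G, x ∈ R i → y ∈ R j → Commute x y := by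
    intro i j hij x y hx hy
    exact hRcomm i i.2 j j.2 (fun e => hij (Subtype.ext e)) x hx y hy
  have hF : ∀ i : τ, Fintype (R (i : ℕ)) := fun i => Fintype.ofFinite _
  have hcop : Pairwise fun i j : τ =>
      Nat.Coprime (Fintype.card (R (i : ℕ))) (Fintype.card (R (j : ℕ))) := by
    intro i j hij
    rw [← Nat.card_eq_fintype_card, ← Nat.card_eq_fintype_card, hRc i i.2, hRc j j.2]
    apply Nat.Coprime.pow
    exact (Nat.coprime_primes (hτp i i.2) (hτp j j.2)).mpr (fun e => hij (Subtype.ext e))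
  have hind := Subgroup.independent_of_coprime_order hcomm hcop
  have hinj := Subgroup.injective_noncommPiCoprod_of_iSupIndep (hcomm := hcomm) hind
  obtain ⟨e, -⟩ : ∃ e : (∀ i : τ, R (i : ℕ)) ≃* (Subgroup.noncommPiCoprod hcomm).range, True :=
    ⟨MonoidHom.ofInjective hinj, trivial⟩
  have hpg : ∀ i : τ, IsPGroup (i : ℕ) (R (i : ℕ)) := fun i => IsPGroup.of_card (hRc i i.2)
  have hnil : ∀ i : τ, Group.IsNilpotent (R (i : ℕ)) := fun i => by
    have : Fact (i : ℕ).Prime := ⟨hτp i i.2⟩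
    exact (hpg i).isNilpotent
  have hlt : ∀ i : τ, Nat.card (R (i : ℕ)) < p * Nat.card (ConjClasses (R (i : ℕ))) := fun i =>
    card_lt_mul_classes p τ hτp h i.2 (R i) (hRc i i.2)
  have hcomm1 : ∀ i : τ, (i : ℕ) ≠ p → Nat.card (commutator (R (i : ℕ))) = 1 := by
    intro i hi
    have hps : p < (i : ℕ) := lt_of_le_of_ne (hτ i i.2).2 (Ne.symm hi)
    have hab := abelian_of_lt (hτp i i.2) hps (hpg i) (hlt i)
    have hbot : commutator (R (i : ℕ)) = ⊥ := by
      rw [commutator_def, Subgroup.commutator_eq_bot_iff_le_centralizer]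
      intro x _
      rw [Subgroup.mem_centralizer_iff]
      intro y _
      exact hab y x
    rw [hbot]
    exact Subgroup.card_bot
  have hcommp : ∀ i : τ, (i : ℕ) = p → Nat.card (commutator (R (i : ℕ))) ≤ p := by
    intro i hi
    obtain ⟨r, hr⟩ := i
    have hi' : r = p := hi
    subst hi'
    exact Cfsg.Agent.Lib.Helper1.PGroupKP.card_commutator_le_of_lt r (hpg ⟨r, hr⟩) (hlt ⟨r, hr⟩)
  refine ⟨(Subgroup.noncommPiCoprod hcomm).range, ?_, ?_, ?_⟩
  · rw [Nat.card_congr e.symm.toEquiv, Nat.card_pi, hmeq]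
    unfold piPart
    rw [← Finset.prod_coe_sort τ (fun q => q ^ n.factorization q)]
    apply Finset.prod_congr rfl
    intro i _
    exact hRc i i.2
  · exact Group.nilpotent_of_mulEquiv e
  · -- the commutator subgroup
    have h1 : commutator (Subgroup.noncommPiCoprod hcomm).range
        = (commutator (∀ i : τ, R (i : ℕ))).map e.toMonoidHom := by
      have hs : Function.Surjective e.toMonoidHom := e.surjective
      rw [commutator_def, commutator_def, Subgroup.map_commutator,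
        Subgroup.map_top_of_surjective _ hs]
    have hi : Function.Injective e.toMonoidHom := e.injective
    rw [h1, Subgroup.card_map_of_injective hi]
    have h2 : commutator (∀ i : τ, R (i : ℕ))
        ≤ Subgroup.pi Set.univ (fun i : τ => commutator (R (i : ℕ))) := by
      rw [commutator_def]
      have := Subgroup.commutator_pi_pi_le (fun i : τ => (⊤ : Subgroup (R (i : ℕ))))
        (fun i : τ => (⊤ : Subgroup (R (i : ℕ))))
      rw [Subgroup.pi_top] at this
      exact this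
    have h3 : Nat.card (Subgroup.pi Set.univ (fun i : τ => commutator (R (i : ℕ))))
        ≤ ∏ i : τ, Nat.card (commutator (R (i : ℕ))) := by
      rw [← Nat.card_pi]
      refine Nat.card_le_card_of_injective
        (fun x i => ⟨x.1 i, x.2 i (Set.mem_univ i)⟩) ?_
      intro x y hxy
      apply Subtype.ext
      funext i
      exact congrArg (fun f => ((f i : commutator (R (i : ℕ))) : R (i : ℕ))) hxy
    refine (Subgroup.card_le_of_le h2).trans (h3.trans ?_)
    by_cases hpτ : p ∈ τ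
    · rw [Finset.prod_eq_single (⟨p, hpτ⟩ : τ)]
      · exact hcommp ⟨p, hpτ⟩ rfl
      · intro i _ hi
        exact hcomm1 i (fun e => hi (Subtype.ext e))
      · intro h; exact absurd (Finset.mem_univ _) h
    · rw [Finset.prod_eq_one]
      · exact hpp.one_le
      · intro i _
        exact hcomm1 i (fun e => hpτ (e ▸ i.2))

end Cfsg.Agent.Lib.Helper1.PiBridge
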