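import Mathlib
import Cfsg.Agent.Lib.Helper1.PiClasses
import Cfsg.Agent.Lib.Helper1.InvSyl
import Cfsg.Agent.Lib.Helper30.PiHall
import Cfsg.Agent.Lib.Helper30.PiHallA
import Cfsg.Agent.Lib.Helper2.PComp
import Cfsg.Agent.Lib.Helper2.Hall

set_option autoImplicit false

/-!
# The case `N = D` of the "many π-classes" theorem (threshold `1/p`)

`caseND`: `R` a commuting family of abelian Sylow `s`-subgroups (`s ∈ σ`, all `> p`) with hull
`H`, whose common normalizer equals its common centralizer.  If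
`|G|_p |G|_σ < p k_{σ ∪ {p}}(G)` then some Sylow `p`-subgroup of `G` centralizes `H`.

Proof: `G = L ⋊ H` (Burnside transfer for each prime of σ); an `H`-invariant Sylow
`p`-subgroup `P` (Glauberman's lemma, `InvSyl`); every `σ ∪ {p}`-element is conjugate to `x y`
with `y ∈ H`, `x ∈ C_P(y)`; orbit counting gives `k |H| ≤ ∑_{x ∈ P} |C_H(x)|²`, and if `H`
does not centralize `P` then `|C_H(x)| ≤ |H|/(p+1)` off `C_P(H)` and `|P : C_P(H)| ≥ p + 2`,
whence `(p+1) k ≤ |P| |H|`.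
-/

namespace Cfsg.Agent.Lib.Helper1.PiND

open Cfsg.Agent.Lib.Helper1.PiClasses Cfsg.Agent.Lib.Helper30.PiHall
  Cfsg.Agent.Lib.Helper1.InvSyl

universe u

section Structure

variable {G : Type u} [Group G] [Finite G]

/-- `N = D` forces `N_G(R_s) ≤ C_G(R_s)` for each member of the family -/
theorem normalizer_le_centralizer {σ : Finset ℕ} {R : ℕ → Subgroup G} (hR : Fam σ ⊤ R)
    (hND : NR σ R ≤ DR σ R) {s : ℕ} (hs : s ∈ σ) :
    Subgroup.normalizer (R s : Set G) ≤ Subgroup.centralizer (R s : Set G) := by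
  intro n hn
  set X := Subgroup.centralizer (R s : Set G) with hX
  have hF1 : Fam (σ.erase s) X R := by
    apply (hR.subset (Finset.erase_subset s σ)).mono le_top
    intro t ht x hx
    rw [hX, Subgroup.mem_centralizer_iff]
    intro z hz
    exact hR.comm s hs t (Finset.mem_of_mem_erase ht) z hz x hx
  have hF2 : Fam (σ.erase s) X (fun t => cj n (R t)) := by
    have h0 : Fam (σ.erase s) ⊤ (fun t => cj n (R t)) :=
      (hR.subset (Finset.erase_subset s σ)).conj (Subgroup.mem_top n)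
    apply h0.mono le_top
    intro t ht x hx
    obtain ⟨z, hz, rfl⟩ := mem_cj.mp hx
    rw [hX, Subgroup.mem_centralizer_iff]
    intro w hw
    have hw' : n⁻¹ * w * n ∈ R s := (Subgroup.mem_normalizer_iff''.mp hn w).mp hw
    have hc := hR.comm s hs t (Finset.mem_of_mem_erase ht) _ hw' z hz
    calc w * (n * z * n⁻¹) = n * ((n⁻¹ * w * n) * z) * n⁻¹ := by group
      _ = n * (z * (n⁻¹ * w * n)) * n⁻¹ := by rw [hc]
      _ = n * z * n⁻¹ * w := by group
  obtain ⟨c, hcX, hc⟩ := fam_conj (σ.erase s) X R (fun t => cj n (R t)) hF1 hF2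
  have hmem : n⁻¹ * c ∈ NR σ R := by
    apply mem_NR_of_conj
    intro t ht y hy
    by_cases hts : t = s
    · subst hts
      have h1 : y * c = c * y := Subgroup.mem_centralizer_iff.mp hcX y hy
      have h2 : n⁻¹ * y * n ∈ R t := (Subgroup.mem_normalizer_iff''.mp hn y).mp hy
      have h3 : n⁻¹ * c * y * (n⁻¹ * c)⁻¹ = n⁻¹ * y * n := by
        calc n⁻¹ * c * y * (n⁻¹ * c)⁻¹ = n⁻¹ * (c * y) * c⁻¹ * n := by group
          _ = n⁻¹ * (y * c) * c⁻¹ * n := by rw [h1]
          _ = n⁻¹ * y * n := by group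
      rw [h3]; exact h2
    · have h1 := hc t (Finset.mem_erase.mpr ⟨hts, ht⟩) y hy
      obtain ⟨z, hz, hzeq⟩ := mem_cj.mp h1
      have h3 : n⁻¹ * c * y * (n⁻¹ * c)⁻¹ = z := by
        calc n⁻¹ * c * y * (n⁻¹ * c)⁻¹ = n⁻¹ * (c * y * c⁻¹) * n := by group
          _ = n⁻¹ * (n * z * n⁻¹) * n := by rw [hzeq]
          _ = z := by group
      rw [h3]; exact hz
  have hD := mem_DR.mp (hND hmem) s hs
  have h4 : n = c * (n⁻¹ * c)⁻¹ := by group
  rw [h4]
  exact X.mul_mem hcX (X.inv_mem hD)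

theorem card_hull_eq {σ : Finset ℕ} {R : ℕ → Subgroup G} (hR : Fam σ ⊤ R) :
    Nat.card (hull σ R) = piPart σ (Nat.card G) := by
  rw [hR.card_hull, Subgroup.card_top]

/-- `N = D` gives a normal complement to the hull -/
theorem exists_setup {σ : Finset ℕ} {R : ℕ → Subgroup G} (hR : Fam σ ⊤ R)
    (hND : NR σ R ≤ DR σ R) {q : ℕ} (hq : q.Prime) (hqσ : q ∉ σ) :
    ∃ L : Subgroup G, Setup L (hull σ R) q := by
  have hcardtop : Nat.card (⊤ : Subgroup G) = Nat.card G := Subgroup.card_top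
  have hH := card_hull_eq hR
  have hHall : Nat.Coprime (Nat.card (hull σ R)) (hull σ R).index := by
    apply Nat.coprime_of_dvd
    intro l hl hlH hlI
    have hlσ : l ∈ σ := prime_dvd_piPart hR.prime hl (hH ▸ hlH)
    have h1 := fact_eq hl (le_hull hlσ) (le_top : hull σ R ≤ ⊤) (hR.card l hlσ)
    rw [hcardtop] at h1
    have h2 : Nat.card (hull σ R) * (hull σ R).index = Nat.card G := Subgroup.card_mul_index _
    have hidx : (hull σ R).index ≠ 0 := Subgroup.index_ne_zero_of_finite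
    have h3 : (Nat.card G).factorization l = (Nat.card (hull σ R)).factorization l
        + ((hull σ R).index).factorization l := by
      rw [← h2, Nat.factorization_mul Nat.card_pos.ne' hidx]; rfl
    have h5 : 1 ≤ ((hull σ R).index).factorization l :=
      (hl.dvd_iff_one_le_factorization hidx).mp hlI
    omega
  obtain ⟨L, hLn, hLc⟩ := Cfsg.Agent.Lib.Helper2.Hall.exists_normal_complement_of_forall
    (hull σ R) hHall (by
      intro l hl hlH
      have hlσ : l ∈ σ := prime_dvd_piPart hR.prime hl (hH ▸ hlH)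
      have : Fact l.Prime := ⟨hl⟩
      exact Cfsg.Agent.Lib.Helper2.PComp.hasNormalPComplement_of_normalizer_le_centralizer
        (Sylow.ofCard (R l) (by rw [hR.card l hlσ, hcardtop]))
        (normalizer_le_centralizer hR hND hlσ))
  refine ⟨L, ⟨hLn, hLc, ?_, fun x hx y hy => hR.hull_comm hx hy, hq, ?_⟩⟩
  · have h1 : (hull σ R).index = Nat.card L := hLc.index_eq_card
    rw [← h1]; exact hHall.symm
  · intro hd
    exact hqσ (prime_dvd_piPart hR.prime hq (hH ▸ hd))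

/-- every `insert q σ`-element is conjugate to `x * y`, `y` in the hull, `x ∈ C_P(y)` -/
theorem cover {σ : Finset ℕ} {R : ℕ → Subgroup G} (hR : Fam σ ⊤ R) {L : Subgroup G} {q : ℕ}
    (hS : Setup L (hull σ R) q) (P : Subgroup G)
    (hP : Nat.card P = q ^ (Nat.card G).factorization q) (hi : Inv (hull σ R) P) (g : G)
    (hg : IsPiElt (insert q (↑σ : Set ℕ)) g) :
    ∃ y ∈ hull σ R, ∃ x ∈ P, x * y = y * x ∧ ∃ t : G, t * g * t⁻¹ = x * y := by
  obtain ⟨u, y₀, hcomm, rfl, hu, hy₀⟩ := exists_decomp hS.prime hg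
  obtain ⟨g₁, _, hg₁⟩ := fam_cover σ ⊤ R hR y₀ (Subgroup.mem_top _) hy₀
  obtain ⟨k, hk⟩ := (isPiElt_singleton_iff hS.prime).mp hu
  have hu₁ : ∃ k : ℕ, orderOf (g₁ * u * g₁⁻¹) = q ^ k := ⟨k, by rw [orderOf_conj', hk]⟩
  have hcomm₁ : g₁ * u * g₁⁻¹ * (g₁ * y₀ * g₁⁻¹) = g₁ * y₀ * g₁⁻¹ * (g₁ * u * g₁⁻¹) := by
    calc g₁ * u * g₁⁻¹ * (g₁ * y₀ * g₁⁻¹) = g₁ * (u * y₀) * g₁⁻¹ := by group
      _ = g₁ * (y₀ * u) * g₁⁻¹ := by rw [hcomm.eq]
      _ = g₁ * y₀ * g₁⁻¹ * (g₁ * u * g₁⁻¹) := by group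
  obtain ⟨c, hcy, hcP⟩ := exists_conj_mem hS P hP hi _ hg₁ _ hu₁ hcomm₁
  refine ⟨g₁ * y₀ * g₁⁻¹, hg₁, c * (g₁ * u * g₁⁻¹) * c⁻¹, hcP, ?_, c * g₁, ?_⟩
  · calc c * (g₁ * u * g₁⁻¹) * c⁻¹ * (g₁ * y₀ * g₁⁻¹)
        = c * (g₁ * u * g₁⁻¹) * c⁻¹ * ((g₁ * y₀ * g₁⁻¹) * c) * c⁻¹ := by group
      _ = c * (g₁ * u * g₁⁻¹) * c⁻¹ * (c * (g₁ * y₀ * g₁⁻¹)) * c⁻¹ := by rw [hcy]
      _ = c * ((g₁ * u * g₁⁻¹) * (g₁ * y₀ * g₁⁻¹)) * c⁻¹ := by group
      _ = c * ((g₁ * y₀ * g₁⁻¹) * (g₁ * u * g₁⁻¹)) * c⁻¹ := by rw [hcomm₁]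
      _ = (c * (g₁ * y₀ * g₁⁻¹)) * (g₁ * u * g₁⁻¹) * c⁻¹ := by group
      _ = ((g₁ * y₀ * g₁⁻¹) * c) * (g₁ * u * g₁⁻¹) * c⁻¹ := by rw [hcy]
      _ = g₁ * y₀ * g₁⁻¹ * (c * (g₁ * u * g₁⁻¹) * c⁻¹) := by group
  · calc c * g₁ * (u * y₀) * (c * g₁)⁻¹
        = c * (g₁ * u * g₁⁻¹) * (c⁻¹ * (c * (g₁ * y₀ * g₁⁻¹))) * c⁻¹ := by group
      _ = c * (g₁ * u * g₁⁻¹) * (c⁻¹ * ((g₁ * y₀ * g₁⁻¹) * c)) * c⁻¹ := by rw [hcy]
      _ = c * (g₁ * u * g₁⁻¹) * c⁻¹ * (g₁ * y₀ * g₁⁻¹) := by group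

end Structure

section Coset

variable {G : Type u} [Group G] [Finite G]

omit [Finite G] in
theorem conj_rel (a z x c c' : G) (hca : c * a = a * c) (hc'a : c' * a = a * c')
    (h : a * x * a⁻¹ * c = (a * z) * x * (a * z)⁻¹ * c') : x⁻¹ * z * x = (c * c'⁻¹) * z := by
  have h1 : a⁻¹ * c * a = c := by rw [mul_assoc, hca, ← mul_assoc, inv_mul_cancel, one_mul]
  have h1' : a⁻¹ * c' * a = c' := by rw [mul_assoc, hc'a, ← mul_assoc, inv_mul_cancel, one_mul]
  have h2 : x * c = z * x * z⁻¹ * c' := by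
    calc x * c = x * (a⁻¹ * c * a) := by rw [h1]
      _ = a⁻¹ * (a * x * a⁻¹ * c) * a := by group
      _ = a⁻¹ * ((a * z) * x * (a * z)⁻¹ * c') * a := by rw [h]
      _ = z * x * z⁻¹ * (a⁻¹ * c' * a) := by group
      _ = z * x * z⁻¹ * c' := by rw [h1']
  calc x⁻¹ * z * x = x⁻¹ * (z * x * z⁻¹ * c') * c'⁻¹ * z := by group
    _ = x⁻¹ * (x * c) * c'⁻¹ * z := by rw [h2]
    _ = c * c'⁻¹ * z := by group

omit [Finite G] in
/-- a `q`-element `e` with `x⁻¹ z x = e z`, `e z = z e`, `z` of order prime to `q`, is trivial -/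
theorem eq_one_of_conj {q : ℕ} (hq : q.Prime) (x z e : G) (he : ∃ k : ℕ, e ^ q ^ k = 1)
    (hz : ¬ q ∣ orderOf z) (hez : e * z = z * e) (h : x⁻¹ * z * x = e * z) : e = 1 := by
  set n := orderOf z with hn
  have h1 : orderOf (x⁻¹ * z * x) = n := by
    have := orderOf_conj' x⁻¹ z
    rwa [inv_inv] at this
  have h2 : (e * z) ^ n = 1 := by
    rw [← h, ← h1]; exact pow_orderOf_eq_one _
  have h3 : (e * z) ^ n = e ^ n * z ^ n := (Commute.mul_pow (show Commute e z from hez) n)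
  rw [h3, hn, pow_orderOf_eq_one, mul_one] at h2
  obtain ⟨k, hk⟩ := he
  have h4 : orderOf e ∣ orderOf z := orderOf_dvd_of_pow_eq_one h2
  have h5 : orderOf e ∣ q ^ k := orderOf_dvd_of_pow_eq_one hk
  have hcop : Nat.Coprime (q ^ k) (orderOf z) :=
    Nat.Coprime.pow_left _ ((Nat.Prime.coprime_iff_not_dvd hq).mpr hz)
  have h6 : orderOf e = 1 := Nat.eq_one_of_dvd_coprimes hcop h5 h4
  exact orderOf_eq_one_iff.mp h6

/-- if `H` does not centralize the `q`-group `P` it normalizes, then `|P : C_P(H)| ≥ r + 1`,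
`r` a lower bound for the prime divisors of `|H|` -/
theorem coset_bound {q : ℕ} (hq : q.Prime) (P H : Subgroup G) (hPq : IsPGroup q P)
    (hi : Inv H P) (r : ℕ) (hr : ∀ l : ℕ, l.Prime → l ∣ Nat.card H → r ≤ l)
    (hqH : ¬ q ∣ Nat.card H) (x y : G) (hx : x ∈ P) (hy : y ∈ H) (hxy : x * y ≠ y * x) :
    (r + 1) * Nat.card (P ⊓ Subgroup.centralizer (H : Set G) : Subgroup G) ≤ Nat.card P := by
  classical
  set C : Subgroup G := P ⊓ Subgroup.centralizer (H : Set G) with hC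
  -- elements of `C` commute with powers of `y`
  have hCy : ∀ c ∈ C, ∀ i : ℕ, c * y ^ i = y ^ i * c := by
    intro c hc i
    exact (Subgroup.mem_centralizer_iff.mp hc.2 (y ^ i) (H.pow_mem hy i)).symm
  have hqy : ∀ i : ℕ, ¬ q ∣ orderOf (y ^ i) := by
    intro i hd
    apply hqH
    have h1 : orderOf (y ^ i) ∣ Nat.card H := by
      have := orderOf_dvd_natCard (⟨y ^ i, H.pow_mem hy i⟩ : H)
      rwa [Subgroup.orderOf_mk] at this
    exact hd.trans h1
  have hPe : ∀ e ∈ P, ∃ k : ℕ, e ^ q ^ k = 1 := by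
    intro e he
    obtain ⟨k, hk⟩ := hPq ⟨e, he⟩
    exact ⟨k, by simpa using congrArg Subtype.val hk⟩
  -- key: distinct conjugates lie in distinct cosets
  have key : ∀ i j : ℕ, i < j → j < r → ∀ c ∈ C, ∀ c' ∈ C,
      y ^ i * x * (y ^ i)⁻¹ * c ≠ y ^ j * x * (y ^ j)⁻¹ * c' := by
    intro i j hij hjr c hc c' hc' heq
    obtain ⟨d, rfl⟩ : ∃ d, j = i + d := ⟨j - i, by omega⟩
    have hd0 : 0 < d := by omega
    rw [pow_add] at heq
    have h1 := conj_rel (y ^ i) (y ^ d) x c c' (hCy c hc i) (hCy c' hc' i) heq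
    have heC : c * c'⁻¹ ∈ C := C.mul_mem hc (C.inv_mem hc')
    have he1 : c * c'⁻¹ = 1 :=
      eq_one_of_conj hq x (y ^ d) (c * c'⁻¹) (hPe _ heC.1) (hqy d) (hCy _ heC d) h1
    rw [he1, one_mul] at h1
    -- `y ^ d` commutes with `x`
    have h2 : x * y ^ d = y ^ d * x := by
      calc x * y ^ d = x * (x⁻¹ * y ^ d * x) := by rw [h1]
        _ = y ^ d * x := by group
    have hcop : Nat.Coprime d (orderOf y) := by
      apply Nat.coprime_of_dvd
      intro l hl hld hly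
      have h3 : l ≤ d := Nat.le_of_dvd hd0 hld
      have h4 : orderOf y ∣ Nat.card H := by
        have := orderOf_dvd_natCard (⟨y, hy⟩ : H)
        rwa [Subgroup.orderOf_mk] at this
      have h5 := hr l hl (hly.trans h4)
      omega
    obtain ⟨m, hm⟩ := exists_pow_eq_self_of_coprime hcop
    apply hxy
    have h6 : Commute x ((y ^ d) ^ m) := (show Commute x (y ^ d) from h2).pow_right m
    rw [hm] at h6
    exact h6.eq
  have hnone : ∀ i : ℕ, ∀ c ∈ C, ∀ c' ∈ C, y ^ i * x * (y ^ i)⁻¹ * c ≠ c' := by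
    intro i c hc c' hc' heq
    have h1 : y ^ i * x * (y ^ i)⁻¹ = c' * c⁻¹ := by rw [← heq]; group
    have h2 : c' * c⁻¹ ∈ C := C.mul_mem hc' (C.inv_mem hc)
    have h3 := hCy _ h2 1
    rw [pow_one, ← h1] at h3
    apply hxy
    have h4 : Commute (y ^ i) y := (Commute.refl y).pow_left i
    have h5 : (y ^ i)⁻¹ * y * y ^ i = y := by
      rw [mul_assoc, ← h4.eq, ← mul_assoc, inv_mul_cancel, one_mul]
    calc x * y = x * ((y ^ i)⁻¹ * y * y ^ i) := by rw [h5]
      _ = (y ^ i)⁻¹ * (y ^ i * x * (y ^ i)⁻¹ * y) * y ^ i := by group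
      _ = (y ^ i)⁻¹ * (y * (y ^ i * x * (y ^ i)⁻¹)) * y ^ i := by rw [h3]
      _ = ((y ^ i)⁻¹ * y * y ^ i) * x := by group
      _ = y * x := by rw [h5]
  -- the injection
  let f : Option (Fin r) × C → P := fun t =>
    match t.1 with
    | none => ⟨(t.2 : G), t.2.2.1⟩
    | some i => ⟨y ^ (i : ℕ) * x * (y ^ (i : ℕ))⁻¹ * (t.2 : G),
        P.mul_mem (hi _ (H.pow_mem hy _) x hx) t.2.2.1⟩
  have hf : Function.Injective f := by
    rintro ⟨a, c⟩ ⟨b, c'⟩ hEq
    have hval := congrArg Subtype.val hEq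
    rcases a with _ | i <;> rcases b with _ | j
    · simp only [f] at hval
      exact Prod.ext rfl (Subtype.ext hval)
    · simp only [f] at hval
      exact absurd hval.symm (hnone j c' c'.2 c c.2)
    · simp only [f] at hval
      exact absurd hval (hnone i c c.2 c' c'.2)
    · simp only [f] at hval
      rcases lt_trichotomy (i : ℕ) (j : ℕ) with hlt | heq | hgt
      · exact absurd hval (key i j hlt j.2 c c.2 c' c'.2)
      · have hij : i = j := Fin.ext heq
        subst hij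
        have h1 : (c : G) = c' := mul_left_cancel hval
        exact Prod.ext rfl (Subtype.ext h1)
      · exact absurd hval.symm (key j i hgt i.2 c' c'.2 c c.2)
  have hcard := Nat.card_le_card_of_injective f hf
  rw [Nat.card_prod, Nat.card_eq_fintype_card (α := Option (Fin r)), Fintype.card_option,
    Fintype.card_fin] at hcard
  exact hcard

end Coset

section Count

variable {G : Type u} [Group G] [Fintype G]

/-- conjugation on the second component of a pair -/
def actP (z : G) (t : G × G) : G × G := (t.1, z * t.2 * z⁻¹)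

open scoped Classical in
/-- number of elements of `H` centralizing `x` -/
noncomputable def cnt (H : Subgroup G) (x : G) : ℕ :=
  ((elts H).filter (fun g => g * x * g⁻¹ = x)).card

open scoped Classical in
theorem stc_actP (H : Subgroup G) (t : G × G) : stc H actP t = cnt H t.2 := by
  unfold stc cnt
  congr 1
  ext g
  simp only [Finset.mem_filter, Finset.mem_univ, true_and, mem_elts, actP, Prod.ext_iff,
    true_and]

theorem cnt_le (H : Subgroup G) (x : G) : cnt H x ≤ Nat.card H := by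
  classical
  unfold cnt
  rw [← card_elts]
  exact Finset.card_filter_le _ _

open scoped Classical in
theorem cnt_eq (H : Subgroup G) (x : G) :
    cnt H x = Nat.card (H ⊓ Subgroup.centralizer ({x} : Set G) : Subgroup G) := by
  unfold cnt
  rw [← card_elts]
  congr 1
  ext g
  simp only [Finset.mem_filter, mem_elts, Subgroup.mem_inf, Subgroup.mem_centralizer_iff,
    Set.mem_singleton_iff, forall_eq]
  rw [mul_inv_eq_iff_eq_mul, eq_comm]

open scoped Classical in
/-- the orbit count: `k_{σ ∪ {q}}(G) |H| ≤ ∑_{x ∈ P} |C_H(x)|²` -/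
theorem count_le {σ : Finset ℕ} {R : ℕ → Subgroup G} (hR : Fam σ ⊤ R) {L : Subgroup G} {q : ℕ}
    (hS : Setup L (hull σ R) q) (P : Subgroup G)
    (hP : Nat.card P = q ^ (Nat.card G).factorization q) (hi : Inv (hull σ R) P) :
    kpi (insert q (↑σ : Set ℕ)) G * Nat.card (hull σ R)
      ≤ ∑ x ∈ elts P, cnt (hull σ R) x * cnt (hull σ R) x := by
  set H := hull σ R with hH
  set S : Finset (G × G) := (elts H ×ˢ elts P).filter (fun t => t.2 * t.1 = t.1 * t.2)
    with hSdef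
  set Φ : G × G → ConjClasses G := fun t => ConjClasses.mk (t.2 * t.1) with hΦ
  have h1 : kpi (insert q (↑σ : Set ℕ)) G ≤ (S.image Φ).card := by
    rw [kpi_eq_ncard, ← Set.ncard_coe_finset (S.image Φ)]
    apply Set.ncard_le_ncard _ (Finset.finite_toSet _)
    intro C hC
    obtain ⟨g, rfl⟩ := ConjClasses.exists_rep C
    have hg : IsPiElt (insert q (↑σ : Set ℕ)) g := hC g ConjClasses.mem_carrier_mk
    obtain ⟨y, hy, x, hx, hxy, t, ht⟩ := cover hR hS P hP hi g hg
    rw [Finset.mem_coe, Finset.mem_image]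
    refine ⟨(y, x), ?_, ?_⟩
    · rw [hSdef, Finset.mem_filter, Finset.mem_product]
      exact ⟨⟨mem_elts.mpr hy, mem_elts.mpr hx⟩, hxy⟩
    · show ConjClasses.mk (x * y) = ConjClasses.mk g
      rw [eq_comm, ConjClasses.mk_eq_mk_iff_isConj, isConj_iff]
      exact ⟨t, ht⟩
  have h2 := orbit_image_le H actP (fun t => by simp [actP])
    (fun g h t => by simp only [actP]; congr 1; group) S Φ
    (by
      intro t ht g hg
      rw [hSdef, Finset.mem_filter, Finset.mem_product] at ht ⊢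
      obtain ⟨⟨ht1, ht2⟩, ht3⟩ := ht
      have hyH : t.1 ∈ H := mem_elts.mp ht1
      have hgy : g * t.1 = t.1 * g := hS.ab g hg t.1 hyH
      refine ⟨⟨ht1, mem_elts.mpr (hi g hg t.2 (mem_elts.mp ht2))⟩, ?_⟩
      show g * t.2 * g⁻¹ * t.1 = t.1 * (g * t.2 * g⁻¹)
      calc g * t.2 * g⁻¹ * t.1 = g * t.2 * g⁻¹ * (t.1 * g) * g⁻¹ := by group
        _ = g * t.2 * g⁻¹ * (g * t.1) * g⁻¹ := by rw [hgy]
        _ = g * (t.2 * t.1) * g⁻¹ := by group
        _ = g * (t.1 * t.2) * g⁻¹ := by rw [ht3]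
        _ = (g * t.1) * t.2 * g⁻¹ := by group
        _ = (t.1 * g) * t.2 * g⁻¹ := by rw [hgy]
        _ = t.1 * (g * t.2 * g⁻¹) := by group)
    (by
      intro t ht g hg
      rw [hSdef, Finset.mem_filter, Finset.mem_product] at ht
      obtain ⟨⟨ht1, _⟩, _⟩ := ht
      have hyH : t.1 ∈ H := mem_elts.mp ht1
      have hgy : g * t.1 = t.1 * g := hS.ab g hg t.1 hyH
      show ConjClasses.mk (g * t.2 * g⁻¹ * t.1) = ConjClasses.mk (t.2 * t.1)
      rw [eq_comm, ConjClasses.mk_eq_mk_iff_isConj, isConj_iff]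
      refine ⟨g, ?_⟩
      calc g * (t.2 * t.1) * g⁻¹ = g * t.2 * g⁻¹ * (g * t.1) * g⁻¹ := by group
        _ = g * t.2 * g⁻¹ * (t.1 * g) * g⁻¹ := by rw [hgy]
        _ = g * t.2 * g⁻¹ * t.1 := by group)
  have h4 : ∑ t ∈ S, stc H actP t = ∑ x ∈ elts P, cnt H x * cnt H x := by
    rw [hSdef, Finset.sum_filter, Finset.sum_product_right]
    apply Finset.sum_congr rfl
    intro x _
    simp only [stc_actP]
    rw [← Finset.sum_filter, Finset.sum_const, smul_eq_mul]
    congr 1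
    unfold cnt
    congr 1
    ext y
    simp only [Finset.mem_filter]
    rw [mul_inv_eq_iff_eq_mul, eq_comm]
  calc kpi (insert q (↑σ : Set ℕ)) G * Nat.card H ≤ (S.image Φ).card * Nat.card H :=
        Nat.mul_le_mul_right _ h1
    _ ≤ ∑ t ∈ S, stc H actP t := h2
    _ = ∑ x ∈ elts P, cnt H x * cnt H x := h4

end Count

section Main

variable {G : Type u} [Group G] [Finite G]

/-- **The case `N = D`.** -/
theorem caseND (p : ℕ) (hp : p.Prime) (σ : Finset ℕ) (hσ : ∀ s ∈ σ, p < s)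
    (R : ℕ → Subgroup G) (hR : Fam σ ⊤ R) (hND : NR σ R ≤ DR σ R)
    (h : p ^ (Nat.card G).factorization p * piPart σ (Nat.card G)
      < p * kpi (↑(insert p σ)) G) :
    ∃ P : Subgroup G, Nat.card P = p ^ (Nat.card G).factorization p ∧
      ∀ s ∈ σ, ∀ x ∈ P, ∀ y ∈ R s, x * y = y * x := by
  classical
  have : Fintype G := Fintype.ofFinite G
  have hpσ : p ∉ σ := fun hm => lt_irrefl p (hσ p hm)
  obtain ⟨L, hS⟩ := exists_setup hR hND hp hpσ
  obtain ⟨P, _, hPc, hPi⟩ := exists_inv_le hS ⊤ le_top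
  rw [Subgroup.card_top] at hPc
  refine ⟨P, hPc, ?_⟩
  by_contra hne
  push Not at hne
  obtain ⟨s, hs, x, hx, y, hy, hxy⟩ := hne
  have hyH : y ∈ hull σ R := le_hull hs hy
  have hHcard : Nat.card (hull σ R) = piPart σ (Nat.card G) := card_hull_eq hR
  have hprimes : ∀ l : ℕ, l.Prime → l ∣ Nat.card (hull σ R) → p + 1 ≤ l := by
    intro l hl hd
    exact hσ l (prime_dvd_piPart hR.prime hl (hHcard ▸ hd))
  have hPq : IsPGroup p P := IsPGroup.of_card hPc
  have hcos := coset_bound hp P (hull σ R) hPq hPi (p + 1) hprimes hS.ndvd x y hx hyH hxy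
  have hcount := count_le hR hS P hPc hPi
  rw [Finset.coe_insert] at h
  rw [← hPc, ← hHcard] at h
  set H := hull σ R with hH
  set K := kpi (insert p (↑σ : Set ℕ)) G with hK
  set a := Nat.card P with ha
  set b := Nat.card H with hb
  set C : Subgroup G := P ⊓ Subgroup.centralizer (H : Set G) with hC
  have hbpos : 0 < b := Nat.card_pos
  have hcnt_lt : ∀ z ∈ P, z ∉ C → (p + 1) * cnt H z ≤ b := by
    intro z hz hzC
    rw [cnt_eq]
    apply card_idx_le inf_le_left _ hprimes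
    intro hEq
    apply hzC
    refine Subgroup.mem_inf.mpr ⟨hz, ?_⟩
    rw [Subgroup.mem_centralizer_iff]
    intro w hw
    have hw' : w ∈ H ⊓ Subgroup.centralizer ({z} : Set G) := by rw [hEq]; exact hw
    exact (Subgroup.mem_centralizer_iff.mp hw'.2 z (Set.mem_singleton z)).symm
  -- split the sum
  set T := ∑ z ∈ elts P, cnt H z * cnt H z with hT
  set T₁ := ∑ z ∈ (elts P).filter (fun z => z ∈ C), cnt H z * cnt H z with hT₁
  set T₂ := ∑ z ∈ (elts P).filter (fun z => ¬ z ∈ C), cnt H z * cnt H z with hT₂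
  have hsplit : T = T₁ + T₂ := (Finset.sum_filter_add_sum_filter_not _ _ _).symm
  set N := ((elts P).filter (fun z => z ∈ C)).card with hN
  set m := ((elts P).filter (fun z => ¬ z ∈ C)).card with hm
  have hNm : N + m = a := by
    rw [hN, hm, Finset.card_filter_add_card_filter_not, card_elts]
  have hNC : N = Nat.card C := by
    rw [hN, ← card_elts]
    congr 1
    ext z
    simp only [Finset.mem_filter, mem_elts]
    exact ⟨fun hz => hz.2, fun hz => ⟨hz.1, hz⟩⟩
  have h1 : T₁ ≤ N * (b * b) := by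
    rw [hT₁, hN, ← smul_eq_mul, ← Finset.sum_const]
    apply Finset.sum_le_sum
    intro z _
    exact Nat.mul_le_mul (cnt_le H z) (cnt_le H z)
  have h2 : T₂ * ((p + 1) * (p + 1)) ≤ m * (b * b) := by
    calc T₂ * ((p + 1) * (p + 1))
        = ∑ z ∈ (elts P).filter (fun z => ¬ z ∈ C),
            cnt H z * cnt H z * ((p + 1) * (p + 1)) := by rw [hT₂, Finset.sum_mul]
      _ ≤ ∑ _z ∈ (elts P).filter (fun z => ¬ z ∈ C), b * b := by
          apply Finset.sum_le_sum
          intro z hz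
          have hz' := Finset.mem_filter.mp hz
          have h3 := hcnt_lt z (mem_elts.mp hz'.1) hz'.2
          calc cnt H z * cnt H z * ((p + 1) * (p + 1))
              = ((p + 1) * cnt H z) * ((p + 1) * cnt H z) := by ring
            _ ≤ b * b := Nat.mul_le_mul h3 h3
      _ = m * (b * b) := by rw [Finset.sum_const, smul_eq_mul]
  have hcos' : (p + 1 + 1) * N ≤ N + m := by rw [hNm, hNC]; exact hcos
  have hrN : (p + 1) * N ≤ m := by
    have e : (p + 1 + 1) * N = (p + 1) * N + N := by ring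
    omega
  have key1 : (p + 1) * (p + 1) * N + m ≤ (p + 1) * (N + m) := by
    have h3 := Nat.mul_le_mul_left p hrN
    have e1 : (p + 1) * (p + 1) * N = p * ((p + 1) * N) + (p + 1) * N := by ring
    have e2 : (p + 1) * (N + m) = p * m + m + (p + 1) * N := by ring
    omega
  have key2 : (p + 1) * ((p + 1) * T) ≤ (p + 1) * (a * (b * b)) := by
    calc (p + 1) * ((p + 1) * T) = (p + 1) * (p + 1) * T₁ + T₂ * ((p + 1) * (p + 1)) := by
          rw [hsplit]; ring
      _ ≤ (p + 1) * (p + 1) * (N * (b * b)) + m * (b * b) :=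
          Nat.add_le_add (Nat.mul_le_mul_left _ h1) h2
      _ = ((p + 1) * (p + 1) * N + m) * (b * b) := by ring
      _ ≤ ((p + 1) * (N + m)) * (b * b) := Nat.mul_le_mul_right _ key1
      _ = (p + 1) * (a * (b * b)) := by rw [hNm]; ring
  have key3 : (p + 1) * T ≤ a * (b * b) := Nat.le_of_mul_le_mul_left key2 (Nat.succ_pos p)
  have key4 : (p + 1) * K * b ≤ a * b * b := by
    calc (p + 1) * K * b = (p + 1) * (K * b) := by ring
      _ ≤ (p + 1) * T := Nat.mul_le_mul_left _ hcount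
      _ ≤ a * (b * b) := key3
      _ = a * b * b := by ring
  have key5 : (p + 1) * K ≤ a * b := Nat.le_of_mul_le_mul_right key4 hbpos
  have key6 : p * K ≤ (p + 1) * K := Nat.mul_le_mul_right _ (Nat.le_succ p)
  exact absurd (lt_of_lt_of_le h (key6.trans key5)) (lt_irrefl _)

end Main

end Cfsg.Agent.Lib.Helper1.PiND
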