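import Mathlib
import Cfsg.Agent.Lib.Helper18.ReeMultStmt

set_option autoImplicit false

/-! Piece MIXFORM of S2113: a biadditive map `B : K × K → M` with
`B (s a) (s²/φ(s)³ b) = B a b` is trivial.  `B (s a) b = B a (κ(s) b)`, `κ(s) = φ(s)³/s²`;
additivity in `s` gives `B a ((κ(1+s) - 1 - κ(s)) b) = 1`, and
`κ(1+s) - 1 - κ(s) = (1-s)(s³ - φ(s)³)/((1+s)² s²) ≠ 0` for `s³ ≠ s`. -/

namespace Cfsg.Agent.Lib.Helper1.ReeMultMIXFORM

open Cfsg.Agent.Lib.Helper18.ReeMultStmt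

universe v w

theorem main : Cfsg.Agent.Lib.Helper18.ReeMultStmt.MIXFORM.{v, w} := by
  intro K _ φ M _ B h3 hφ hex hadd1 hadd2 hinv
  obtain ⟨s, hs⟩ := hex
  have hs0 : s ≠ 0 := by
    rintro rfl
    exact hs (by simp)
  have hs1 : s ≠ 1 := by
    rintro rfl
    exact hs (by simp)
  have hsm1 : 1 + s ≠ 0 := by
    intro h
    have h1 : s = -1 := by linear_combination h
    rw [h1] at hs
    exact hs (by ring)
  have hf : φ s ^ 3 ≠ s ^ 3 := by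
    intro h
    have h1 : (φ s - s) ^ 3 = 0 := by
      linear_combination h - (φ s ^ 2 * s - φ s * s ^ 2) * h3
    have h2 : φ s = s := sub_eq_zero.mp (pow_eq_zero_iff (by norm_num) |>.mp h1)
    have h4 := hφ s
    rw [h2, h2] at h4
    exact hs h4
  have hk : ∀ t a b, t ≠ 0 → B (t * a) b = B a (φ t ^ 3 / t ^ 2 * b) := by
    intro t a b ht
    have hφt : φ t ≠ 0 := by rwa [Ne, map_eq_zero]
    have h1 := hinv t a (φ t ^ 3 / t ^ 2 * b) ht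
    rw [← h1]
    congr 1
    field_simp
  have e2 : φ (1 + s) ^ 3 = 1 + φ s ^ 3 := by
    rw [map_add, map_one]
    linear_combination (φ s + φ s ^ 2) * h3
  have key : ∀ a b, B a (φ (1 + s) ^ 3 / (1 + s) ^ 2 * b) = B a b * B a (φ s ^ 3 / s ^ 2 * b) := by
    intro a b
    rw [← hk (1 + s) a b hsm1, ← hk s a b hs0, add_mul, one_mul, hadd1]
  have hc0 : φ (1 + s) ^ 3 / (1 + s) ^ 2 - 1 - φ s ^ 3 / s ^ 2 ≠ 0 := by
    intro h0
    have h7 : (1 + φ s ^ 3) / (1 + s) ^ 2 = 1 + φ s ^ 3 / s ^ 2 := by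
      rw [e2] at h0
      linear_combination h0
    have h9 : (1 + φ s ^ 3) / (1 + s) ^ 2 * ((1 + s) ^ 2 * s ^ 2) =
        (1 + φ s ^ 3 / s ^ 2) * ((1 + s) ^ 2 * s ^ 2) := by rw [h7]
    have e3 : (1 + φ s ^ 3) / (1 + s) ^ 2 * ((1 + s) ^ 2 * s ^ 2) = (1 + φ s ^ 3) * s ^ 2 := by
      field_simp
    have e4 : (1 + φ s ^ 3 / s ^ 2) * ((1 + s) ^ 2 * s ^ 2) =
        (1 + s) ^ 2 * s ^ 2 + φ s ^ 3 * (1 + s) ^ 2 := by
      field_simp
    rw [e3, e4] at h9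
    have h8 : (1 - s) * (s ^ 3 - φ s ^ 3) = 0 := by
      linear_combination h9 + (s ^ 3 + φ s ^ 3 * s) * h3
    rcases mul_eq_zero.mp h8 with h | h
    · exact hs1 (by linear_combination -h)
    · exact hf (by linear_combination -h)
  have hB1 : ∀ a b, B a ((φ (1 + s) ^ 3 / (1 + s) ^ 2 - 1 - φ s ^ 3 / s ^ 2) * b) = 1 := by
    intro a b
    have e1 : φ (1 + s) ^ 3 / (1 + s) ^ 2 * b =
        (φ (1 + s) ^ 3 / (1 + s) ^ 2 - 1 - φ s ^ 3 / s ^ 2) * b + (b + φ s ^ 3 / s ^ 2 * b) := by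
      ring
    have h5 := key a b
    rw [e1, hadd2, hadd2] at h5
    have h6 : B a ((φ (1 + s) ^ 3 / (1 + s) ^ 2 - 1 - φ s ^ 3 / s ^ 2) * b) *
        (B a b * B a (φ s ^ 3 / s ^ 2 * b)) = 1 * (B a b * B a (φ s ^ 3 / s ^ 2 * b)) := by
      rw [one_mul]
      exact h5
    exact mul_right_cancel h6
  generalize φ (1 + s) ^ 3 / (1 + s) ^ 2 - 1 - φ s ^ 3 / s ^ 2 = c at hc0 hB1
  intro a b
  have h := hB1 a (b / c)
  have e : c * (b / c) = b := by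
    field_simp
  rw [e] at h
  exact h

end Cfsg.Agent.Lib.Helper1.ReeMultMIXFORM
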