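import Mathlib
import Cfsg.Agent.Lib.Helper18.ReeMultStmt

set_option autoImplicit false

/-! Piece P2ELT of S2113: an element of order 7 of `N(S)` acts on the elementary abelian Sylow
2-subgroup `S` of order 8 without fixed points (else it would centralize `S`, as `8 ≡ 1 mod 7`
forces the fixed subgroup to have order 1 or 8). -/

namespace Cfsg.Agent.Lib.Helper1.ReeMultP2ELT

open Cfsg.Agent.Lib.Helper18.ReeMultStmt

universe u

theorem main : Cfsg.Agent.Lib.Helper18.ReeMultStmt.P2ELT.{u} := by
  intro G _ _ S hS8 hexp hC hN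
  classical
  have hp7 : Fact (Nat.Prime 7) := ⟨by norm_num⟩
  obtain ⟨n0, hn0⟩ := exists_prime_orderOf_dvd_card'
    (G := ↥(Subgroup.normalizer ((S : Subgroup G) : Set G))) 7 (by rw [hN]; norm_num)
  have hn7 : orderOf (n0 : G) = 7 := by
    rw [Subgroup.orderOf_coe]
    exact hn0
  obtain ⟨n, hnN⟩ := n0
  simp only at hn7
  have hnorm : ∀ x ∈ (S : Subgroup G), n * x * n⁻¹ ∈ (S : Subgroup G) := by
    intro x hx
    exact (Subgroup.mem_normalizer_iff.mp hnN x).mp hx
  have hpow : n ^ 7 = 1 := by
    rw [← hn7]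
    exact pow_orderOf_eq_one n
  refine ⟨n, hpow, hnorm, ?_⟩
  intro x hx hcomm
  by_contra hx1
  have : Fintype ↥(S : Subgroup G) := Fintype.ofFinite _
  let f : Function.End ↥(S : Subgroup G) := fun y => ⟨n * y.1 * n⁻¹, hnorm y.1 y.2⟩
  have hfpow : ∀ k : ℕ, ∀ y : ↥(S : Subgroup G), ((f ^ k) y : G) = n ^ k * y.1 * (n ^ k)⁻¹ := by
    intro k
    induction k with
    | zero =>
      intro y
      rw [pow_zero, pow_zero, one_mul, inv_one, mul_one]
      rfl
    | succ k ih =>
      intro y
      have e1 : (f ^ (k + 1)) y = f ((f ^ k) y) := by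
        rw [pow_succ']
        rfl
      rw [e1]
      show n * ((f ^ k) y : G) * n⁻¹ = _
      rw [ih, pow_succ']
      group
  have hf7 : f ^ 7 ^ 1 = 1 := by
    rw [pow_one]
    funext y
    apply Subtype.ext
    rw [hfpow, hpow, one_mul, inv_one, mul_one]
    rfl
  have hmod := Equiv.Perm.card_fixedPoints_modEq (p := 7) (n := 1) hf7
  let Fx : Subgroup G := (S : Subgroup G) ⊓ Subgroup.centralizer {n}
  have hcen : ∀ y : G, y ∈ Subgroup.centralizer ({n} : Set G) ↔ n * y * n⁻¹ = y := by
    intro y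
    rw [Subgroup.mem_centralizer_iff]
    constructor
    · intro h
      have h1 := h n rfl
      rw [h1]
      group
    · intro h m hm
      rw [Set.mem_singleton_iff] at hm
      rw [hm]
      calc n * y = (n * y * n⁻¹) * n := by group
        _ = y * n := by rw [h]
  have hFxcard : Fintype.card (Function.fixedPoints f) = Nat.card Fx := by
    rw [← Nat.card_eq_fintype_card]
    apply Nat.card_congr
    refine
      { toFun := fun y => ⟨y.1.1, ⟨y.1.2, (hcen _).mpr (congrArg Subtype.val y.2)⟩⟩
        invFun := fun z => ⟨⟨z.1, z.2.1⟩, Subtype.ext ((hcen _).mp z.2.2)⟩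
        left_inv := fun y => rfl
        right_inv := fun z => rfl }
  rw [hFxcard, ← Nat.card_eq_fintype_card, hS8] at hmod
  have hdvd : Nat.card Fx ∣ 8 := by
    rw [← hS8]
    exact Subgroup.card_dvd_of_le inf_le_left
  have hxF : x ∈ Fx := by
    refine ⟨hx, (hcen x).mpr ?_⟩
    rw [hcomm]
    group
  have hne1 : Nat.card Fx ≠ 1 := by
    intro h1
    have hbot : Fx = ⊥ := Subgroup.eq_bot_of_card_eq Fx h1
    rw [hbot, Subgroup.mem_bot] at hxF
    exact hx1 hxF
  have h8 : Nat.card Fx = 8 := by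
    have hle : Nat.card Fx ≤ 8 := Nat.le_of_dvd (by norm_num) hdvd
    have hm : 8 % 7 = Nat.card Fx % 7 := hmod
    generalize Nat.card Fx = m at hdvd hne1 hle hm
    interval_cases m <;> first | rfl | omega
  have hFS : Fx = (S : Subgroup G) := by
    apply Subgroup.eq_of_le_of_card_ge inf_le_left
    rw [h8, hS8]
  have hnS : n ∈ (S : Subgroup G) := by
    rw [← hC, Subgroup.mem_centralizer_iff]
    intro y hy
    rw [← hFS] at hy
    have h1 := (hcen y).mp hy.2
    calc y * n = (n * y * n⁻¹) * n := by rw [h1]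
      _ = n * y := by group
  have hnn := hexp n hnS
  have hn1 : n = 1 := by
    have e7 : n ^ 7 = (n * n) ^ 3 * n := by
      rw [← pow_two, ← pow_mul]
      exact pow_succ n 6
    rw [e7, hnn, one_pow, one_mul] at hpow
    exact hpow
  rw [hn1, orderOf_one] at hn7
  omega

end Cfsg.Agent.Lib.Helper1.ReeMultP2ELT
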