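import Mathlib
import Cfsg.Agent.Lib.Helper55.S34Stmt
import Cfsg.Agent.Lib.Helper47.Syl

set_option autoImplicit false
set_option maxHeartbeats 400000

/-!
helper1: piece S1434/CARDZLE (pure group theory).  The conjugates of `Zhat = K Ks ∖ (K ∪ Ks)` are
at most `(|K| - 1)(|Ks| - 1)|G : K Ks|` elements: the set is covered by the image of
`(G ⧸ K Ks) × (K ∖ 1) × (Ks ∖ 1)` under `(q, a, b) ↦ q.out * (a * b) * q.out⁻¹`.
-/

namespace Cfsg.Agent.Lib.Helper1.S34CARDZLE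

open Cfsg.Agent.Lib.Helper54.S68Stmt Cfsg.Agent.Lib.Helper55.S34Stmt

universe u

/-- `K` normalizes `Ks` when they commute elementwise. -/
theorem le_normalizer_of_comm {G : Type u} [Group G] (K Ks : Subgroup G)
    (hcomm : ∀ a ∈ K, ∀ b ∈ Ks, a * b = b * a) : K ≤ Subgroup.normalizer (Ks : Set G) := by
  intro a ha
  rw [Subgroup.mem_normalizer_iff]
  intro b
  constructor
  · intro hb
    have h1 : a * b * a⁻¹ = b := by rw [hcomm a ha b hb, mul_inv_cancel_right]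
    rw [h1]; exact hb
  · intro hb
    have h1 : a * (a * b * a⁻¹) = (a * b * a⁻¹) * a := hcomm a ha _ hb
    have h3 : a * (a * b * a⁻¹) = a * b := by rw [h1]; group
    have h2 : b = a * b * a⁻¹ := (mul_left_cancel h3).symm
    rw [h2]; exact hb

theorem main : CardZLe.{u} := by
  intro G _ _ K Ks hdisj hcomm
  classical
  have hKn : K ≤ Subgroup.normalizer (Ks : Set G) := le_normalizer_of_comm K Ks hcomm
  have hA : ((K : Set G) \ {1}).ncard = Nat.card K - 1 := by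
    rw [Set.ncard_sdiff_singleton_of_mem (show (1:G) ∈ (K : Set G) from K.one_mem)]
    exact congrArg (· - 1) (Nat.card_coe_set_eq (K : Set G)).symm
  have hB : ((Ks : Set G) \ {1}).ncard = Nat.card Ks - 1 := by
    rw [Set.ncard_sdiff_singleton_of_mem (show (1:G) ∈ (Ks : Set G) from Ks.one_mem)]
    exact congrArg (· - 1) (Nat.card_coe_set_eq (Ks : Set G)).symm
  let f : (G ⧸ (K ⊔ Ks)) × ↥((K : Set G) \ {1}) × ↥((Ks : Set G) \ {1}) → G :=
    fun x => x.1.out * ((x.2.1 : G) * (x.2.2 : G)) * x.1.out⁻¹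
  have hsub : {y : G | ∃ z ∈ Zhat K Ks, ∃ g : G, y = g * z * g⁻¹} ⊆ Set.range f := by
    rintro y ⟨z, ⟨hz, hznot⟩, g, rfl⟩
    obtain ⟨a, ha, b, hb, rfl⟩ :=
      Cfsg.Agent.Lib.Helper47.Syl.exists_mul_of_mem_sup_left hKn hz
    have ha1 : a ≠ 1 := by
      rintro rfl
      apply hznot; right; simpa using hb
    have hb1 : b ≠ 1 := by
      rintro rfl
      apply hznot; left; simpa using ha
    obtain ⟨q, hq⟩ : ∃ q : G ⧸ (K ⊔ Ks), q = (g : G ⧸ (K ⊔ Ks)) := ⟨_, rfl⟩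
    have hh : q.out⁻¹ * g ∈ K ⊔ Ks := by
      apply QuotientGroup.eq.mp
      rw [QuotientGroup.out_eq', hq]
    obtain ⟨a', ha', b', hb', hab'⟩ :=
      Cfsg.Agent.Lib.Helper47.Syl.exists_mul_of_mem_sup_left hKn hh
    have hk2 : a' * a * a'⁻¹ ∈ (K : Set G) \ {1} := by
      refine ⟨K.mul_mem (K.mul_mem ha' ha) (K.inv_mem ha'), ?_⟩
      intro h1
      apply ha1
      have h1' : a' * a * a'⁻¹ = 1 := h1
      have h2 : a = a'⁻¹ * (a' * a * a'⁻¹) * a' := by group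
      rw [h2, h1']; group
    have hs2 : b' * b * b'⁻¹ ∈ (Ks : Set G) \ {1} := by
      refine ⟨Ks.mul_mem (Ks.mul_mem hb' hb) (Ks.inv_mem hb'), ?_⟩
      intro h1
      apply hb1
      have h1' : b' * b * b'⁻¹ = 1 := h1
      have h2 : b = b'⁻¹ * (b' * b * b'⁻¹) * b' := by group
      rw [h2, h1']; group
    refine ⟨(q, ⟨_, hk2⟩, ⟨_, hs2⟩), ?_⟩
    show q.out * ((a' * a * a'⁻¹) * (b' * b * b'⁻¹)) * q.out⁻¹ = g * (a * b) * g⁻¹
    have hg : g = q.out * (a' * b') := by rw [← hab']; group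
    have c1 : a * b' = b' * a := hcomm a ha b' hb'
    have c2 : a'⁻¹ * (b' * b * b'⁻¹) = (b' * b * b'⁻¹) * a'⁻¹ :=
      hcomm a'⁻¹ (K.inv_mem ha') _ (Ks.mul_mem (Ks.mul_mem hb' hb) (Ks.inv_mem hb'))
    symm
    calc g * (a * b) * g⁻¹
        = q.out * (a' * (b' * a) * b * b'⁻¹ * a'⁻¹) * q.out⁻¹ := by rw [hg]; group
      _ = q.out * (a' * (a * b') * b * b'⁻¹ * a'⁻¹) * q.out⁻¹ := by rw [c1]
      _ = q.out * (a' * a * ((b' * b * b'⁻¹) * a'⁻¹)) * q.out⁻¹ := by group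
      _ = q.out * (a' * a * (a'⁻¹ * (b' * b * b'⁻¹))) * q.out⁻¹ := by rw [c2]
      _ = q.out * ((a' * a * a'⁻¹) * (b' * b * b'⁻¹)) * q.out⁻¹ := by group
  have hidx : (K ⊔ Ks).index = Nat.card (G ⧸ (K ⊔ Ks)) := rfl
  calc Set.ncard {y : G | ∃ z ∈ Zhat K Ks, ∃ g : G, y = g * z * g⁻¹}
      ≤ Set.ncard (Set.range f) := Set.ncard_le_ncard hsub (Set.toFinite _)
    _ ≤ Nat.card ((G ⧸ (K ⊔ Ks)) × ↥((K : Set G) \ {1}) × ↥((Ks : Set G) \ {1})) := by
        rw [← Set.image_univ]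
        calc (f '' Set.univ).ncard ≤ (Set.univ : Set _).ncard :=
              Set.ncard_image_le (Set.toFinite _)
          _ = Nat.card _ := Set.ncard_univ _
    _ = (Nat.card K - 1) * (Nat.card Ks - 1) * (K ⊔ Ks).index := by
        rw [Nat.card_prod, Nat.card_prod, Nat.card_coe_set_eq, Nat.card_coe_set_eq, hA, hB, hidx]
        ring

end Cfsg.Agent.Lib.Helper1.S34CARDZLE
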