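import Mathlib
import Cfsg.Agent.Lib.Helper23.S69Stmt

set_option autoImplicit false

/-! Piece CCONJ of S1369: `C_G(h z h⁻¹) = h C_G(z) h⁻¹`. -/

namespace Cfsg.Agent.Lib.Helper1.S69CCONJ

open Cfsg Cfsg.Agent.Lib.Helper23.S69Stmt

universe u

theorem main : Cfsg.Agent.Lib.Helper23.S69Stmt.CConj.{u} := by
  intro G _ h z
  ext g
  rw [Subgroup.mem_map]
  simp only [Subgroup.mem_centralizer_iff, Set.mem_singleton_iff, forall_eq,
    MulEquiv.coe_toMonoidHom, MulAut.conj_apply]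
  constructor
  · intro hg
    refine ⟨h⁻¹ * g * h, ?_, by group⟩
    calc z * (h⁻¹ * g * h) = h⁻¹ * (h * z * h⁻¹ * g) * h := by group
      _ = h⁻¹ * (g * (h * z * h⁻¹)) * h := by rw [hg]
      _ = h⁻¹ * g * h * z := by group
  · rintro ⟨n, hn, rfl⟩
    calc h * z * h⁻¹ * (h * n * h⁻¹) = h * (z * n) * h⁻¹ := by group
      _ = h * (n * z) * h⁻¹ := by rw [hn]
      _ = h * n * h⁻¹ * (h * z * h⁻¹) := by group

end Cfsg.Agent.Lib.Helper1.S69CCONJ
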