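import Mathlib

set_option autoImplicit false

/-!
Counting lemma for a cyclic group acting semiregularly on a "symplectic" group modulo its radical
(quadratic form counting): the order divides `p ^ n - 1` or `p ^ n + 1`.
-/

namespace Cfsg.Agent.Lib.Helper1.SympCount

/-- A permutation of period `m` all of whose point stabilizers (in the powers) are trivial
has `m ∣ |X|`. -/
theorem dvd_card_of_free {X : Type*} [Finite X] (σ : Equiv.Perm X) (m : ℕ)
    (hper : σ ^ m = 1) (hfree : ∀ (k : ℕ) (x : X), (σ ^ k) x = x → m ∣ k) : m ∣ Nat.card X := by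
  rcases isEmpty_or_nonempty X with hX | ⟨⟨x₀⟩⟩
  · simp
  have hord : orderOf σ = m := by
    apply Nat.dvd_antisymm (orderOf_dvd_of_pow_eq_one hper)
    apply hfree _ x₀
    rw [pow_orderOf_eq_one]; rfl
  have hstab : ∀ x : X, MulAction.stabilizer (Subgroup.zpowers σ) x = ⊥ := by
    intro x
    rw [Subgroup.eq_bot_iff_forall]
    rintro ⟨g, hg⟩ hgx
    rw [MulAction.mem_stabilizer_iff] at hgx
    have hg' : g ∈ Submonoid.powers σ := (mem_powers_iff_mem_zpowers).mpr hg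
    obtain ⟨k, rfl⟩ := (Submonoid.mem_powers_iff _ _).mp hg'
    have hk : m ∣ k := hfree k x hgx
    apply Subtype.ext
    show σ ^ k = 1
    rw [← hord] at hk
    exact orderOf_dvd_iff_pow_eq_one.mp hk
  have e := MulAction.selfEquivOrbitsQuotientProd hstab
  rw [Nat.card_congr e, Nat.card_prod, Nat.card_zpowers, hord]
  exact dvd_mul_left _ _

/-- Descent lemma. -/
theorem descent (p : ℕ) (hp : p.Prime) (hp2 : p ≠ 2) :
    ∀ (j : ℕ) (s d : ℤ), s ^ 2 + (p : ℤ) * d ^ 2 = 4 * (p : ℤ) ^ (2 * j) →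
      d = 0 ∨ (p = 3 ∧ d ^ 2 = (p : ℤ) ^ (2 * j)) := by
  have hp3 : 3 ≤ p := by
    have := hp.two_le
    omega
  have hpZ : Prime (p : ℤ) := Nat.prime_iff_prime_int.mp hp
  have hp0 : (p : ℤ) ≠ 0 := by exact_mod_cast hp.ne_zero
  intro j
  induction j with
  | zero =>
    intro s d h
    simp only [mul_zero, pow_zero, mul_one] at h
    by_cases hd : d = 0
    · exact Or.inl hd
    · right
      have hd1 : 1 ≤ d ^ 2 := by
        have : 0 < d ^ 2 := by positivity
        omega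
      have hs0 : 0 ≤ s ^ 2 := by positivity
      have hpd : (p : ℤ) * d ^ 2 ≤ 4 := by linarith
      have hp4 : (p : ℤ) ≤ 4 := by nlinarith
      have hp34 : p = 3 ∨ p = 4 := by
        have : p ≤ 4 := by exact_mod_cast hp4
        omega
      rcases hp34 with h3 | h4
      · refine ⟨h3, ?_⟩
        subst h3
        simp only [mul_zero, pow_zero]
        norm_num at hpd
        generalize d ^ 2 = x at *
        omega
      · exfalso
        subst h4
        exact absurd hp (by norm_num)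
  | succ j ih =>
    intro s d h
    have e1 : (p : ℤ) ^ (2 * (j + 1)) = (p : ℤ) ^ (2 * j + 1) * p := by ring
    have e2 : (p : ℤ) ^ (2 * j + 1) = (p : ℤ) ^ (2 * j) * p := by ring
    have h1 : (p : ℤ) ∣ s ^ 2 := by
      have : s ^ 2 = (p : ℤ) * (4 * (p : ℤ) ^ (2 * j + 1) - d ^ 2) := by
        linear_combination h + 4 * e1
      rw [this]; exact dvd_mul_right _ _
    have h2 : (p : ℤ) ∣ s := hpZ.dvd_of_dvd_pow h1
    obtain ⟨s', rfl⟩ := h2
    have h3 : (p : ℤ) * s' ^ 2 + d ^ 2 = 4 * (p : ℤ) ^ (2 * j + 1) := by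
      have : (p : ℤ) * ((p : ℤ) * s' ^ 2 + d ^ 2) = (p : ℤ) * (4 * (p : ℤ) ^ (2 * j + 1)) := by
        linear_combination h + 4 * e1
      exact mul_left_cancel₀ hp0 this
    have h4 : (p : ℤ) ∣ d ^ 2 := by
      have : d ^ 2 = (p : ℤ) * (4 * (p : ℤ) ^ (2 * j) - s' ^ 2) := by
        linear_combination h3 + 4 * e2
      rw [this]; exact dvd_mul_right _ _
    have h5 : (p : ℤ) ∣ d := hpZ.dvd_of_dvd_pow h4
    obtain ⟨d', rfl⟩ := h5
    have h6 : s' ^ 2 + (p : ℤ) * d' ^ 2 = 4 * (p : ℤ) ^ (2 * j) := by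
      have : (p : ℤ) * (s' ^ 2 + (p : ℤ) * d' ^ 2) = (p : ℤ) * (4 * (p : ℤ) ^ (2 * j)) := by
        linear_combination h3 + 4 * e2
      exact mul_left_cancel₀ hp0 this
    rcases ih s' d' h6 with h7 | ⟨h7, h8⟩
    · left; rw [h7]; simp
    · right
      refine ⟨h7, ?_⟩
      have e : (p : ℤ) ^ (2 * (j + 1)) = (p : ℤ) ^ (2 * j) * p ^ 2 := by ring
      rw [e, ← h8]; ring


section Form

variable {P : Type*} [Group P] {p : ℕ} (c : P → P → ZMod p)
  (c1 : ∀ u u' v, c (u * u') v = c u v + c u' v)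
  (c2 : ∀ u v v', c u (v * v') = c u v + c u v')
  (c3 : ∀ u, c u u = 0)

include c1 in
theorem c_one_left (v : P) : c 1 v = 0 := by
  have h := c1 1 1 v
  rw [mul_one] at h
  linear_combination -h

include c1 in
theorem c_inv_left (u v : P) : c u⁻¹ v = - c u v := by
  have h := c1 u u⁻¹ v
  rw [mul_inv_cancel, c_one_left c c1] at h
  linear_combination -h

include c1 in
theorem c_pow_left (u v : P) (j : ℕ) : c (u ^ j) v = j * c u v := by
  induction j with
  | zero => simp [c_one_left c c1]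
  | succ j ih => rw [pow_succ, c1, ih]; push_cast; ring

include c2 in
theorem c_one_right (u : P) : c u 1 = 0 := by
  have h := c2 u 1 1
  rw [mul_one] at h
  linear_combination -h

include c2 in
theorem c_inv_right (u v : P) : c u v⁻¹ = - c u v := by
  have h := c2 u v v⁻¹
  rw [mul_inv_cancel, c_one_right c c2] at h
  linear_combination -h

include c2 in
theorem c_pow_right (u v : P) (j : ℕ) : c u (v ^ j) = j * c u v := by
  induction j with
  | zero => simp [c_one_right c c2]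
  | succ j ih => rw [pow_succ, c2, ih]; push_cast; ring

include c1 c2 c3 in
theorem c_antisymm (u v : P) : c u v = - c v u := by
  have h := c3 (u * v)
  have e1 := c1 u v (u * v)
  have e2 := c2 u u v
  have e3 := c2 v u v
  have e4 := c3 u
  have e5 := c3 v
  linear_combination h - e1 - e2 - e3 - e4 - e5

variable [Finite P] [hp : Fact p.Prime]

include c1 in
theorem card_fiber (n : ℕ) (hP : Nat.card P = p ^ (2 * n + 1)) (a : P) (u₁ : P)
    (hu₁ : c u₁ a ≠ 0) (t : ZMod p) :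
    Nat.card {u : P // c u a = t} = p ^ (2 * n) := by
  have hsurj : ∀ s : ZMod p, ∃ u, c u a = s := by
    intro s
    refine ⟨u₁ ^ (s / c u₁ a).val, ?_⟩
    rw [c_pow_left c c1, ZMod.natCast_zmod_val, div_mul_cancel₀ _ hu₁]
  have hfib : ∀ s : ZMod p, Nat.card {u : P // c u a = s} = Nat.card {u : P // c u a = 0} := by
    intro s
    obtain ⟨us, hus⟩ := hsurj s
    symm
    apply Nat.card_congr
    refine Equiv.subtypeEquiv (Equiv.mulRight us) ?_
    intro u
    simp only [Equiv.coe_mulRight, c1, hus]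
    constructor
    · intro h; rw [h, zero_add]
    · intro h; linear_combination h
  have htot : Nat.card P = ∑ s : ZMod p, Nat.card {u : P // c u a = s} := by
    rw [← Nat.card_sigma]
    exact Nat.card_congr (Equiv.sigmaFiberEquiv (fun u => c u a)).symm
  rw [hP] at htot
  simp only [hfib] at htot
  rw [Finset.sum_const, Finset.card_univ, ZMod.card, smul_eq_mul, pow_succ, mul_comm] at htot
  rw [hfib t]
  exact (Nat.eq_of_mul_eq_mul_left hp.out.pos htot).symm

omit [Group P] in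
theorem sum_M (f : P → ZMod p) : ∑ t : ZMod p, Nat.card {u : P // f u = t} = Nat.card P := by
  rw [← Nat.card_sigma]
  exact Nat.card_congr (Equiv.sigmaFiberEquiv f)

omit [Group P] in
theorem sum_M_sq (f : P → ZMod p) :
    ∑ t : ZMod p, Nat.card {u : P // f u = t} ^ 2 = Nat.card {uv : P × P // f uv.1 = f uv.2} := by
  have e : {uv : P × P // f uv.1 = f uv.2} ≃
      Σ t : ZMod p, {u : P // f u = t} × {u : P // f u = t} :=
    { toFun := fun x => ⟨f x.1.1, ⟨x.1.1, rfl⟩, ⟨x.1.2, x.2.symm⟩⟩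
      invFun := fun y => ⟨(y.2.1.1, y.2.2.1), y.2.1.2.trans y.2.2.2.symm⟩
      left_inv := fun x => rfl
      right_inv := by
        rintro ⟨t, ⟨u, hu⟩, ⟨v, hv⟩⟩
        subst hu
        rfl }
  rw [Nat.card_congr e, Nat.card_sigma]
  simp only [Nat.card_prod, pow_two]

theorem card_pairs (f : P → ZMod p) :
    Nat.card {uv : P × P // f uv.1 = f uv.2} =
      Nat.card (Σ w : P, {u : P // f u = f (u * w)}) := by
  obtain ⟨e, he⟩ : ∃ e : P × P ≃ P × P, ∀ x : P × P, e x = (x.1⁻¹ * x.2, x.1) :=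
    ⟨{ toFun := fun x => (x.1⁻¹ * x.2, x.1)
       invFun := fun y => (y.2, y.2 * y.1)
       left_inv := by intro ⟨u, v⟩; simp
       right_inv := by intro ⟨w, u⟩; simp }, fun _ => rfl⟩
  have e2 : {uv : P × P // f uv.1 = f uv.2} ≃ {wu : P × P // f wu.2 = f (wu.2 * wu.1)} := by
    refine Equiv.subtypeEquiv e ?_
    intro x
    rw [he]
    simp
  exact Nat.card_congr (e2.trans (Equiv.subtypeProdEquivSigmaSubtype (fun w u => f u = f (u * w))))

end Form


section Theta

variable {P : Type*} [Group P] [Finite P] {p : ℕ} [hp : Fact p.Prime] (c : P → P → ZMod p)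
  (c1 : ∀ u u' v, c (u * u') v = c u v + c u' v)
  (c2 : ∀ u v v', c u (v * v') = c u v + c u v')
  (c3 : ∀ u, c u u = 0)
  (Z : Subgroup P) (c4 : ∀ w, (∀ u, c u w = 0) ↔ w ∈ Z)
  (θ : MulAut P) (t1 : ∀ u v, c (θ u) (θ v) = c u v)

include c1 c2 c3 t1 in
theorem f_mul (u w : P) :
    c (u * w) (θ (u * w)) = c u (θ u) + c w (θ w) + c u (θ w * (θ⁻¹ w)⁻¹) := by
  have e1 := c1 u w (θ u * θ w)
  have e2 := c2 u (θ u) (θ w)
  have e3 := c2 w (θ u) (θ w)
  have e4 := c2 u (θ w) (θ⁻¹ w)⁻¹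
  have e5 := c_inv_right c c2 u (θ⁻¹ w)
  have e6 : c w (θ u) = c (θ⁻¹ w) u := by
    have := t1 (θ⁻¹ w) u
    rw [MulAut.apply_inv_self] at this
    exact this
  have e7 := c_antisymm c c1 c2 c3 (θ⁻¹ w) u
  rw [map_mul]
  linear_combination e1 + e2 + e3 - e4 - e5 + e6 + e7

include c4 t1 in
theorem theta_mem (w : P) (hw : w ∈ Z) : θ w ∈ Z := by
  rw [← c4] at hw ⊢
  intro u
  have := t1 (θ⁻¹ u) w
  rw [MulAut.apply_inv_self] at this
  rw [this]; exact hw _

include c4 t1 in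
theorem theta_inv_mem (w : P) (hw : w ∈ Z) : θ⁻¹ w ∈ Z := by
  rw [← c4] at hw ⊢
  intro u
  have := t1 u (θ⁻¹ w)
  rw [MulAut.apply_inv_self] at this
  rw [← this]; exact hw _

include c4 t1 in
theorem f_zero_of_mem (w : P) (hw : w ∈ Z) : c w (θ w) = 0 :=
  (c4 (θ w)).mpr (theta_mem c Z c4 θ t1 w hw) w

variable (m : ℕ) (t3 : ∀ (k : ℕ) (u : P), (θ ^ k) u * u⁻¹ ∈ Z → u ∉ Z → m ∣ k)

include c4 t1 t3 in
theorem g_mem_iff (hm2 : ¬ m ∣ 2) (w : P) : θ w * (θ⁻¹ w)⁻¹ ∈ Z ↔ w ∈ Z := by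
  constructor
  · intro h
    by_contra hw
    have hu : θ⁻¹ w ∉ Z := fun hu => hw (by simpa using theta_mem c Z c4 θ t1 (θ⁻¹ w) hu)
    apply hm2
    apply t3 2 (θ⁻¹ w) _ hu
    have : (θ ^ 2) (θ⁻¹ w) = θ w := by
      rw [pow_two, MulAut.mul_apply, MulAut.apply_inv_self]
    rw [this]; exact h
  · intro hw
    exact Z.mul_mem (theta_mem c Z c4 θ t1 w hw) (Z.inv_mem (theta_inv_mem c Z c4 θ t1 w hw))

open Classical in
include c1 c2 c3 c4 t1 t3 in
theorem card_w (n : ℕ) (hP : Nat.card P = p ^ (2 * n + 1)) (hm2 : ¬ m ∣ 2) (w : P) :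
    Nat.card {u : P // c u (θ u) = c (u * w) (θ (u * w))} =
      if w ∈ Z then p ^ (2 * n + 1) else p ^ (2 * n) := by
  have key : ∀ u, c u (θ u) = c (u * w) (θ (u * w)) ↔
      c u (θ w * (θ⁻¹ w)⁻¹) = - c w (θ w) := by
    intro u
    rw [f_mul c c1 c2 c3 θ t1]
    constructor
    · intro h; linear_combination -h
    · intro h; linear_combination -h
  split_ifs with hw
  · rw [← hP]
    apply Nat.card_congr
    apply Equiv.subtypeUnivEquiv
    intro u
    rw [key, f_zero_of_mem c Z c4 θ t1 w hw, neg_zero]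
    exact (c4 _).mpr ((g_mem_iff c Z c4 θ t1 m t3 hm2 w).mpr hw) u
  · have hg : θ w * (θ⁻¹ w)⁻¹ ∉ Z := fun h => hw ((g_mem_iff c Z c4 θ t1 m t3 hm2 w).mp h)
    rw [← c4] at hg
    simp only [not_forall] at hg
    obtain ⟨u₁, hu₁⟩ := hg
    rw [← card_fiber c c1 n hP (θ w * (θ⁻¹ w)⁻¹) u₁ hu₁ (- c w (θ w))]
    exact Nat.card_congr (Equiv.subtypeEquivRight key)

include c1 c2 c3 c4 t1 t3 in
theorem second_moment (n : ℕ) (hZ : Nat.card Z = p) (hP : Nat.card P = p ^ (2 * n + 1))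
    (hm2 : ¬ m ∣ 2) :
    ∑ t : ZMod p, Nat.card {u : P // c u (θ u) = t} ^ 2 + p * p ^ (2 * n) =
      p * p ^ (2 * n + 1) + p ^ (2 * n + 1) * p ^ (2 * n) := by
  classical
  have := Fintype.ofFinite P
  rw [sum_M_sq (fun u => c u (θ u)), card_pairs (fun u => c u (θ u)), Nat.card_sigma]
  simp only [card_w c c1 c2 c3 Z c4 θ t1 m t3 n hP hm2]
  have hZc : (Finset.univ.filter (fun w : P => w ∈ Z)).card = p := by
    rw [← Fintype.card_subtype, Fintype.card_eq_nat_card]; exact hZ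
  have hZc' : (Finset.univ.filter (fun w : P => w ∉ Z)).card + p = p ^ (2 * n + 1) := by
    rw [← hP, ← Fintype.card_eq_nat_card, ← Finset.card_univ,
      ← Finset.card_filter_add_card_filter_not (s := Finset.univ) (fun w : P => w ∈ Z), hZc, add_comm]
  rw [Finset.sum_ite, Finset.sum_const, Finset.sum_const, smul_eq_mul, smul_eq_mul, hZc]
  have h3 : (Finset.univ.filter (fun w : P => w ∉ Z)).card * p ^ (2 * n) + p * p ^ (2 * n) =
      p ^ (2 * n + 1) * p ^ (2 * n) := by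
    rw [← add_mul, hZc']
  rw [add_assoc, h3]

include c4 t1 t3 in
theorem dvd_M (t2 : ∀ u, (θ ^ m) u = u) (t : ZMod p) (ht : t ≠ 0) :
    m ∣ Nat.card {u : P // c u (θ u) = t} := by
  have hinv : ∀ u, c u (θ u) = t ↔ c (θ u) (θ (θ u)) = t := by
    intro u; rw [t1]
  obtain ⟨σ, hσ⟩ : ∃ σ : Equiv.Perm {u : P // c u (θ u) = t}, ∀ x, (σ x).1 = θ x.1 :=
    ⟨Equiv.subtypeEquiv θ.toEquiv hinv, fun _ => rfl⟩
  have hpow : ∀ (k : ℕ) (x : {u : P // c u (θ u) = t}), ((σ ^ k) x).1 = (θ ^ k) x.1 := by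
    intro k
    induction k with
    | zero => intro x; simp
    | succ k ih =>
      intro x
      rw [pow_succ, pow_succ, Equiv.Perm.mul_apply, ih, hσ, MulAut.mul_apply]
  apply dvd_card_of_free σ m
  · apply Equiv.ext
    intro x
    apply Subtype.ext
    rw [hpow, t2]; rfl
  · intro k x hx
    have h1 : (θ ^ k) x.1 = x.1 := by rw [← hpow, hx]
    apply t3 k x.1
    · rw [h1, mul_inv_cancel]; exact Z.one_mem
    · intro hxZ
      apply ht
      rw [← x.2]
      exact f_zero_of_mem c Z c4 θ t1 x.1 hxZ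

include c1 c2 in
theorem M_scale (n : ℕ) (hP : Nat.card P = p ^ (2 * n + 1)) (a t : ZMod p) (ha : a ≠ 0) :
    Nat.card {u : P // c u (θ u) = a * a * t} = Nat.card {u : P // c u (θ u) = t} := by
  have hcop : (Nat.card P).Coprime a.val := by
    rw [hP]
    apply Nat.Coprime.pow_left
    rw [Nat.Prime.coprime_iff_not_dvd hp.out]
    intro hdvd
    have hpos : 0 < a.val := Nat.pos_of_ne_zero (by rwa [Ne, ZMod.val_eq_zero])
    have := Nat.le_of_dvd hpos hdvd
    exact absurd (ZMod.val_lt a) (by omega)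
  symm
  apply Nat.card_congr
  refine Equiv.subtypeEquiv (powCoprime hcop) ?_
  intro u
  rw [powCoprime_apply, map_pow, c_pow_left c c1, c_pow_right c c2, ZMod.natCast_zmod_val]
  constructor
  · intro h; rw [h]; ring
  · intro h
    have h2 : a * a * (c u (θ u) - t) = 0 := by linear_combination h
    have : c u (θ u) - t = 0 := by
      rcases mul_eq_zero.mp h2 with h3 | h3
      · exact absurd (mul_self_eq_zero.mp h3) ha
      · exact h3
    linear_combination this

end Theta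


section Numeric

theorem numeric (p n m : ℕ) [hp : Fact p.Prime] (hmp : m.Coprime p) (M : ZMod p → ℕ)
    (h1 : ∑ t, M t = p ^ (2 * n + 1))
    (h2 : ∑ t, M t ^ 2 + p * p ^ (2 * n) =
      p * p ^ (2 * n + 1) + p ^ (2 * n + 1) * p ^ (2 * n))
    (h3 : ∀ t, t ≠ 0 → m ∣ M t)
    (h4 : ∀ a t : ZMod p, a ≠ 0 → M (a * a * t) = M t) :
    m ∣ p ^ n - 1 ∨ m ∣ p ^ n + 1 := by
  have hcopn : m.Coprime (p ^ n) := Nat.Coprime.pow_right n hmp
  have hB1 : 1 ≤ p ^ n := Nat.one_le_pow _ _ hp.out.pos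
  have hp0 : (p : ℤ) ≠ 0 := by exact_mod_cast hp.out.ne_zero
  have fin : ∀ y : ℕ, m ∣ y →
      ((y : ℤ) - (p : ℤ) ^ (2 * n) - (p : ℤ) ^ n) * ((y : ℤ) - (p : ℤ) ^ (2 * n) + (p : ℤ) ^ n) = 0 →
      m ∣ p ^ n - 1 ∨ m ∣ p ^ n + 1 := by
    intro y hmy hy
    rcases mul_eq_zero.mp hy with h | h
    · right
      have hy' : y = p ^ n * (p ^ n + 1) := by
        have : (y : ℤ) = ((p ^ n * (p ^ n + 1) : ℕ) : ℤ) := by
          push_cast; linear_combination h
        exact_mod_cast this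
      rw [hy'] at hmy
      exact hcopn.dvd_of_dvd_mul_left hmy
    · left
      have hy' : y = p ^ n * (p ^ n - 1) := by
        have : (y : ℤ) = ((p ^ n * (p ^ n - 1) : ℕ) : ℤ) := by
          rw [Nat.cast_mul, Nat.cast_sub hB1]; push_cast; linear_combination h
        exact_mod_cast this
      rw [hy'] at hmy
      exact hcopn.dvd_of_dvd_mul_left hmy
  rcases eq_or_ne p 2 with rfl | hp2
  · have hs : ∀ F : ZMod 2 → ℕ, ∑ t, F t = F 0 + F 1 := fun F => Fin.sum_univ_two F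
    rw [hs] at h1 h2
    have hm1 := h3 1 one_ne_zero
    apply fin (M 1) hm1
    have E1 : (M 0 : ℤ) + (M 1 : ℤ) = 2 ^ (2 * n + 1) := by exact_mod_cast h1
    have E2 : (M 0 : ℤ) ^ 2 + (M 1 : ℤ) ^ 2 + 2 * 2 ^ (2 * n) =
        2 * 2 ^ (2 * n + 1) + 2 ^ (2 * n + 1) * 2 ^ (2 * n) := by exact_mod_cast h2
    push_cast
    have : (2:ℤ) * (((M 1 : ℤ) - 2 ^ (2 * n) - 2 ^ n) * ((M 1 : ℤ) - 2 ^ (2 * n) + 2 ^ n)) = 0 := by
      linear_combination E2 - ((M 0 : ℤ) + 2 ^ (2 * n + 1) - (M 1 : ℤ)) * E1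
    exact (mul_eq_zero.mp this).resolve_left (by norm_num)
  · have hp2' : ringChar (ZMod p) ≠ 2 := by rw [ZMod.ringChar_zmod_n]; exact hp2
    obtain ⟨ν, hν⟩ := quadraticChar_exists_neg_one hp2'
    have hν0 : ν ≠ 0 := by
      rintro rfl
      rw [quadraticChar_zero] at hν
      norm_num at hν
    have key : ∀ t : ZMod p, t ≠ 0 →
        2 * (M t : ℤ) = ((M 1 : ℤ) + (M ν⁻¹ : ℤ)) +
          quadraticChar (ZMod p) t * ((M 1 : ℤ) - (M ν⁻¹ : ℤ)) := by
      intro t ht
      rcases quadraticChar_dichotomy ht with h | h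
      · obtain ⟨a, ha⟩ := (quadraticChar_one_iff_isSquare ht).mp h
        have ha0 : a ≠ 0 := by
          rintro rfl
          rw [mul_zero] at ha
          exact ht ha
        have hMt : M t = M 1 := by
          have := h4 a 1 ha0
          rw [mul_one, ← ha] at this
          exact this
        rw [h, hMt]; ring
      · have h' : quadraticChar (ZMod p) (t * ν) = 1 := by rw [map_mul, h, hν]; norm_num
        have htν : t * ν ≠ 0 := mul_ne_zero ht hν0
        obtain ⟨a, ha⟩ := (quadraticChar_one_iff_isSquare htν).mp h'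
        have ha0 : a ≠ 0 := by
          rintro rfl
          rw [mul_zero] at ha
          exact htν ha
        have ht' : a * a * ν⁻¹ = t := by
          rw [← ha, mul_assoc, mul_inv_cancel₀ hν0, mul_one]
        have hMt : M t = M ν⁻¹ := by
          have := h4 a ν⁻¹ ha0
          rw [ht'] at this
          exact this
        rw [h, hMt]; ring
    have hmy : (m : ℤ) ∣ (M 1 : ℤ) := Int.natCast_dvd_natCast.mpr (h3 1 one_ne_zero)
    have hmz : (m : ℤ) ∣ (M ν⁻¹ : ℤ) := Int.natCast_dvd_natCast.mpr (h3 ν⁻¹ (inv_ne_zero hν0))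
    have h1' : ∑ t, (M t : ℤ) = p * (p : ℤ) ^ (2 * n) := by
      have : ((∑ t, M t : ℕ) : ℤ) = ((p ^ (2 * n + 1) : ℕ) : ℤ) := by rw [h1]
      push_cast at this
      rw [this]; ring
    have h2' : ∑ t, (M t : ℤ) ^ 2 + p * (p : ℤ) ^ (2 * n) =
        p * (p * (p : ℤ) ^ (2 * n)) + (p * (p : ℤ) ^ (2 * n)) * (p : ℤ) ^ (2 * n) := by
      have : ((∑ t, M t ^ 2 + p * p ^ (2 * n) : ℕ) : ℤ) =
          ((p * p ^ (2 * n + 1) + p ^ (2 * n + 1) * p ^ (2 * n) : ℕ) : ℤ) := by rw [h2]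
      push_cast at this
      rw [this]; ring
    generalize hy : (M 1 : ℤ) = y at *
    generalize (M ν⁻¹ : ℤ) = z at *
    have key1 : ∀ t : ZMod p, 2 * (M t : ℤ) = (y + z) + quadraticChar (ZMod p) t * (y - z) +
        (if t = 0 then 2 * (M 0 : ℤ) - (y + z) else 0) := by
      intro t
      by_cases ht : t = 0
      · subst ht
        rw [quadraticChar_zero, if_pos rfl]; ring
      · rw [if_neg ht, add_zero]; exact key t ht
    have key2 : ∀ t : ZMod p, 4 * (M t : ℤ) ^ 2 = (y + z) ^ 2 + (y - z) ^ 2 +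
        2 * (y + z) * (y - z) * quadraticChar (ZMod p) t +
        (if t = 0 then 4 * (M 0 : ℤ) ^ 2 - (y + z) ^ 2 - (y - z) ^ 2 else 0) := by
      intro t
      by_cases ht : t = 0
      · subst ht
        rw [quadraticChar_zero, if_pos rfl]; ring
      · rw [if_neg ht, add_zero]
        have e1 := key t ht
        have e2 := quadraticChar_sq_one ht
        have : 4 * (M t : ℤ) ^ 2 = (2 * (M t : ℤ)) ^ 2 := by ring
        rw [this, e1]
        linear_combination (y - z) ^ 2 * e2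
    generalize (M 0 : ℤ) = x at *
    have E1 : 2 * ((p : ℤ) * (p : ℤ) ^ (2 * n)) = p * (y + z) + (2 * x - (y + z)) := by
      have hsum : 2 * ∑ t, (M t : ℤ) = ∑ t, ((y + z) + quadraticChar (ZMod p) t * (y - z) +
          (if t = 0 then 2 * x - (y + z) else 0)) := by
        rw [Finset.mul_sum]; exact Finset.sum_congr rfl (fun t _ => key1 t)
      rw [Finset.sum_add_distrib, Finset.sum_add_distrib, ← Finset.sum_mul,
        quadraticChar_sum_zero hp2', Finset.sum_const, Finset.card_univ, ZMod.card,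
        Finset.sum_ite_eq', if_pos (Finset.mem_univ _), h1'] at hsum
      rw [hsum]; simp
    have E2 : 4 * (p * (p * (p : ℤ) ^ (2 * n)) + (p * (p : ℤ) ^ (2 * n)) * (p : ℤ) ^ (2 * n)
        - p * (p : ℤ) ^ (2 * n)) =
        p * ((y + z) ^ 2 + (y - z) ^ 2) + (4 * x ^ 2 - (y + z) ^ 2 - (y - z) ^ 2) := by
      have hsum : 4 * ∑ t, (M t : ℤ) ^ 2 = ∑ t, ((y + z) ^ 2 + (y - z) ^ 2 +
        2 * (y + z) * (y - z) * quadraticChar (ZMod p) t +
        (if t = 0 then 4 * x ^ 2 - (y + z) ^ 2 - (y - z) ^ 2 else 0)) := by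
        rw [Finset.mul_sum]; exact Finset.sum_congr rfl (fun t _ => key2 t)
      rw [Finset.sum_add_distrib, Finset.sum_add_distrib, ← Finset.mul_sum,
        quadraticChar_sum_zero hp2', Finset.sum_const, Finset.card_univ, ZMod.card,
        Finset.sum_ite_eq', if_pos (Finset.mem_univ _)] at hsum
      have h2'' : ∑ t, (M t : ℤ) ^ 2 = p * (p * (p : ℤ) ^ (2 * n)) +
          (p * (p : ℤ) ^ (2 * n)) * (p : ℤ) ^ (2 * n) - p * (p : ℤ) ^ (2 * n) := by
        linear_combination h2'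
      rw [← h2'', hsum]; simp
    have hq : ((p : ℤ) - 1) * ((y - z) ^ 2 + p * ((y + z) - 2 * (p : ℤ) ^ (2 * n)) ^ 2
        - 4 * p * (p : ℤ) ^ (2 * n)) = 0 := by
      linear_combination (2 * x + (2 * p * (p : ℤ) ^ (2 * n) - (p - 1) * (y + z))) * E1 - E2
    have hp1 : (p : ℤ) - 1 ≠ 0 := by
      have := hp.out.one_lt
      intro h
      have h' : (p : ℤ) = 1 := by linarith
      have h'' : p = 1 := by exact_mod_cast h'
      omega
    have K := (mul_eq_zero.mp hq).resolve_left hp1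
    have hpZ : Prime (p : ℤ) := Nat.prime_iff_prime_int.mp hp.out
    have hd : (p : ℤ) ∣ (y - z) := by
      apply hpZ.dvd_of_dvd_pow (n := 2)
      refine ⟨4 * (p : ℤ) ^ (2 * n) - ((y + z) - 2 * (p : ℤ) ^ (2 * n)) ^ 2, ?_⟩
      linear_combination K
    obtain ⟨d₁, hd₁⟩ := hd
    have K2 : ((y + z) - 2 * (p : ℤ) ^ (2 * n)) ^ 2 + p * d₁ ^ 2 = 4 * (p : ℤ) ^ (2 * n) := by
      have : (p : ℤ) * (((y + z) - 2 * (p : ℤ) ^ (2 * n)) ^ 2 + p * d₁ ^ 2) =
          p * (4 * (p : ℤ) ^ (2 * n)) := by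
        rw [hd₁] at K; linear_combination K
      exact mul_left_cancel₀ hp0 this
    rcases descent p hp.out hp2 n _ _ K2 with h0 | ⟨_, hd2⟩
    · have hyz : y = z := by rw [h0, mul_zero] at hd₁; linarith
      apply fin (M 1) (h3 1 one_ne_zero)
      rw [hy]
      have h4 : (4 : ℤ) * ((y - (p : ℤ) ^ (2 * n) - (p : ℤ) ^ n) *
          (y - (p : ℤ) ^ (2 * n) + (p : ℤ) ^ n)) = 0 := by
        rw [h0, ← hyz] at K2; linear_combination K2
      exact (mul_eq_zero.mp h4).resolve_left (by norm_num)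
    · left
      have hmd : (m : ℤ) ∣ (y - z) ^ 2 := Dvd.dvd.pow (dvd_sub hmy hmz) two_ne_zero
      have : (y - z) ^ 2 = ((p ^ (2 * n + 2) : ℕ) : ℤ) := by
        rw [hd₁]; push_cast; linear_combination (p : ℤ) ^ 2 * hd2
      rw [this] at hmd
      have hm1 : m = 1 :=
        Nat.Coprime.eq_one_of_dvd (Nat.Coprime.pow_right _ hmp) (Int.natCast_dvd_natCast.mp hmd)
      rw [hm1]; exact one_dvd _

end Numeric


/-- Main counting lemma: a "semiregular modulo the radical" isometry of period `m` prime to `p`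
of a symplectic-type group of order `p ^ (2 n + 1)` has `m ∣ p ^ n - 1` or `m ∣ p ^ n + 1`. -/
theorem main {P : Type*} [Group P] [Finite P] (p n m : ℕ) [hp : Fact p.Prime]
    (Z : Subgroup P) (hZ : Nat.card Z = p) (hP : Nat.card P = p ^ (2 * n + 1))
    (c : P → P → ZMod p) (θ : MulAut P) (hm : 0 < m) (hmp : m.Coprime p)
    (c1 : ∀ u u' v, c (u * u') v = c u v + c u' v)
    (c2 : ∀ u v v', c u (v * v') = c u v + c u v')
    (c3 : ∀ u, c u u = 0)
    (c4 : ∀ w, (∀ u, c u w = 0) ↔ w ∈ Z)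
    (t1 : ∀ u v, c (θ u) (θ v) = c u v)
    (t2 : ∀ u, (θ ^ m) u = u)
    (t3 : ∀ (k : ℕ) (u : P), (θ ^ k) u * u⁻¹ ∈ Z → u ∉ Z → m ∣ k) :
    m ∣ p ^ n - 1 ∨ m ∣ p ^ n + 1 := by
  by_cases hm2 : m ∣ 2
  · have hle : m ≤ 2 := Nat.le_of_dvd (by norm_num) hm2
    interval_cases m
    · left; exact one_dvd _
    · left
      have hodd : Odd p := Nat.coprime_two_left.mp hmp
      have hodd' : Odd (p ^ n) := hodd.pow
      have hev : Even (p ^ n - 1) := Nat.Odd.sub_odd hodd' odd_one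
      exact even_iff_two_dvd.mp hev
  · exact numeric p n m hmp (fun t => Nat.card {u : P // c u (θ u) = t})
      (by rw [sum_M, hP]) (second_moment c c1 c2 c3 Z c4 θ t1 m t3 n hZ hP hm2)
      (fun t ht => dvd_M c Z c4 θ t1 m t3 t2 t ht)
      (fun a t ha => M_scale c c1 c2 θ n hP a t ha)

end Cfsg.Agent.Lib.Helper1.SympCount
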