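import Mathlib
import Cfsg.Agent.Lib.Helper44.TPStmt

/-!
# S5973 / SQNEG1: `q ≡ 1 (4)`, `x^2 = -1`: every `m ≤ d` has an invariant totally singular
`m`-space (inside the eigenspace of a square root of `-1`).
-/

set_option autoImplicit false

namespace Cfsg.Agent.Lib.Helper1.TPSQNEG1

open Cfsg.Agent.Lib.Helper44.TPStmt
open scoped Matrix

universe u

theorem two_ne_zero_of_mod4 (F : Type u) [Field F] [Fintype F] (h : Fintype.card F % 4 = 1) :
    (2 : F) ≠ 0 := by
  apply Ring.two_ne_zero
  intro hc
  have := FiniteField.even_card_iff_char_two.mp hc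
  omega

/-- A subspace of any smaller dimension. -/
theorem exists_le_finrank_eq {F : Type u} [Field F] {V : Type u} [AddCommGroup V] [Module F V]
    [FiniteDimensional F V] {W : Submodule F V} {k : ℕ} (hk : k ≤ Module.finrank F W) :
    ∃ W' ≤ W, Module.finrank F W' = k := by
  set b := Module.finBasis F W with hb
  set f : Fin k → V := fun i => (b (Fin.castLE hk i) : V) with hf
  refine ⟨Submodule.span F (Set.range f), ?_, ?_⟩
  · rw [Submodule.span_le]
    rintro _ ⟨i, rfl⟩
    exact (b _).2
  · have h1 : LinearIndependent F (fun i => (b i : V)) :=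
      b.linearIndependent.map' W.subtype (Submodule.ker_subtype W)
    have hli : LinearIndependent F f := h1.comp _ (Fin.castLE_injective hk)
    rw [finrank_span_eq_card hli, Fintype.card_fin]

theorem quad_smul (d : ℕ) (F : Type u) [Field F] (c : F) (v : J d → F) :
    Cfsg.quadFormPlus d F (c • v) = c * c * Cfsg.quadFormPlus d F v := by
  unfold Cfsg.quadFormPlus
  rw [Finset.mul_sum]
  refine Finset.sum_congr rfl fun i _ => ?_
  simp only [Pi.smul_apply, smul_eq_mul]
  ring

theorem main (hTop : Top.{u}) (hHalf : TsHalf.{u}) : SqNeg1.{u} := by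
  intro F _ _ hq d m hmd x hx hx2
  have h2 : (2 : F) ≠ 0 := two_ne_zero_of_mod4 F hq
  obtain ⟨ι, hι⟩ : IsSquare (-1 : F) := FiniteField.isSquare_neg_one_iff.mpr (by omega)
  have hι0 : ι ≠ 0 := by
    rintro rfl
    simp at hι
  set X : Matrix (J d) (J d) F := (x : Matrix (J d) (J d) F) with hX
  have hXX : X * X = (-1 : F) • (1 : Matrix (J d) (J d) F) := by
    rw [← hx2, pow_two, Units.val_mul]
  let f : (J d → F) →ₗ[F] (J d → F) := Matrix.toLin' X
  have hf : ∀ v, f v = X *ᵥ v := fun v => Matrix.toLin'_apply X v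
  have hff : ∀ v, f (f v) = -v := by
    intro v
    rw [hf, hf, Matrix.mulVec_mulVec, hXX, Matrix.smul_mulVec, Matrix.one_mulVec, neg_one_smul]
  have hiso : ∀ v, Cfsg.quadFormPlus d F (f v) = Cfsg.quadFormPlus d F v := by
    intro v
    rw [hf]
    exact hx v v
  let Ep : Submodule F (J d → F) := LinearMap.ker (f - ι • LinearMap.id)
  let Em : Submodule F (J d → F) := LinearMap.ker (f + ι • LinearMap.id)
  have hEp : ∀ v, v ∈ Ep ↔ f v = ι • v := by
    intro v
    simp only [Ep, LinearMap.mem_ker, LinearMap.sub_apply, LinearMap.smul_apply,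
      LinearMap.id_apply, sub_eq_zero]
  have hEm : ∀ v, v ∈ Em ↔ f v = -(ι • v) := by
    intro v
    simp only [Em, LinearMap.mem_ker, LinearMap.add_apply, LinearMap.smul_apply,
      LinearMap.id_apply, add_eq_zero_iff_eq_neg]
  -- both eigenspaces are totally singular
  have hTSp : TSub d F Ep := by
    intro v hv
    have h1 := hiso v
    rw [(hEp v).mp hv, quad_smul] at h1
    have h3 : (2 : F) * Cfsg.quadFormPlus d F v = 0 := by
      linear_combination -h1 - Cfsg.quadFormPlus d F v * hι
    exact (mul_eq_zero.mp h3).resolve_left h2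
  have hTSm : TSub d F Em := by
    intro v hv
    have h1 := hiso v
    rw [(hEm v).mp hv, ← neg_smul, quad_smul] at h1
    have h3 : (2 : F) * Cfsg.quadFormPlus d F v = 0 := by
      linear_combination -h1 - Cfsg.quadFormPlus d F v * hι
    exact (mul_eq_zero.mp h3).resolve_left h2
  -- dimension count
  have h2ι : (2 : F) * ι ≠ 0 := mul_ne_zero h2 hι0
  have hinf : Ep ⊓ Em = ⊥ := by
    rw [eq_bot_iff]
    rintro v ⟨hvp, hvm⟩
    have h1 := (hEp v).mp hvp
    have h2' := (hEm v).mp hvm
    have h3 : ((2 : F) * ι) • v = 0 := by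
      rw [mul_smul, two_smul]
      have h4 : ι • v = -(ι • v) := h1.symm.trans h2'
      nth_rewrite 1 [h4]
      exact neg_add_cancel _
    have h5 := (smul_eq_zero.mp h3).resolve_left h2ι
    rw [h5]
    exact Submodule.zero_mem _
  have hsup : Ep ⊔ Em = ⊤ := by
    rw [eq_top_iff]
    intro v _
    have ha : f v + ι • v ∈ Ep := by
      rw [hEp, map_add, map_smul, hff, smul_add, smul_smul, ← hι, neg_one_smul, add_comm]
    have hb : f v - ι • v ∈ Em := by
      rw [hEm, map_sub, map_smul, hff, smul_sub, smul_smul, ← hι, neg_one_smul]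
      abel
    have hv : v = ((2 : F) * ι)⁻¹ • (f v + ι • v) + (-((2 : F) * ι)⁻¹) • (f v - ι • v) := by
      have h6 : f v + ι • v - (f v - ι • v) = ((2 : F) * ι) • v := by
        rw [mul_smul, two_smul]
        abel
      rw [neg_smul, ← sub_eq_add_neg, ← smul_sub, h6, smul_smul, inv_mul_cancel₀ h2ι, one_smul]
    rw [hv]
    exact Submodule.add_mem_sup (Ep.smul_mem _ ha) (Em.smul_mem _ hb)
  have hcard : Module.finrank F (J d → F) = 2 * d := by
    rw [Module.finrank_fintype_fun_eq_card, Fintype.card_sum, Fintype.card_fin]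
    ring
  have hdim : Module.finrank F Ep + Module.finrank F Em = 2 * d := by
    have h := Submodule.finrank_sup_add_finrank_inf_eq Ep Em
    rw [hsup, hinf, finrank_top, finrank_bot, add_zero] at h
    rw [← h, hcard]
  have hND : NDeg d F ⊤ := (hTop F d).1
  have hp := hHalf F d ⊤ Ep hND le_top hTSp
  have hm' := hHalf F d ⊤ Em hND le_top hTSm
  rw [finrank_top, hcard] at hp hm'
  have hEpd : Module.finrank F Ep = d := by omega
  obtain ⟨W, hWE, hWm⟩ := exists_le_finrank_eq (W := Ep) (k := m) (by omega)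
  refine ⟨W, hWm, fun w hw => hTSp w (hWE hw), ?_⟩
  rintro _ ⟨w, hw, rfl⟩
  have h7 : f w = ι • w := (hEp w).mp (hWE hw)
  change f w ∈ W
  rw [h7]
  exact W.smul_mem _ hw

end Cfsg.Agent.Lib.Helper1.TPSQNEG1
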